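import Cfsg.Agent.GeoLow.TensorSO.Data
import Cfsg.Agent.MaxSub.TensorMax.SympMain
import Cfsg.Agent.ClassicalMax.SympProper
import Cfsg.Agent.Forms.Symplectic

/-!
The standard symplectic space with a decomposition into a symplectic and an orthogonal factor.
-/

set_option autoImplicit false

namespace Cfsg.Agent.GeoLow.TensorSO

open Module Matrix Cfsg.Geo
open Cfsg.Agent.MaxSub.TensorMax (colMap toMat toAct toAct_apply toAct_tensorElt tensorElt
  tensorElt_mem ext_colMap form_eq_sum mem_tensor_of_tens Tens)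
open Cfsg.Agent.Forms (sympBil sympBil_apply)
open scoped MatrixGroups Kronecker

variable {F : Type*} [Field F] {m n₁ n₂ : ℕ}

/-- The hypotheses of a tensor decomposition of the standard alternating form. -/
structure Setup (m n₁ n₂ : ℕ) (e : (Fin m ⊕ Fin m) ≃ Fin n₁ × Fin n₂)
    (P : GL (Fin m ⊕ Fin m) F) (f₁ : (Fin n₁ → F) → (Fin n₁ → F) → F)
    (f₂ : (Fin n₂ → F) → (Fin n₂ → F) → F) : Prop where
  symp : IsSymplecticForm f₁
  orth : IsSymmetricForm f₂
  str : IsTensorFormStructure id (Cfsg.sympForm m F) f₁ f₂ e P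
  two : (2 : F) ≠ 0
  three : 3 ≤ n₂

/-- The action on the standard space. -/
def toEndUnits (m : ℕ) (F : Type*) [Field F] :
    GL (Fin m ⊕ Fin m) F →* (Module.End F (Fin m ⊕ Fin m → F))ˣ :=
  Matrix.GeneralLinearGroup.toLin.toMonoidHom

lemma toEndUnits_apply (g : GL (Fin m ⊕ Fin m) F) (v : Fin m ⊕ Fin m → F) :
    (toEndUnits m F g : Module.End F (Fin m ⊕ Fin m → F)) v =
      (g : Matrix (Fin m ⊕ Fin m) (Fin m ⊕ Fin m) F) *ᵥ v := rfl

section Concrete

variable (e : (Fin m ⊕ Fin m) ≃ Fin n₁ × Fin n₂) (P : GL (Fin m ⊕ Fin m) F)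

/-- Pure tensors of the standard space. -/
noncomputable def pureMap : (Fin n₁ → F) →ₗ[F] (Fin n₂ → F) →ₗ[F] (Fin m ⊕ Fin m → F) :=
  LinearMap.mk₂ F (fun u w => (toMat e P).symm (colMap w u))
    (fun u u' w => by rw [map_add, map_add])
    (fun c u w => by rw [map_smul, map_smul])
    (fun u w w' => by
      rw [← map_add]; congr 1
      exact Matrix.vecMulVec_add u w w')
    (fun c u w => by
      rw [← map_smul]; congr 1
      exact Matrix.vecMulVec_smul c u w)

lemma pureMap_apply (u : Fin n₁ → F) (w : Fin n₂ → F) :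
    pureMap e P u w = (toMat e P).symm (colMap w u) := rfl

lemma pureMap_eq (u : Fin n₁ → F) (w : Fin n₂ → F) :
    pureMap e P u w = (P : Matrix (Fin m ⊕ Fin m) (Fin m ⊕ Fin m) F) *ᵥ
      ((fun q : Fin n₁ × Fin n₂ => u q.1 * w q.2) ∘ e) := rfl

/-- Linear maps agreeing on pure tensors are equal. -/
lemma ext_pureMap {M : Type*} [AddCommGroup M] [Module F M]
    {f g : (Fin m ⊕ Fin m → F) →ₗ[F] M}
    (h : ∀ x w, f (pureMap e P x w) = g (pureMap e P x w)) : f = g :=
  LinearMap.ext fun v => by
    have := ext_colMap (φ := f ∘ₗ (toMat e P).symm.toLinearMap)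
      (ψ := g ∘ₗ (toMat e P).symm.toLinearMap) (fun w u => h u w) (toMat e P v)
    simpa using this

lemma tensorElt_pureMap (A : GL (Fin n₁) F) (B : GL (Fin n₂) F) (x : Fin n₁ → F) (w : Fin n₂ → F) :
    ((tensorElt e P A B : GL (Fin m ⊕ Fin m) F) : Matrix (Fin m ⊕ Fin m) (Fin m ⊕ Fin m) F) *ᵥ
        pureMap e P x w =
      pureMap e P ((A : Matrix (Fin n₁) (Fin n₁) F) *ᵥ x)
        ((B : Matrix (Fin n₂) (Fin n₂) F) *ᵥ w) := by
  apply (toMat e P).injective
  rw [pureMap_apply, pureMap_apply, LinearEquiv.apply_symm_apply, ← toAct_apply,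
    toAct_tensorElt]
  show (A : Matrix (Fin n₁) (Fin n₁) F) * vecMulVec x w * _ = vecMulVec _ _
  rw [Matrix.mul_vecMulVec, Matrix.vecMulVec_mul, Matrix.vecMul_transpose]

end Concrete

namespace Setup

variable {e : (Fin m ⊕ Fin m) ≃ Fin n₁ × Fin n₂} {P : GL (Fin m ⊕ Fin m) F}
  {f₁ : (Fin n₁ → F) → (Fin n₁ → F) → F} {f₂ : (Fin n₂ → F) → (Fin n₂ → F) → F}
  (h : Setup m n₁ n₂ e P f₁ f₂)

/-- The similarity constant. -/
noncomputable def const : F := Classical.choose h.str

lemma const_ne : h.const ≠ 0 := (Classical.choose_spec h.str).1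

/-- The form on the first factor. -/
noncomputable def omB : LinearMap.BilinForm F (Fin n₁ → F) :=
  h.const • LinearMap.mk₂ F f₁ h.symp.bilinear.add_left h.symp.bilinear.smul_left
    h.symp.bilinear.add_right h.symp.bilinear.smul_right

lemma omB_apply (x y : Fin n₁ → F) : h.omB x y = h.const * f₁ x y := rfl

/-- The form on the second factor. -/
noncomputable def sB : LinearMap.BilinForm F (Fin n₂ → F) :=
  LinearMap.mk₂ F f₂ h.orth.bilinear.add_left h.orth.bilinear.smul_left
    h.orth.bilinear.add_right h.orth.bilinear.smul_right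

lemma sB_apply (x y : Fin n₂ → F) : h.sB x y = f₂ x y := rfl

/-- The functional contracting with a vector of the first factor. -/
noncomputable def etaV (x : Fin n₁ → F) : Fin n₁ → F := h.const • (x ᵥ* gramMatrix f₁)

lemma etaV_dot (x u : Fin n₁ → F) : h.etaV x ⬝ᵥ u = h.omB x u := by
  rw [h.omB_apply, form_eq_sum h.symp.bilinear, etaV, smul_dotProduct, smul_eq_mul]
  congr 1
  simp only [dotProduct, Matrix.vecMul, Finset.sum_mul]
  rw [Finset.sum_comm]

/-- Contractions. -/
noncomputable def contract :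
    (Fin n₁ → F) →ₗ[F] (Fin m ⊕ Fin m → F) →ₗ[F] (Fin n₂ → F) :=
  LinearMap.mk₂ F (fun x v => h.etaV x ᵥ* toMat e P v)
    (fun x x' v => by rw [etaV, Matrix.add_vecMul, smul_add, Matrix.add_vecMul]; rfl)
    (fun c x v => by
      rw [etaV, etaV, Matrix.smul_vecMul c x, smul_comm h.const c, Matrix.smul_vecMul c])
    (fun x v v' => by rw [map_add, Matrix.vecMul_add])
    (fun c x v => by rw [map_smul, Matrix.vecMul_smul])

lemma contract_apply (x : Fin n₁ → F) (v : Fin m ⊕ Fin m → F) :
    h.contract x v = h.etaV x ᵥ* toMat e P v := rfl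

lemma contract_pureMap (x y : Fin n₁ → F) (w : Fin n₂ → F) :
    h.contract x (pureMap e P y w) = h.omB x y • w := by
  rw [h.contract_apply, pureMap_apply, LinearEquiv.apply_symm_apply]
  show h.etaV x ᵥ* vecMulVec y w = _
  rw [Matrix.vecMul_vecMulVec, h.etaV_dot]

lemma form_pureMap (x y : Fin n₁ → F) (w z : Fin n₂ → F) :
    sympBil m F (pureMap e P x w) (pureMap e P y z) = h.omB x y * h.sB w z := by
  rw [sympBil_apply, pureMap_eq, pureMap_eq, (Classical.choose_spec h.str).2, h.omB_apply,
    h.sB_apply, form_eq_sum h.symp.bilinear, form_eq_sum h.orth.bilinear]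
  show h.const * _ = _
  rw [mul_assoc]
  congr 1
  simp only [formOfGram, Fintype.sum_prod_type, Matrix.kroneckerMap_apply, id_eq,
    Finset.sum_mul, Finset.mul_sum]
  rw [Finset.sum_comm]
  refine Finset.sum_congr rfl fun b _ => ?_
  conv_rhs => rw [Finset.sum_comm]
  refine Finset.sum_congr rfl fun a _ => ?_
  rw [Finset.sum_comm]
  refine Finset.sum_congr rfl fun b' _ => Finset.sum_congr rfl fun a' _ => ?_
  ring

/-- The action on the second factor. -/
noncomputable def actW :
    Module.End F (Fin n₂ → F) →ₐ[F] Module.End F (Fin m ⊕ Fin m → F) :=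
  AlgHom.ofLinearMap
    (LinearMap.mk₂ F (fun f v => (toMat e P).symm (toMat e P v * (LinearMap.toMatrix' f)ᵀ))
      (fun f g v => by rw [map_add, Matrix.transpose_add, Matrix.mul_add, map_add])
      (fun c f v => by rw [map_smul, Matrix.transpose_smul, Matrix.mul_smul, map_smul])
      (fun f v v' => by rw [map_add, Matrix.add_mul, map_add])
      (fun c f v => by rw [map_smul, Matrix.smul_mul, map_smul]))
    (LinearMap.ext fun v => by simp [LinearMap.toMatrix'_one])
    (fun f g => LinearMap.ext fun v => by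
      simp [LinearMap.toMatrix'_mul, Matrix.transpose_mul, Matrix.mul_assoc])

lemma actW_apply (f : Module.End F (Fin n₂ → F)) (v : Fin m ⊕ Fin m → F) :
    actW (e := e) (P := P) f v =
      (toMat e P).symm (toMat e P v * (LinearMap.toMatrix' f)ᵀ) := rfl

/-- The decomposition data. -/
noncomputable def data : TD F (Fin n₁ → F) (Fin n₂ → F) (Fin m ⊕ Fin m → F) where
  om := h.omB
  S := h.sB
  Om := sympBil m F
  p := pureMap e P
  i := h.contract
  act := actW (e := e) (P := P)
  om_self x := by rw [h.omB_apply, h.symp.alternating, mul_zero]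
  om_nd x hx := by
    by_contra h0
    obtain ⟨-, y, hy⟩ := h.symp.nondegenerate x h0
    exact mul_ne_zero h.const_ne hy (hx y)
  Om_self v := by
    rw [sympBil_apply]
    exact Cfsg.Agent.Forms.sympForm_self v
  i_p := h.contract_pureMap
  Om_p x w v := by
    refine LinearMap.congr_fun (ext_pureMap e P (f := sympBil m F (pureMap e P x w))
      (g := h.sB w ∘ₗ h.contract x) fun y z => ?_) v
    rw [LinearMap.comp_apply, h.form_pureMap, h.contract_pureMap, map_smul, smul_eq_mul]
  ext_i v hv := by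
    apply (toMat e P).injective
    rw [map_zero]
    ext a b
    have h0 : (fun a => toMat e P v a b) = 0 := by
      by_contra h0
      obtain ⟨⟨x, hx⟩, -⟩ := h.symp.nondegenerate _ h0
      refine mul_ne_zero h.const_ne hx ?_
      rw [← h.omB_apply, ← h.etaV_dot]
      exact congrFun (hv x) b
    exact congrFun h0 a
  ext_p f g hfg := ext_pureMap e P hfg
  i_act f x v := by
    rw [h.contract_apply, actW_apply, LinearEquiv.apply_symm_apply, ← Matrix.vecMul_vecMul,
      Matrix.vecMul_transpose, LinearMap.toMatrix'_mulVec, ← h.contract_apply]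
  act_p f x w := by
    rw [actW_apply, pureMap_apply, pureMap_apply, LinearEquiv.apply_symm_apply]
    congr 1
    show vecMulVec x w * _ = vecMulVec x (f w)
    rw [Matrix.vecMulVec_mul, Matrix.vecMul_transpose, LinearMap.toMatrix'_mulVec]

lemma data_p (x : Fin n₁ → F) (w : Fin n₂ → F) : h.data.p x w = pureMap e P x w := rfl

lemma data_Om (u v : Fin m ⊕ Fin m → F) : h.data.Om u v = Cfsg.sympForm m F u v :=
  sympBil_apply u v

lemma orth_data : Orth h.data.S where
  symm x y := h.orth.symm x y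
  nd x hx := by
    by_contra h0
    obtain ⟨-, y, hy⟩ := h.orth.nondegenerate x h0
    exact hy (hx y)
  two := h.two
  three := by rw [finrank_fin_fun]; exact h.three

lemma tensorElt_mem_spGL (A : GL (Fin n₁) F) (B : GL (Fin n₂) F)
    (hA : ∀ x y, h.omB ((A : Matrix (Fin n₁) (Fin n₁) F) *ᵥ x)
      ((A : Matrix (Fin n₁) (Fin n₁) F) *ᵥ y) = h.omB x y)
    (hB : ∀ w z, h.sB ((B : Matrix (Fin n₂) (Fin n₂) F) *ᵥ w)
      ((B : Matrix (Fin n₂) (Fin n₂) F) *ᵥ z) = h.sB w z) :
    tensorElt e P A B ∈ Cfsg.spGL m F := by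
  intro u v
  set g := tensorElt e P A B with hg
  let T : Module.End F (Fin m ⊕ Fin m → F) :=
    Matrix.mulVecLin (g : Matrix (Fin m ⊕ Fin m) (Fin m ⊕ Fin m) F)
  have key : ∀ x w, (sympBil m F (T (pureMap e P x w))) ∘ₗ T = sympBil m F (pureMap e P x w) :=
    fun x w => ext_pureMap e P fun y z => by
      simp only [LinearMap.comp_apply, T, Matrix.mulVecLin_apply]
      rw [tensorElt_pureMap, tensorElt_pureMap, h.form_pureMap, h.form_pureMap, hA, hB]
  have key2 : ((sympBil m F).flip (T v)) ∘ₗ T = (sympBil m F).flip v :=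
    ext_pureMap e P fun x w => by
      exact LinearMap.congr_fun (key x w) v
  have := LinearMap.congr_fun key2 u
  simpa [T, sympBil_apply] using this

/-- Groups containing the decomposition group satisfy the standing hypotheses. -/
theorem ctx {G : Subgroup (GL (Fin m ⊕ Fin m) F)}
    (hG : tensorProductSubgroup n₁ n₂ e P ⊓ Cfsg.spGL m F ≤ G) (hGs : G ≤ Cfsg.spGL m F) :
    h.data.Ctx (G.map (toEndUnits m F)) := by
  refine ⟨h.orth_data, ?_, fun z t => ?_, fun k k' hk hiso => ?_⟩
  · rintro _ ⟨g, hg, rfl⟩ u v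
    rw [h.data_Om, h.data_Om, toEndUnits_apply, toEndUnits_apply]
    exact hGs hg u v
  · set N : Matrix (Fin n₁) (Fin n₁) F := t • vecMulVec z (h.etaV z) with hN
    have hNv : ∀ x, N *ᵥ x = (t * h.omB z x) • z := fun x => by
      rw [hN, Matrix.smul_mulVec, Matrix.vecMulVec_mulVec, op_smul_eq_smul, smul_smul,
        h.etaV_dot]
    have hN2 : N * N = 0 := by
      refine Matrix.ext_of_mulVec_single fun i => ?_
      rw [← Matrix.mulVec_mulVec, hNv, hNv, map_smul, h.omB_apply z z, h.symp.alternating]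
      funext j
      simp
    let A : GL (Fin n₁) F := ⟨1 + N, 1 - N, by rw [add_mul, one_mul, mul_sub, mul_one, hN2]; abel,
      by rw [sub_mul, one_mul, mul_add, mul_one, hN2]; abel⟩
    have hAv : ∀ x, (A : Matrix (Fin n₁) (Fin n₁) F) *ᵥ x = x + (t * h.omB z x) • z := fun x => by
      show (1 + N) *ᵥ x = _
      rw [Matrix.add_mulVec, Matrix.one_mulVec, hNv]
    have hmem : tensorElt e P A 1 ∈ Cfsg.spGL m F := h.tensorElt_mem_spGL A 1
      (fun x y => by
        have hzz : h.omB z z = 0 := by rw [h.omB_apply, h.symp.alternating, mul_zero]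
        have hsk : h.omB x z = - h.omB z x := by
          rw [h.omB_apply, h.omB_apply, h.symp.skew x z]; ring
        rw [hAv, hAv]
        simp only [map_add, map_smul, LinearMap.add_apply, LinearMap.smul_apply, smul_eq_mul, hzz,
          hsk]
        ring)
      (fun w z => by simp)
    refine ⟨_, ⟨_, hG ⟨tensorElt_mem e P A 1, hmem⟩, rfl⟩, ?_⟩
    refine h.data.ext_p _ _ fun x w => ?_
    rw [toEndUnits_apply, h.data_p, tensorElt_pureMap, hAv, LinearMap.add_apply,
      Module.End.one_apply, TD.N_apply]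
    show pureMap e P _ _ =
      pureMap e P x w + pureMap e P z ((t • (1 : Module.End F (Fin n₂ → F)))
        (h.contract z (pureMap e P x w)))
    rw [h.contract_pureMap, Units.val_one, Matrix.one_mulVec, map_add, LinearMap.add_apply,
      LinearMap.smul_apply, Module.End.one_apply, map_smul, LinearMap.smul_apply, smul_smul,
      map_smul]
  · have h1 : LinearMap.toMatrix' k * LinearMap.toMatrix' k' = 1 := by
      rw [← LinearMap.toMatrix'_mul, hk, LinearMap.toMatrix'_one]
    let B : GL (Fin n₂) F := ⟨LinearMap.toMatrix' k, LinearMap.toMatrix' k', h1,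
      mul_eq_one_comm.1 h1⟩
    have hBv : ∀ w, (B : Matrix (Fin n₂) (Fin n₂) F) *ᵥ w = k w :=
      fun w => LinearMap.toMatrix'_mulVec k w
    have hmem : tensorElt e P 1 B ∈ Cfsg.spGL m F := h.tensorElt_mem_spGL 1 B
      (fun x y => by simp) (fun w z => by rw [hBv, hBv]; exact hiso w z)
    refine ⟨_, ⟨_, hG ⟨tensorElt_mem e P 1 B, hmem⟩, rfl⟩, ?_⟩
    refine h.data.ext_p _ _ fun x w => ?_
    rw [toEndUnits_apply, h.data.act_p, h.data_p, tensorElt_pureMap, hBv, h.data_p,
      Units.val_one, Matrix.one_mulVec]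

include h in
/-- The first factor has dimension at least two. -/
lemma two_le (hm : 0 < m) : 2 ≤ n₁ := by
  have hcard := Fintype.card_congr e
  rw [Fintype.card_sum, Fintype.card_fin, Fintype.card_prod, Fintype.card_fin,
    Fintype.card_fin] at hcard
  by_contra hlt
  rcases (show n₁ = 0 ∨ n₁ = 1 by omega) with rfl | rfl
  · simp at hcard; omega
  · set o : Fin 1 → F := fun _ => 1 with ho
    have hs : ∀ v : Fin 1 → F, v = v 0 • o := fun v => by
      ext i; simp [ho, Subsingleton.elim i 0]
    obtain ⟨-, y, hy⟩ := h.symp.nondegenerate o (fun h0 => one_ne_zero (congrFun h0 0))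
    refine hy ?_
    rw [hs y, h.symp.bilinear.smul_right, h.symp.alternating, mul_zero]

include h in
/-- An element mapping pure tensors to pure tensors lies in the decomposition group. -/
theorem mem_of_pure (hm : 0 < m) {g : GL (Fin m ⊕ Fin m) F}
    (C : Module.End F (Fin n₁ → F)) (k : Module.End F (Fin n₂ → F))
    (hg : ∀ x w, (toEndUnits m F g : Module.End F (Fin m ⊕ Fin m → F)) (pureMap e P x w) =
      pureMap e P (C x) (k w)) :
    g ∈ tensorProductSubgroup n₁ n₂ e P := by
  have := h.two_le hm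
  have := h.three
  refine mem_tensor_of_tens (by omega) (by omega) e P g
    ⟨LinearMap.toMatrix' C, (LinearMap.toMatrix' k)ᵀ, fun X => ?_⟩
  refine ext_colMap (φ := (toAct e P g).toLinearMap)
    (ψ := { toFun := fun X => LinearMap.toMatrix' C * X * (LinearMap.toMatrix' k)ᵀ
            map_add' := fun X Y => by rw [Matrix.mul_add, Matrix.add_mul]
            map_smul' := fun r X => by rw [Matrix.mul_smul, Matrix.smul_mul]; rfl })
    (fun w u => ?_) X
  show toAct e P g (colMap w u) = LinearMap.toMatrix' C * vecMulVec u w * (LinearMap.toMatrix' k)ᵀ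
  rw [toAct_apply, ← pureMap_apply, ← toEndUnits_apply, hg, pureMap_apply,
    LinearEquiv.apply_symm_apply, Matrix.mul_vecMulVec, Matrix.vecMulVec_mul,
    Matrix.vecMul_transpose, LinearMap.toMatrix'_mulVec, LinearMap.toMatrix'_mulVec]
  rfl

include h in
/-- The decomposition group is proper in the symplectic group. -/
theorem inf_lt [Fintype F] (hm : 0 < m) :
    tensorProductSubgroup n₁ n₂ e P ⊓ Cfsg.spGL m F < Cfsg.spGL m F := by
  refine lt_of_le_not_ge inf_le_right fun hle => ?_
  exact Cfsg.Agent.ClassicalMax.spGL_not_le_tensorProductSubgroup hm (h.two_le hm)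
    (by have := h.three; omega) e P (hle.trans inf_le_left)

end Setup

/-- The data of the statement form a setup. -/
theorem setup_of [Fintype F] {e : (Fin m ⊕ Fin m) ≃ Fin n₁ × Fin n₂}
    {P : GL (Fin m ⊕ Fin m) F} {f₁ : (Fin n₁ → F) → (Fin n₁ → F) → F}
    {f₂ : (Fin n₂ → F) → (Fin n₂ → F) → F} (hodd : Odd (Fintype.card F)) (h3 : 3 ≤ n₂)
    (hf₁ : IsSymplecticForm f₁) (hf₂ : IsSymmetricForm f₂)
    (hT : IsTensorFormStructure id (Cfsg.sympForm m F) f₁ f₂ e P) :
    Setup m n₁ n₂ e P f₁ f₂ :=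
  ⟨hf₁, hf₂, hT, Ring.two_ne_zero fun hc => (Nat.not_even_iff_odd.2 hodd) (Nat.even_iff.2
    (FiniteField.even_card_iff_char_two.1 hc)), h3⟩

end Cfsg.Agent.GeoLow.TensorSO
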