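import Cfsg.Agent.GeoLow.TensorSO.Orth

/-!
The tensor product of a symplectic and an orthogonal space, and groups of isometries containing the
isometries of both factors.
-/

set_option autoImplicit false

namespace Cfsg.Agent.GeoLow.TensorSO

open Module

/-- A tensor decomposition of an alternating form, by contraction maps. -/
structure TD (F U W V : Type*) [Field F] [AddCommGroup U] [Module F U] [AddCommGroup W]
    [Module F W] [AddCommGroup V] [Module F V] where
  /-- the form on `U` -/
  om : LinearMap.BilinForm F U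
  /-- the form on `W` -/
  S : LinearMap.BilinForm F W
  /-- the form on `V` -/
  Om : LinearMap.BilinForm F V
  /-- pure tensors -/
  p : U →ₗ[F] W →ₗ[F] V
  /-- contractions -/
  i : U →ₗ[F] V →ₗ[F] W
  /-- the action on the second factor -/
  act : Module.End F W →ₐ[F] Module.End F V
  om_self : ∀ x, om x x = 0
  om_nd : ∀ x, (∀ y, om x y = 0) → x = 0
  Om_self : ∀ v, Om v v = 0
  i_p : ∀ x y w, i x (p y w) = om x y • w
  Om_p : ∀ x w v, Om (p x w) v = S w (i x v)
  ext_i : ∀ v, (∀ x, i x v = 0) → v = 0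
  ext_p : ∀ f g : Module.End F V, (∀ x w, f (p x w) = g (p x w)) → f = g
  i_act : ∀ f x v, i x (act f v) = f (i x v)
  act_p : ∀ f x w, act f (p x w) = p x (f w)

variable {F U W V : Type*} [Field F] [AddCommGroup U] [Module F U] [AddCommGroup W] [Module F W]
  [AddCommGroup V] [Module F V]

/-- `1 + n` is in the group. -/
def Mem (M : Subgroup (Module.End F V)ˣ) (n : Module.End F V) : Prop :=
  ∃ g ∈ M, (g : Module.End F V) = 1 + n

variable {M : Subgroup (Module.End F V)ˣ}

lemma Mem.add {n n' : Module.End F V} (h : Mem M n) (h' : Mem M n') (h0 : n * n' = 0) :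
    Mem M (n + n') := by
  obtain ⟨g, hg, hgn⟩ := h
  obtain ⟨g', hg', hgn'⟩ := h'
  refine ⟨g * g', mul_mem hg hg', ?_⟩
  rw [Units.val_mul, hgn, hgn', mul_add, add_mul, add_mul, h0, one_mul, mul_one, one_mul]
  abel

lemma Mem.zero : Mem M (0 : Module.End F V) := ⟨1, one_mem M, by simp⟩

lemma Mem.neg {n : Module.End F V} (h : Mem M n) (h0 : n * n = 0) : Mem M (-n) := by
  obtain ⟨g, hg, hgn⟩ := h
  refine ⟨g⁻¹, inv_mem hg, Units.inv_eq_of_mul_eq_one_right ?_⟩
  rw [hgn, mul_add, add_mul, add_mul, mul_neg, mul_neg, h0, one_mul, mul_one, one_mul]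
  abel

lemma Mem.conj {n : Module.End F V} (h : Mem M n) {g : (Module.End F V)ˣ} (hg : g ∈ M) :
    Mem M ((g : Module.End F V) * n * ((g⁻¹ : (Module.End F V)ˣ) : Module.End F V)) := by
  obtain ⟨h, hh, hn⟩ := h
  refine ⟨g * h * g⁻¹, mul_mem (mul_mem hg hh) (inv_mem hg), ?_⟩
  rw [Units.val_mul, Units.val_mul, hn, mul_add, add_mul, mul_one, Units.mul_inv]

namespace TD

variable (D : TD F U W V)

/-- An elation along `z ⊗ W`. -/
def N (z : U) (Y : Module.End F W) : Module.End F V := D.p z ∘ₗ Y ∘ₗ D.i z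

/-- An entry of an endomorphism. -/
def ent (g : Module.End F V) (x y : U) : Module.End F W := D.i x ∘ₗ g ∘ₗ D.p y

lemma N_apply (z : U) (Y : Module.End F W) (v : V) : D.N z Y v = D.p z (Y (D.i z v)) := rfl

lemma ent_apply (g : Module.End F V) (x y : U) (w : W) : D.ent g x y w = D.i x (g (D.p y w)) := rfl

lemma om_skew (x y : U) : D.om y x = - D.om x y := by
  have := D.om_self (x + y)
  simp only [map_add, LinearMap.add_apply, D.om_self] at this
  linear_combination this

lemma Om_skew (u v : V) : D.Om v u = - D.Om u v := by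
  have := D.Om_self (u + v)
  simp only [map_add, LinearMap.add_apply, D.Om_self] at this
  linear_combination this

lemma N_mul_N (z : U) (Y Y' : Module.End F W) : D.N z Y * D.N z Y' = 0 :=
  LinearMap.ext fun v => by simp [N_apply, D.i_p, D.om_self]

lemma N_add (z : U) (Y Y' : Module.End F W) : D.N z (Y + Y') = D.N z Y + D.N z Y' :=
  LinearMap.ext fun v => by simp [N_apply]

lemma N_smul (z : U) (c : F) (Y : Module.End F W) : D.N z (c • Y) = c • D.N z Y :=
  LinearMap.ext fun v => by simp [N_apply]

lemma N_neg (z : U) (Y : Module.End F W) : D.N z (-Y) = -D.N z Y :=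
  LinearMap.ext fun v => by simp [N_apply]

lemma N_smul_left (z : U) (c : F) (Y : Module.End F W) : D.N (c • z) Y = (c * c) • D.N z Y :=
  LinearMap.ext fun v => by simp [N_apply, smul_smul]

lemma act_mul_N (f : Module.End F W) (z : U) (Y : Module.End F W) :
    D.act f * D.N z Y = D.N z (f * Y) :=
  LinearMap.ext fun v => by simp [N_apply, D.act_p]

lemma N_mul_act (f : Module.End F W) (z : U) (Y : Module.End F W) :
    D.N z Y * D.act f = D.N z (Y * f) :=
  LinearMap.ext fun v => by simp [N_apply, D.i_act]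

lemma ext_ent {f g : Module.End F V} (h : ∀ x y, D.ent f x y = D.ent g x y) : f = g :=
  D.ext_p f g fun y w => sub_eq_zero.1 (D.ext_i _ fun x => by
    rw [map_sub, sub_eq_zero]; exact LinearMap.congr_fun (h x y) w)

lemma ent_one (x y : U) : D.ent 1 x y = D.om x y • 1 :=
  LinearMap.ext fun w => by simp [ent_apply, D.i_p]

lemma ent_add (f g : Module.End F V) (x y : U) :
    D.ent (f + g) x y = D.ent f x y + D.ent g x y :=
  LinearMap.ext fun w => by simp [ent_apply]

lemma ent_sub (f g : Module.End F V) (x y : U) :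
    D.ent (f - g) x y = D.ent f x y - D.ent g x y :=
  LinearMap.ext fun w => by simp [ent_apply]

lemma ent_smul (c : F) (f : Module.End F V) (x y : U) : D.ent (c • f) x y = c • D.ent f x y :=
  LinearMap.ext fun w => by simp [ent_apply]

lemma ent_zero (x y : U) : D.ent 0 x y = 0 := LinearMap.ext fun w => by simp [ent_apply]

lemma ent_mul_N_mul (f g : Module.End F V) (z : U) (Y : Module.End F W) (x y : U) :
    D.ent (f * D.N z Y * g) x y = D.ent f x z * Y * D.ent g z y :=
  LinearMap.ext fun w => by simp [ent_apply, N_apply]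

lemma ent_N (z : U) (Y : Module.End F W) (x y : U) :
    D.ent (D.N z Y) x y = (D.om x z * D.om z y) • Y :=
  LinearMap.ext fun w => by
    simp [ent_apply, N_apply, D.i_p, smul_smul]; rw [mul_comm]

lemma ent_act_mul (f : Module.End F W) (g : Module.End F V) (x y : U) :
    D.ent (D.act f * g) x y = f * D.ent g x y :=
  LinearMap.ext fun w => by simp [ent_apply, D.i_act]

lemma ent_mul_act (f : Module.End F W) (g : Module.End F V) (x y : U) :
    D.ent (g * D.act f) x y = D.ent g x y * f :=
  LinearMap.ext fun w => by simp [ent_apply, D.act_p]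

lemma ent_act (f : Module.End F W) (x y : U) : D.ent (D.act f) x y = D.om x y • f :=
  LinearMap.ext fun w => by simp [ent_apply, D.act_p, D.i_p]

lemma ent_add_left (g : Module.End F V) (x x' y : U) :
    D.ent g (x + x') y = D.ent g x y + D.ent g x' y :=
  LinearMap.ext fun w => by simp [ent_apply]

lemma ent_smul_left (g : Module.End F V) (c : F) (x y : U) :
    D.ent g (c • x) y = c • D.ent g x y :=
  LinearMap.ext fun w => by simp [ent_apply]

lemma ent_add_right (g : Module.End F V) (x y y' : U) :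
    D.ent g x (y + y') = D.ent g x y + D.ent g x y' :=
  LinearMap.ext fun w => by simp [ent_apply]

lemma ent_smul_right (g : Module.End F V) (c : F) (x y : U) :
    D.ent g x (c • y) = c • D.ent g x y :=
  LinearMap.ext fun w => by simp [ent_apply]

lemma p_injective {z : U} (hz : z ≠ 0) : Function.Injective (D.p z) := by
  obtain ⟨y, hy⟩ : ∃ y, D.om y z ≠ 0 := by
    by_contra hc; push Not at hc
    exact hz (D.om_nd z fun y => by rw [D.om_skew, hc, neg_zero])
  intro a b h
  have := congrArg (D.i y) h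
  rw [D.i_p, D.i_p] at this
  exact smul_right_injective W hy this

lemma exists_pair {z : U} (hz : z ≠ 0) : ∃ y, D.om z y = 1 := by
  obtain ⟨y, hy⟩ : ∃ y, D.om z y ≠ 0 := by
    by_contra hc; push Not at hc; exact hz (D.om_nd z hc)
  exact ⟨(D.om z y)⁻¹ • y, by rw [map_smul, smul_eq_mul, inv_mul_cancel₀ hy]⟩

lemma i_surjective {z : U} (hz : z ≠ 0) : Function.Surjective (D.i z) := fun w => by
  obtain ⟨y, hy⟩ := D.exists_pair hz
  exact ⟨D.p y w, by rw [D.i_p, hy, one_smul]⟩

/-- The standing hypotheses on the group. -/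
structure Ctx (M : Subgroup (Module.End F V)ˣ) : Prop where
  orth : Orth D.S
  pres : ∀ g ∈ M, ∀ u v, D.Om ((g : Module.End F V) u) ((g : Module.End F V) v) = D.Om u v
  left : ∀ (z : U) (t : F), Mem M (D.N z (t • 1))
  right : ∀ k k' : Module.End F W, k * k' = 1 → Iso D.S k →
    ∃ g ∈ M, (g : Module.End F V) = D.act k

variable {D} (hC : D.Ctx M)
include hC

/-- Entries of the inverse are negated adjoints. -/
lemma Ctx.adj {g : (Module.End F V)ˣ} (hg : g ∈ M) (x y : U) (w w' : W) :
    D.S w (D.ent (g : Module.End F V) x y w') =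
      - D.S (D.ent ((g⁻¹ : (Module.End F V)ˣ) : Module.End F V) y x w) w' := by
  rw [ent_apply, ← D.Om_p, ← hC.pres (g⁻¹) (inv_mem hg), ← LinearMap.comp_apply
    ((g⁻¹ : (Module.End F V)ˣ) : Module.End F V) (g : Module.End F V)]
  rw [show ((g⁻¹ : (Module.End F V)ˣ) : Module.End F V) ∘ₗ (g : Module.End F V) = LinearMap.id
    from Units.inv_mul g, LinearMap.id_apply, D.Om_skew, D.Om_p, hC.orth.symm]
  rfl

lemma Ctx.right_refl {u : W} (hu : D.S u u ≠ 0) :
    ∃ g ∈ M, (g : Module.End F V) = D.act (refl D.S u) ∧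
      ((g⁻¹ : (Module.End F V)ˣ) : Module.End F V) = D.act (refl D.S u) := by
  have h2 : refl D.S u * refl D.S u = 1 := LinearMap.ext fun w => refl_refl hu w
  obtain ⟨g, hg, hge⟩ := hC.right _ _ h2 (refl_iso hC.orth hu)
  refine ⟨g, hg, hge, Units.inv_eq_of_mul_eq_one_right ?_⟩
  rw [hge, ← map_mul, h2, map_one]

lemma Ctx.one_ne_zero_W : (1 : Module.End F W) ≠ 0 := fun h => by
  obtain ⟨u, hu⟩ := exists_aniso hC.orth
  exact hu (by rw [show u = 0 from LinearMap.congr_fun h u]; simp)

end TD

end Cfsg.Agent.GeoLow.TensorSO
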