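import Cfsg.Agent.GeoLow.TensorSO.Scalar

/-!
The image of a transvection of the symplectic factor lies in one of the two factors.
-/

set_option autoImplicit false

namespace Cfsg.Agent.GeoLow.TensorSO

open Module

variable {F U W V : Type*} [Field F] [AddCommGroup U] [Module F U] [AddCommGroup W] [Module F W]
  [AddCommGroup V] [Module F V]

/-- Skew for the form. -/
def Skew (S : LinearMap.BilinForm F W) (X : Module.End F W) : Prop :=
  ∀ w w', S (X w) w' = - S w (X w')

lemma refl_conj_apply {S : LinearMap.BilinForm F W} (hS : Orth S) {X : Module.End F W}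
    (hX : Skew S X) {u : W} (w : W) :
    refl S u (X (refl S u w)) - X w =
      -((2 / S u u * S u w) • X u - (2 / S u u * S (X u) w) • u) := by
  have h1 : S u (X u) = 0 := by
    have := hX u u
    rw [hS.symm] at this
    exact mul_left_cancel₀ hS.two (by linear_combination this)
  have h2 : S u (X w) = - S (X u) w := by rw [hX, neg_neg]
  simp only [refl_apply, map_sub, map_smul, h1, h2]
  module

/-- A skew map with scalar square whose anticommutators with its reflection conjugates are scalar
vanishes. -/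
lemma eq_zero_of_anticomm {S : LinearMap.BilinForm F W} (hS : Orth S) [FiniteDimensional F W]
    {X : Module.End F W} (hX : Skew S X) {ν : F} (hsq : ∀ w, X (X w) = ν • w)
    (h : ∀ u, S u u ≠ 0 → ∃ μ : F, ∀ w,
      X (refl S u (X (refl S u w)) - X w) + (refl S u (X (refl S u (X w))) - X (X w)) = μ • w) :
    X = 0 := by
  have haniso : ∀ u, S u u ≠ 0 → X u = 0 := by
    intro u hu
    obtain ⟨μ, hμ⟩ := h u hu
    set v := X u with hv
    set τ := 2 / S u u with hτ
    have hτ0 : τ ≠ 0 := div_ne_zero hS.two hu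
    have e1 : ∀ w, S u (X w) = - S v w := fun w => by rw [hv, hX, neg_neg]
    have e2 : ∀ w, S v (X w) = -(ν * S u w) := fun w => by
      rw [hv, hX, hsq, map_smul, smul_eq_mul]
    have hval : ∀ w, (2 * τ * S v w) • v - (2 * τ * ν * S u w) • u = μ • w := fun w => by
      rw [← hμ w, refl_conj_apply hS hX, refl_conj_apply hS hX]
      simp only [map_neg, map_sub, map_smul, ← hv, ← hτ, e1, e2]
      rw [show X v = ν • u from hsq u]
      module
    obtain ⟨w, hw, hw0⟩ := Submodule.exists_mem_ne_zero_of_ne_bot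
      (LinearMap.ker_ne_bot_of_finrank_lt (f := (S u).prod (S v)) (by
        rw [Module.finrank_prod, Module.finrank_self]
        have := hS.three
        omega))
    simp only [LinearMap.mem_ker, LinearMap.prod_apply, Function.prod_apply, Prod.mk_eq_zero] at hw
    have hμ0 : μ = 0 := by
      have := hval w
      rw [hw.1, hw.2] at this
      simpa [hw0] using this.symm
    refine hS.nd v fun y => by_contra fun hy => ?_
    have huv : S v u = 0 := by
      rw [hS.symm]
      have := hX u u
      rw [hS.symm] at this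
      exact mul_left_cancel₀ hS.two (by linear_combination this)
    have h3 := hval (y - (S u y / S u u) • u)
    rw [hμ0, zero_smul] at h3
    simp only [map_sub, map_smul, smul_eq_mul, huv, mul_zero, sub_zero,
      div_mul_cancel₀ _ hu, sub_self, mul_zero, zero_smul, sub_zero] at h3
    rcases smul_eq_zero.1 h3 with h4 | h4
    · exact mul_ne_zero (mul_ne_zero hS.two hτ0) hy h4
    · exact hy (by rw [h4]; simp)
  refine LinearMap.ext fun x => ?_
  by_cases hx : S x x = 0
  · obtain ⟨u, hu⟩ := exists_aniso hS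
    have hh : S (x + u) (x + u) ≠ 0 ∨ S (x - u) (x - u) ≠ 0 := by
      by_contra hc
      push Not at hc
      obtain ⟨h3, h4⟩ := hc
      simp [hx, hS.symm u x] at h3 h4
      exact hu (mul_left_cancel₀ hS.two (by linear_combination h3 + h4))
    rcases hh with hh | hh
    · simpa [map_add, haniso u hu] using haniso _ hh
    · simpa [map_sub, haniso u hu] using haniso _ hh
  · exact haniso x hx

namespace TD

variable (D : TD F U W V)

/-- Commutes with the action on the second factor. -/
def IsLeft (n : Module.End F V) : Prop := ∀ f, D.act f * n = n * D.act f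

/-- The image of a transvection. -/
def img (g : (Module.End F V)ˣ) (z : U) : Module.End F V :=
  (g : Module.End F V) * D.N z 1 * ((g⁻¹ : (Module.End F V)ˣ) : Module.End F V)

lemma ent_img (g : (Module.End F V)ˣ) (z x y : U) :
    D.ent (D.img g z) x y =
      D.ent (g : Module.End F V) x z * D.ent ((g⁻¹ : (Module.End F V)ˣ) : Module.End F V) z y := by
  rw [img, ent_mul_N_mul, mul_one]

lemma img_sq (g : (Module.End F V)ˣ) (z : U) : D.img g z * D.img g z = 0 := by
  rw [img]
  simp only [mul_assoc, Units.inv_mul_cancel_left]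
  rw [← mul_assoc (D.N z 1), D.N_mul_N, zero_mul, mul_zero]

/-- An endomorphism commuting with everything is scalar. -/
lemma scalar_of_comm [FiniteDimensional F W] {E : Module.End F W}
    (hE : ∀ f, f * E = E * f) : ∃ c : F, E = c • 1 := by
  by_cases hW : ∀ w : W, w = 0
  · exact ⟨0, LinearMap.ext fun w => (hW _).trans (hW _).symm⟩
  push Not at hW
  obtain ⟨y, hy⟩ := hW
  obtain ⟨φ, hφ⟩ := Module.Projective.exists_dual_ne_zero F hy
  refine ⟨(φ y)⁻¹ * φ (E y), LinearMap.ext fun w => ?_⟩
  have := LinearMap.congr_fun (hE (φ.smulRight w)) y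
  simp only [Module.End.mul_apply, LinearMap.smulRight_apply, map_smul] at this
  rw [LinearMap.smul_apply, Module.End.one_apply, mul_smul, this, inv_smul_smul₀ hφ]

lemma ent_scalar_of_isLeft [FiniteDimensional F W] {n : Module.End F V} (hn : D.IsLeft n)
    (x y : U) : ∃ c : F, D.ent n x y = c • 1 :=
  scalar_of_comm fun f => by rw [← D.ent_act_mul, hn, D.ent_mul_act]

variable {D} {M : Subgroup (Module.End F V)ˣ} (hC : D.Ctx M)
include hC

lemma Ctx.N_skew (z : U) (u v : V) : D.Om (D.N z 1 u) v = - D.Om u (D.N z 1 v) := by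
  rw [D.Om_skew (D.N z 1 v) u, neg_neg, N_apply, N_apply, D.Om_p, D.Om_p,
    Module.End.one_apply, Module.End.one_apply, hC.orth.symm]

lemma Ctx.img_skew {g : (Module.End F V)ˣ} (hg : g ∈ M) (z : U) (u v : V) :
    D.Om (D.img g z u) v = - D.Om u (D.img g z v) := by
  have e : ∀ x, (g : Module.End F V) (((g⁻¹ : (Module.End F V)ˣ) : Module.End F V) x) = x :=
    fun x => LinearMap.congr_fun (Units.mul_inv g) x
  conv_lhs => rw [← e v]
  conv_rhs => rw [← e u]
  simp only [img, Module.End.mul_apply]
  rw [hC.pres g hg, hC.pres g hg, hC.N_skew]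

lemma Ctx.img_adj {g : (Module.End F V)ˣ} (hg : g ∈ M) (z x y : U) (w w' : W) :
    D.S w (D.ent (D.img g z) x y w') = D.S (D.ent (D.img g z) y x w) w' := by
  rw [ent_apply, ← D.Om_p, ← neg_neg (D.Om (D.p x w) _), ← hC.img_skew hg, ← D.Om_skew, D.Om_p,
    hC.orth.symm]
  rfl

variable [Finite F] [FiniteDimensional F W]

omit [Finite F] in
/-- A square-zero self-adjoint family of entries with scalar symmetric part and vanishing skew part
off the form lies in one of the factors. -/
lemma Ctx.split {n : Module.End F V} (hsq0 : n * n = 0)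
    (hadj : ∀ x y w w', D.S w (D.ent n x y w') = D.S (D.ent n y x w) w')
    (hsum : ∀ x y, ∃ c : F, D.ent n x y + D.ent n y x = c • 1)
    (hzero : ∀ x y, D.om x y = 0 → D.ent n x y - D.ent n y x = 0) :
    D.IsLeft n ∨ ∃ S₀, Skew D.S S₀ ∧ n = D.act S₀ := by
  have hS := hC.orth
  have h2 := hS.two
  set σ : U → U → Module.End F W := fun x y => D.ent n x y - D.ent n y x with hσ
  have hσskew : ∀ x y, Skew D.S (σ x y) := fun x y w w' => by
    simp only [hσ, LinearMap.sub_apply, map_sub, neg_sub]
    rw [← hadj, ← hadj]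
  replace hzero : ∀ x y, D.om x y = 0 → σ x y = 0 := hzero
  by_cases hU : ∀ x : U, x = 0
  · left
    intro f
    refine D.ext_ent fun x y => ?_
    simp only [ent_act_mul, ent_mul_act, hU x, hU y]
    simp [ent, map_zero]
  push Not at hU
  obtain ⟨e₀, he₀⟩ := hU
  obtain ⟨f₀, hef⟩ := D.exists_pair he₀
  set S₁ := σ e₀ f₀ with hS₁
  have hlin1 : ∀ x x' (c : F) y, σ (x + c • x') y = σ x y + c • σ x' y := fun x x' c y => by
    simp only [hσ, ent_add_left, ent_add_right, ent_smul_left, ent_smul_right]; module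
  have hlin2 : ∀ x y y' (c : F), σ x (y + c • y') = σ x y + c • σ x y' := fun x y y' c => by
    simp only [hσ, ent_add_left, ent_add_right, ent_smul_left, ent_smul_right]; module
  have hx : ∀ x, σ x f₀ = D.om x f₀ • S₁ := fun x => by
    have h := hzero (x + (-D.om x f₀) • e₀) f₀ (by simp [hef])
    rw [hlin1] at h
    linear_combination (norm := module) h
  have hy : ∀ y, σ e₀ y = D.om e₀ y • S₁ := fun y => by
    have h := hzero e₀ (y + (-D.om e₀ y) • f₀) (by simp [hef])
    rw [hlin2] at h
    linear_combination (norm := module) h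
  have hne : ∀ x y, D.om e₀ y ≠ 0 → σ x y = D.om x y • S₁ := fun x y hy0 => by
    have h := hzero (x + (-(D.om x y / D.om e₀ y)) • e₀) y (by simp [div_mul_cancel₀ _ hy0])
    rw [hlin1, hy, smul_smul, neg_mul, div_mul_cancel₀ _ hy0] at h
    linear_combination (norm := module) h
  have hall : ∀ x y, σ x y = D.om x y • S₁ := fun x y => by
    by_cases hy0 : D.om e₀ y = 0
    · have h := hne x (y + (1 : F) • f₀) (by simp [hef, hy0])
      rw [hlin2, hx, map_add, map_smul] at h
      linear_combination (norm := module) h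
    · exact hne x y hy0
  set S₀ := (2 : F)⁻¹ • S₁ with hS₀
  have hS₀s : Skew D.S S₀ := fun w w' => by simp [hS₀, hS₁, hσskew e₀ f₀ w w']
  set L := n - D.act S₀ with hLdef
  have hLs : ∀ x y, ∃ c : F, D.ent L x y = c • 1 := fun x y => by
    obtain ⟨c, hc⟩ := hsum x y
    refine ⟨2⁻¹ * c, ?_⟩
    rw [hLdef, ent_sub, ent_act, hS₀, smul_comm, ← hall, mul_smul, ← hc]
    simp only [hσ]
    match_scalars <;> field_simp <;> ring
  have hLl : D.IsLeft L := fun f => D.ext_ent fun x y => by
    obtain ⟨c, hc⟩ := hLs x y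
    rw [ent_act_mul, ent_mul_act, hc, mul_smul_comm, smul_mul_assoc, mul_one, one_mul]
  have hnL : n = L + D.act S₀ := (sub_add_cancel n _).symm
  by_cases hS0 : S₀ = 0
  · left
    rwa [hnL, hS0, map_zero, add_zero]
  right
  refine ⟨S₀, hS₀s, ?_⟩
  suffices L = 0 by rw [hnL, this, zero_add]
  refine D.ext_ent fun x y => ?_
  rw [ent_zero]
  obtain ⟨l, hl⟩ := hLs x y
  have hLL : D.IsLeft (L * L) := fun f => by rw [← mul_assoc, hLl, mul_assoc, hLl, mul_assoc]
  obtain ⟨c, hc⟩ := D.ent_scalar_of_isLeft hLL x y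
  have hsq : L * L + (2 : F) • (L * D.act S₀) + D.act (S₀ * S₀) = 0 := by
    rw [← hsq0, hnL, map_mul, mul_add, add_mul, add_mul, hLl, two_smul]; abel
  have he := congrArg (fun m => D.ent m x y) hsq
  simp only [ent_add, ent_smul, ent_mul_act, hl, hc, ent_act, ent_zero, smul_mul_assoc, one_mul,
    smul_smul] at he
  have hl0 : (2 * l) • S₀ = 0 := LinearMap.ext fun w' => hS.zero_of_perp fun w => by
    have h1 := congrArg (D.S w) (LinearMap.congr_fun he w')
    have h3 := congrArg (D.S w') (LinearMap.congr_fun he w)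
    simp only [LinearMap.add_apply, LinearMap.smul_apply, Module.End.one_apply,
      Module.End.mul_apply, LinearMap.zero_apply, map_add, map_smul, map_zero, smul_eq_mul] at h1 h3
    have k1 : D.S w' (S₀ (S₀ w)) = D.S w (S₀ (S₀ w')) := by
      rw [hS.symm, hS₀s, hS₀s, neg_neg]
    have k2 : D.S w' (S₀ w) = - D.S w (S₀ w') := by rw [hS.symm, hS₀s]
    rw [k1, k2, hS.symm w' w] at h3
    rw [LinearMap.smul_apply, map_smul, smul_eq_mul]
    refine mul_left_cancel₀ h2 ?_
    linear_combination h1 - h3
  rw [hl, show l = 0 from (mul_eq_zero.1 ((smul_eq_zero.1 hl0).resolve_right hS0)).resolve_left h2,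
    zero_smul]

omit [Finite F] in
/-- The image of a transvection of the symplectic factor lies in one of the factors. -/
theorem Ctx.dichotomy (hK : D.EntScalar M) {g : (Module.End F V)ˣ}
    (hg : g ∈ M) (z : U) :
    D.IsLeft (D.img g z) ∨ ∃ S₀, Skew D.S S₀ ∧ D.img g z = D.act S₀ := by
  set n := D.img g z with hn
  have hS := hC.orth
  have h2 := hS.two
  -- twice the skew part
  set σ : U → U → Module.End F W := fun x y => D.ent n x y - D.ent n y x with hσ
  have hσskew : ∀ x y, Skew D.S (σ x y) := fun x y w w' => by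
    simp only [hσ, LinearMap.sub_apply, map_sub, neg_sub]
    rw [← hC.img_adj hg, ← hC.img_adj hg]
  have hdiag : ∀ x, ∃ c : F, D.ent n x x = c • 1 := fun x => by
    rw [hn, ent_img]; exact hK g hg x z
  have hsum : ∀ x y, ∃ c : F, D.ent n x y + D.ent n y x = c • 1 := fun x y => by
    obtain ⟨c₁, h₁⟩ := hdiag (x + y)
    obtain ⟨c₂, h₂⟩ := hdiag x
    obtain ⟨c₃, h₃⟩ := hdiag y
    refine ⟨c₁ - c₂ - c₃, ?_⟩
    simp only [ent_add_left, ent_add_right, h₂, h₃] at h₁
    linear_combination (norm := module) h₁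
  refine hC.split (D.img_sq g z) (fun x y => hC.img_adj hg z x y) hsum
    (show ∀ x y, D.om x y = 0 → σ x y = 0 from ?_)
  intro x y hxy
  obtain ⟨c, hc⟩ := hsum x y
  set X := σ x y with hX
  have hXs : Skew D.S X := hσskew x y
  have h2P : (2 : F) • D.ent n x y = c • 1 + X := by
    simp only [hX, hσ]; linear_combination (norm := module) hc
  have hmem : ∀ t : F, Mem M (t • n) := fun t => by
    convert (hC.left z t).conj hg using 1
    rw [D.N_smul, mul_smul_comm, smul_mul_assoc]
    rfl
  obtain ⟨k₀, hk₀⟩ : ∃ k : F, ∀ w w', D.S ((2 : F) • D.ent n x y w) ((2 : F) • D.ent n x y w') =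
      k * D.S w w' := by
    obtain ⟨g₁, hg₁, hg₁e⟩ := hmem 1
    obtain ⟨k, hk⟩ := hC.sim hK hg₁ x y
    rw [hg₁e, one_smul, ent_add, ent_one, hxy, zero_smul, zero_add] at hk
    exact ⟨2 * 2 * k, fun w w' => by
      simp only [map_smul, LinearMap.smul_apply, smul_eq_mul, hk]; ring⟩
  simp only [← LinearMap.smul_apply (a := (2 : F)) (f := D.ent n x y), h2P] at hk₀
  have hsq : ∀ w, X (X w) = (c * c - k₀) • w := fun w => by
    refine sub_eq_zero.1 (hS.zero_of_perp fun w' => ?_)
    have h := hk₀ w' w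
    simp only [LinearMap.add_apply, LinearMap.smul_apply, Module.End.one_apply, map_add,
      map_smul, smul_eq_mul, hXs w'] at h
    rw [map_sub, map_smul, smul_eq_mul]
    linear_combination -h
  refine eq_zero_of_anticomm hS hXs hsq fun u hu => ?_
  obtain ⟨R, hR, hRe, hRi⟩ := hC.right_refl hu
  set r := refl D.S u with hr
  set Qe := D.ent (n * (D.act r * n * D.act r)) x y with hQe
  have hrr : r * r = 1 := LinearMap.ext fun w => refl_refl hu w
  have hE : ∀ t s : F, ∃ k : F, ∀ w w',
      D.S ((t * c + s * c) • w + t • X w + s • r (X (r w)) + (2 * (t * s)) • Qe w)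
        ((t * c + s * c) • w' + t • X w' + s • r (X (r w')) + (2 * (t * s)) • Qe w') =
        k * D.S w w' := by
    intro t s
    obtain ⟨g₁, hg₁, hg₁e⟩ := hmem t
    obtain ⟨g₂, hg₂, hg₂e⟩ := hmem s
    obtain ⟨k, hk⟩ := hC.sim hK (mul_mem hg₁ (mul_mem (mul_mem hR hg₂) hR)) x y
    refine ⟨2 * 2 * k, fun w w' => ?_⟩
    have hval : (2 : F) • D.ent ((g₁ * (R * g₂ * R) : (Module.End F V)ˣ) : Module.End F V) x y =
        (t * c + s * c) • 1 + t • X + s • (r * X * r) + (2 * (t * s)) • Qe := by
      have e : ((g₁ * (R * g₂ * R) : (Module.End F V)ˣ) : Module.End F V) =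
          1 + t • n + s • (D.act r * n * D.act r) + (t * s) • (n * (D.act r * n * D.act r)) := by
        simp only [Units.val_mul, hg₁e, hg₂e, hRe, mul_add, add_mul, mul_one, one_mul,
          ← map_mul, hrr, map_one, smul_mul_assoc, mul_smul_comm]
        module
      have hrPr : (2 : F) • (r * D.ent n x y * r) = c • 1 + r * X * r := by
        rw [← smul_mul_assoc, ← mul_smul_comm, h2P, mul_add, add_mul, mul_smul_comm, mul_one,
          smul_mul_assoc, hrr]
      rw [e]
      simp only [ent_add, ent_smul, ent_one, hxy, zero_smul, zero_add, ent_mul_act, ent_act_mul,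
        ← hQe, smul_add]
      rw [smul_comm (2 : F) t, smul_comm (2 : F) s, h2P, hrPr]
      module
    have hw : ∀ w, (t * c + s * c) • w + t • X w + s • r (X (r w)) + (2 * (t * s)) • Qe w =
        (2 : F) • D.ent ((g₁ * (R * g₂ * R) : (Module.End F V)ˣ) : Module.End F V) x y w :=
      fun w => (LinearMap.congr_fun hval w).symm
    rw [hw, hw]
    simp only [map_smul, LinearMap.smul_apply, smul_eq_mul, hk]
    ring
  obtain ⟨a₁, ha₁⟩ := hE 1 1
  obtain ⟨a₂, ha₂⟩ := hE (-1) (-1)
  obtain ⟨a₃, ha₃⟩ := hE 1 (-1)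
  obtain ⟨a₄, ha₄⟩ := hE (-1) 1
  set ν := (c * c - k₀) with hν
  have hY : Skew D.S (r * X * r) := fun w w' => by
    have hi := refl_iso hS hu
    have hrr' : ∀ w, r (r w) = w := refl_refl hu
    show D.S (r (X (r w))) w' = -D.S w (r (X (r w')))
    conv_lhs => rw [← hrr' w', hr, hi]
    rw [← hr, hXs]
    congr 1
    conv_rhs => rw [← hrr' w, hr, hi]
  refine ⟨2 * (c * c) - 4⁻¹ * ((a₁ + a₂ - a₃ - a₄) / 1) - 2 * ν + (0 : F), fun w => ?_⟩
  refine sub_eq_zero.1 (hS.zero_of_perp fun w' => ?_)
  have e₁ := ha₁ w' w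
  have e₂ := ha₂ w' w
  have e₃ := ha₃ w' w
  have e₄ := ha₄ w' w
  have h4 : (4 : F) ≠ 0 := by
    rw [show (4 : F) = 2 * 2 by norm_num]; exact mul_ne_zero h2 h2
  have k1 : D.S w' (r (X (r w))) = - D.S (r (X (r w'))) w := by
    rw [show r (X (r w)) = (r * X * r) w from rfl, show r (X (r w')) = (r * X * r) w' from rfl,
      hY, neg_neg]
  have k2 : D.S w' (X w) = - D.S (X w') w := by rw [hXs, neg_neg]
  have k3 : D.S w' (X (r (X (r w)))) = - D.S (X w') (r (X (r w))) := by rw [hXs, neg_neg]
  have k4 : D.S w' (r (X (r (X w)))) = - D.S (r (X (r w'))) (X w) := by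
    rw [show r (X (r (X w))) = (r * X * r) (X w) from rfl,
      show r (X (r w')) = (r * X * r) w' from rfl, hY, neg_neg]
  simp only [map_add, map_sub, map_smul, LinearMap.add_apply, LinearMap.smul_apply, smul_eq_mul,
    hsq, k1, k2, k3, k4] at e₁ e₂ e₃ e₄ ⊢
  field_simp
  linear_combination -e₁ - e₂ + e₃ + e₄

end TD

end Cfsg.Agent.GeoLow.TensorSO
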