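import Cfsg.Agent.GeoLow.TensorSO.Scalar

/-!
One non-scalar elation parameter forces every transvection.
-/

set_option autoImplicit false
set_option linter.style.haveILetI false

namespace Cfsg.Agent.GeoLow.TensorSO

open Module

variable {F U W V : Type*} [Field F] [AddCommGroup U] [Module F U] [AddCommGroup W] [Module F W]
  [AddCommGroup V] [Module F V]

/-- The symmetric product of two vectors. -/
def symP (S : LinearMap.BilinForm F W) (a b : W) : Module.End F W :=
  (S a).smulRight b + (S b).smulRight a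

/-- The square of a vector. -/
def sqP (S : LinearMap.BilinForm F W) (a : W) : Module.End F W := (S a).smulRight a

lemma symP_comm (S : LinearMap.BilinForm F W) (a b : W) : symP S a b = symP S b a := add_comm _ _

section form

variable {S : LinearMap.BilinForm F W}

lemma refl_symP_refl (hS : Orth S) {n : W} (hn : S n n ≠ 0) (a b : W) :
    refl S n * symP S a b * refl S n = symP S (refl S n a) (refl S n b) := by
  refine LinearMap.ext fun x => ?_
  have h : ∀ c, S c (refl S n x) = S (refl S n c) x := fun c => by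
    conv_lhs => rw [← refl_iso hS hn c (refl S n x), refl_refl hn]
  simp [symP, h]

lemma refl_sqP_refl (hS : Orth S) {n : W} (hn : S n n ≠ 0) (a : W) :
    refl S n * sqP S a * refl S n = sqP S (refl S n a) := by
  refine LinearMap.ext fun x => ?_
  have h : S a (refl S n x) = S (refl S n a) x := by
    conv_lhs => rw [← refl_iso hS hn a (refl S n x), refl_refl hn]
  simp [sqP, h]

/-- A third anisotropic vector. -/
lemma exists_perp_triple (hS : Orth S) (h4 : 4 ≤ finrank F W) {a b c : W} (ha : S a a ≠ 0)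
    (hb : S b b ≠ 0) (hc : S c c ≠ 0) (hab : S a b = 0) (hac : S a c = 0) (hbc : S b c = 0) :
    ∃ n, S a n = 0 ∧ S b n = 0 ∧ S c n = 0 ∧ S n n ≠ 0 := by
  classical
  by_contra hcon
  push Not at hcon
  let π : W → W := fun w => w - (S a w / S a a) • a - (S b w / S b b) • b - (S c w / S c c) • c
  have hba : S b a = 0 := by rw [hS.symm]; exact hab
  have hca : S c a = 0 := by rw [hS.symm]; exact hac
  have hcb : S c b = 0 := by rw [hS.symm]; exact hbc
  have hπ : ∀ w, S a (π w) = 0 ∧ S b (π w) = 0 ∧ S c (π w) = 0 := fun w => by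
    simp [π, hab, hba, hac, hca, hbc, hcb, ha, hb, hc]
  have hadd : ∀ x y, π (x + y) = π x + π y := fun x y => by
    simp only [π, map_add, add_div]; module
  have h0 : ∀ w, π w = 0 := fun w => hS.nd _ fun y => by
    have e1 := hcon _ (hπ (w + y)).1 (hπ (w + y)).2.1 (hπ (w + y)).2.2
    have ew := hcon _ (hπ w).1 (hπ w).2.1 (hπ w).2.2
    have ey := hcon _ (hπ y).1 (hπ y).2.1 (hπ y).2.2
    rw [hadd] at e1
    simp only [map_add, LinearMap.add_apply, ew, ey, hS.symm (π y)] at e1
    have e2 : S (π w) (π y) = 0 := by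
      refine mul_left_cancel₀ hS.two ?_
      linear_combination e1
    have e3 : π y = y - (S a y / S a a) • a - (S b y / S b b) • b - (S c y / S c c) • c := rfl
    rw [e3] at e2
    simpa [hS.symm (π w) a, hS.symm (π w) b, hS.symm (π w) c, (hπ w).1, (hπ w).2.1,
      (hπ w).2.2] using e2
  have hle : (⊤ : Submodule F W) ≤ Submodule.span F (({a, b, c} : Finset W) : Set W) := fun w _ => by
    have := h0 w
    simp only [π, sub_sub, sub_eq_zero] at this
    rw [this]
    exact Submodule.add_mem _
      (Submodule.add_mem _ (Submodule.smul_mem _ _ (Submodule.subset_span (by simp)))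
        (Submodule.smul_mem _ _ (Submodule.subset_span (by simp))))
      (Submodule.smul_mem _ _ (Submodule.subset_span (by simp)))
  have h5 := finrank_span_finset_le_card (R := F) ({a, b, c} : Finset W)
  rw [Set.finrank, top_le_iff.1 hle, finrank_top] at h5
  have h6 : ({a, b, c} : Finset W).card ≤ 3 := Finset.card_le_three
  omega

lemma exists_sq_ne [Finite F] (hS : Orth S) (h3 : Nat.card F ≠ 3) (d : F) :
    ∃ s : F, s ≠ 0 ∧ s * s ≠ d := by
  classical
  haveI := Fintype.ofFinite F
  by_contra hc
  push Not at hc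
  have h1 : (1 : F) = d := by simpa using hc 1 one_ne_zero
  have hsub : (Finset.univ : Finset F) ⊆ {0, 1, -1} := fun s _ => by
    rcases eq_or_ne s 0 with rfl | hs
    · simp
    · rcases mul_self_eq_one_iff.1 ((hc s hs).trans h1.symm) with h | h <;> simp [h]
  have hle := (Finset.card_le_card hsub).trans Finset.card_le_three
  rw [Finset.card_univ] at hle
  have hodd : Fintype.card F % 2 = 1 := FiniteField.odd_card_of_char_ne_two fun e => hS.two (by
    have h := ringChar.Nat.cast_ringChar (R := F)
    rw [e] at h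
    exact_mod_cast h)
  have := Fintype.one_lt_card (α := F)
  rw [Nat.card_eq_fintype_card] at h3
  omega

end form

namespace TD

variable {D : TD F U W V} {M : Subgroup (Module.End F V)ˣ} (hC : D.Ctx M)
include hC

omit hC in
lemma exists_avoid_two {X Y : Type*} [AddCommGroup X] [Module F X] [AddCommGroup Y] [Module F Y]
    {f g : U →ₗ[F] X} {h : U →ₗ[F] Y} (hg : ∃ z, g z ≠ 0) (hh : ∃ z, h z ≠ 0)
    (hf : f = g) : ∃ z, f z ≠ 0 ∧ h z ≠ 0 := by
  subst hf
  obtain ⟨a, ha⟩ := hg
  obtain ⟨b, hb⟩ := hh
  by_cases h1 : h a = 0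
  · by_cases h2 : f b = 0
    · exact ⟨a + b, by simp [h2, ha], by simp [h1, hb]⟩
    · exact ⟨b, h2, hb⟩
  · exact ⟨a, ha, h1⟩

/-- Conjugating an elation by a left transvection. -/
lemma Ctx.N_move {z : U} {Y : Module.End F W} (h : Mem M (D.N z Y)) (u : U) (t : F) :
    Mem M (D.N (z + (t * D.om u z) • u) Y) := by
  obtain ⟨g, hg, hge⟩ := hC.left u t
  have hgi : ((g⁻¹ : (Module.End F V)ˣ) : Module.End F V) = 1 - D.N u (t • 1) := by
    refine Units.inv_eq_of_mul_eq_one_right ?_
    rw [hge, add_mul, mul_sub, mul_sub, one_mul, one_mul, mul_one, D.N_mul_N]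
    abel
  have h' := h.conj hg
  rw [hge, hgi] at h'
  convert h' using 1
  refine LinearMap.ext fun v => ?_
  simp [N_apply, D.i_p, D.om_skew z u]
  module

lemma Ctx.N_change {z z' : U} {Y : Module.End F W} (hz : z ≠ 0) (hz' : z' ≠ 0)
    (h : Mem M (D.N z Y)) : Mem M (D.N z' Y) := by
  have one : ∀ a b : U, D.om a b ≠ 0 → Mem M (D.N a Y) → Mem M (D.N b Y) := by
    intro a b hab ha
    have hba : D.om (b - a) a ≠ 0 := by
      simp [D.om_self, D.om_skew a b, hab]
    have := hC.N_move ha (b - a) (D.om (b - a) a)⁻¹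
    rwa [inv_mul_cancel₀ hba, one_smul, add_sub_cancel] at this
  obtain ⟨y, h1, h2⟩ : ∃ y, D.om z y ≠ 0 ∧ D.om z' y ≠ 0 := by
    refine exists_avoid_two ?_ ?_ rfl
    · by_contra hc; push Not at hc; exact hz (D.om_nd z hc)
    · by_contra hc; push Not at hc; exact hz' (D.om_nd z' hc)
  exact one y z' (by rw [D.om_skew]; exact neg_ne_zero.2 h2) (one z y h1 h)

/-- Parameters of elations at all points. -/
def Par (D : TD F U W V) (M : Subgroup (Module.End F V)ˣ) (Y : Module.End F W) : Prop :=
  ∀ z, z ≠ 0 → Mem M (D.N z Y)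

omit hC in
lemma Par.add {Y Y' : Module.End F W} (h : Par D M Y) (h' : Par D M Y') : Par D M (Y + Y') :=
  fun z hz => by rw [D.N_add]; exact (h z hz).add (h' z hz) (D.N_mul_N z Y Y')

omit hC in
lemma Par.neg {Y : Module.End F W} (h : Par D M Y) : Par D M (-Y) :=
  fun z hz => by rw [D.N_neg]; exact (h z hz).neg (D.N_mul_N z Y Y)

omit hC in
lemma Par.sq_smul {Y : Module.End F W} (h : Par D M Y) (c : F) : Par D M ((c * c) • Y) :=
  fun z hz => by
    rcases eq_or_ne c 0 with rfl | hc
    · rw [mul_zero, D.N_smul, zero_smul]; exact Mem.zero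
    · have := h (c • z) (smul_ne_zero hc hz)
      rwa [D.N_smul_left, ← D.N_smul] at this

lemma Par.smul [Finite F] {Y : Module.End F W} (h : Par D M Y) (c : F) : Par D M (c • Y) := by
  haveI := Fintype.ofFinite F
  have hodd : Fintype.card F % 2 = 1 := FiniteField.odd_card_of_char_ne_two fun e => hC.orth.two (by
    have h := ringChar.Nat.cast_ringChar (R := F)
    rw [e] at h
    exact_mod_cast h)
  obtain ⟨a, b, hab⟩ := FiniteField.exists_root_sum_quadratic
    (f := Polynomial.X ^ 2) (g := Polynomial.X ^ 2 - Polynomial.C c)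
    (Polynomial.degree_X_pow 2) (Polynomial.degree_X_pow_sub_C two_pos c) hodd
  simp only [Polynomial.eval_pow, Polynomial.eval_X, Polynomial.eval_sub, Polynomial.eval_C] at hab
  rw [show c = a * a + b * b by linear_combination -hab, add_smul]
  exact (h.sq_smul a).add (h.sq_smul b)

lemma Par.refl_conj {Y : Module.End F W} (h : Par D M Y) {n : W} (hn : D.S n n ≠ 0) :
    Par D M (refl D.S n * Y * refl D.S n) := fun z hz => by
  obtain ⟨g, hg, hge, hgi⟩ := hC.right_refl hn
  have := (h z hz).conj hg
  rwa [hge, hgi, D.act_mul_N, D.N_mul_act] at this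

lemma Ctx.self_adj {z : U} (hz : z ≠ 0) {Y : Module.End F W} (h : Mem M (D.N z Y)) (a b : W) :
    D.S (Y a) b = D.S (Y b) a := by
  obtain ⟨g, hg, hge⟩ := h
  obtain ⟨u, rfl⟩ := D.i_surjective hz a
  obtain ⟨v, rfl⟩ := D.i_surjective hz b
  have := hC.pres g hg u v
  simp only [hge, LinearMap.add_apply, Module.End.one_apply, map_add, N_apply, D.Om_p, D.i_p,
    D.om_self, zero_smul, map_zero, D.Om_skew (D.p z (Y (D.i z v))) u] at this
  linear_combination this

/-- From a non-scalar parameter to the symmetric product of orthogonal vectors. -/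
lemma Ctx.exists_symP [Finite F] (hL : ¬ D.ScalarParams M) :
    ∃ u y, D.S u u ≠ 0 ∧ D.S u y = 0 ∧ y ≠ 0 ∧ Par D M (symP D.S u y) := by
  simp only [ScalarParams, not_forall] at hL
  obtain ⟨z, hz, Y, hY, hns⟩ := hL
  have hP : Par D M Y := fun z' hz' => hC.N_change hz hz' hY
  have hS := hC.orth
  obtain ⟨u, hu, hne⟩ : ∃ u, D.S u u ≠ 0 ∧ ∀ c : F, Y u ≠ c • u := by
    by_contra hc
    push Not at hc
    refine hns ?_
    have hiso : ∀ v, D.S v v = 0 → ∃ c : F, Y v = c • v := by
      intro v hv
      rcases eq_or_ne v 0 with rfl | hv0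
      · exact ⟨0, by simp⟩
      obtain ⟨f, hvf, hff⟩ := exists_partner hS hv0 hv
      obtain ⟨n, hvn, -, hnn⟩ := exists_perp_hyp hS hv hvf hff
      obtain ⟨b, hb⟩ := hc n hnn
      obtain ⟨a, ha⟩ := hc (v + n) (by simp [hv, hvn, hS.symm n v, hnn])
      obtain ⟨a', ha'⟩ := hc (v - n) (by simp [hv, hvn, hS.symm n v, hnn])
      rw [map_add, hb] at ha
      rw [map_sub, hb] at ha'
      have hsum : ((2 : F) * b) • n = (a - a') • v + (a + a') • n := by
        linear_combination (norm := module) ha - ha'
      have e1 := congrArg (D.S n) hsum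
      have e2 := congrArg (D.S f) hsum
      simp only [map_add, map_smul, smul_eq_mul, hS.symm n v, hvn, hS.symm f v, hvf] at e1 e2
      refine ⟨b, ?_⟩
      have haa : 2 * b = a + a' := mul_right_cancel₀ hnn (by linear_combination e1)
      have h1 : a = a' := by
        rw [haa] at e2
        linear_combination -e2
      subst h1
      obtain rfl : b = a := mul_left_cancel₀ hS.two (by linear_combination haa)
      linear_combination (norm := module) ha
    obtain ⟨c, hc'⟩ := scalar_of_isotropic_eigen hS hiso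
    exact ⟨c, by rw [hc']; rfl⟩
  set a : F := D.S u (Y u) / D.S u u with ha
  refine ⟨u, Y u - a • u, hu, ?_, fun h => hne a (sub_eq_zero.1 h), ?_⟩
  · rw [map_sub, map_smul, smul_eq_mul, ha, div_mul_cancel₀ _ hu, sub_self]
  have h1 := Par.smul hC ((Par.refl_conj hC hP hu).add hP.neg) (-(D.S u u / 2))
  convert h1 using 1
  refine LinearMap.ext fun x => ?_
  have hsb : ∀ x, D.S (Y u) x = D.S u (Y x) := fun x => by
    rw [hS.symm u, hC.self_adj hz hY x u]
  have h2 := hS.two
  simp [symP, refl_apply, hsb, ha]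
  match_scalars <;> field_simp <;> ring

/-- If `sym(a, b)` is a parameter, so is `sym(a, n)` for all `n` orthogonal to `a`. -/
lemma Ctx.symP_full [Finite F] (hq : Nat.card F = 3 → 4 ≤ finrank F W) {a b : W}
    (ha : D.S a a ≠ 0) (hb : D.S b b ≠ 0) (hab : D.S a b = 0) (h : Par D M (symP D.S a b))
    {n : W} (hn : D.S a n = 0) : Par D M (symP D.S a n) := by
  have hS := hC.orth
  have hadd : ∀ x y, Par D M (symP D.S a x) → Par D M (symP D.S a y) →
      Par D M (symP D.S a (x + y)) := fun x y hx hy => by
    convert hx.add hy using 1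
    exact LinearMap.ext fun w => by simp [symP]; module
  have hsmul : ∀ (c : F) x, Par D M (symP D.S a x) → Par D M (symP D.S a (c • x)) := fun c x hx => by
    convert Par.smul hC hx c using 1
    exact LinearMap.ext fun w => by simp [symP]; module
  have hsub : ∀ x y, Par D M (symP D.S a x) → Par D M (symP D.S a y) →
      Par D M (symP D.S a (x - y)) := fun x y hx hy => by
    rw [sub_eq_add_neg, ← neg_one_smul F y]; exact hadd _ _ hx (hsmul _ _ hy)
  have big : ∀ m, D.S a m = 0 → D.S m m ≠ 0 → D.S m b ≠ 0 → Par D M (symP D.S a m) := by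
    intro m ham hmm hmb
    have h1 := Par.refl_conj hC h hmm
    rw [refl_symP_refl hS hmm, refl_of_perp (by rw [hS.symm]; exact ham), refl_apply] at h1
    have h3 := hsmul ((2 / D.S m m * D.S m b)⁻¹) _ (hsub _ _ h h1)
    rwa [sub_sub_cancel, inv_smul_smul₀
      (mul_ne_zero (div_ne_zero hS.two hmm) hmb)] at h3
  have aniso : ∀ m, D.S a m = 0 → D.S m m ≠ 0 → Par D M (symP D.S a m) := by
    intro m ham hmm
    by_cases hmb : D.S m b = 0
    swap
    · exact big m ham hmm hmb
    have hbm : D.S b m = 0 := by rw [hS.symm]; exact hmb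
    by_cases h3 : Nat.card F = 3
    · obtain ⟨k, hak, hbk, hmk, hkk⟩ := exists_perp_triple hS (hq h3) ha hb hmm hab ham hbm
      have hF : ∀ x : F, x ≠ 0 → x = 1 ∨ x = -1 := by
        intro x hx
        haveI := Fintype.ofFinite F
        have := FiniteField.pow_card_sub_one_eq_one x hx
        rw [← Nat.card_eq_fintype_card, h3] at this
        exact sq_eq_one_iff.1 this
      by_cases hbm0 : D.S b b + D.S m m = 0
      · have key : ∀ s : F, s * s = 1 → Par D M (symP D.S a (m + s • k)) := fun s hs => by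
          have h1 := big (b + m + s • k) (by simp [hab, ham, hak]) ?_ ?_
          · have h4 := hsub _ _ h1 h
            rwa [show b + m + s • k - b = m + s • k by abel] at h4
          · simp [hS.symm m b, hS.symm k b, hS.symm k m, hbm, hbk, hmk]
            intro e
            refine mul_ne_zero (a := s * s) ?_ hkk (by linear_combination e - hbm0)
            rw [hs]; exact one_ne_zero
          · simp [hS.symm k b, hbk, hmb, hb]
        have h5 := hsmul (2 : F)⁻¹ _ (hadd _ _ (key 1 (one_mul 1)) (key (-1) (by ring)))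
        rwa [show m + (1 : F) • k + (m + (-1 : F) • k) = (2 : F) • m by module,
          inv_smul_smul₀ hS.two] at h5
      · have h1 := big (b + m) (by simp [hab, ham]) (by simpa [hbm, hmb] using hbm0)
          (by simp [hmb, hb])
        simpa using hsub _ _ h1 h
    · obtain ⟨s, hs0, hs⟩ := exists_sq_ne hS h3 (-(D.S b b) / D.S m m)
      have h1 := big (b + s • m) (by simp [hab, ham]) ?_ (by simp [hmb, hb])
      · have h4 := hsmul s⁻¹ _ (hsub _ _ h1 h)
        rwa [add_sub_cancel_left, inv_smul_smul₀ hs0] at h4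
      · simp [hbm, hmb]
        intro e
        refine hs ?_
        rw [eq_div_iff hmm]
        linear_combination e
  by_cases hnn : D.S n n = 0
  · by_cases h1 : D.S (n + b) (n + b) = 0
    · have h2 : D.S (n - b) (n - b) ≠ 0 := by
        intro h2
        simp [hnn, hS.symm b n] at h1 h2
        exact hb (mul_left_cancel₀ hS.two (by linear_combination h1 + h2))
      simpa using hadd _ _ (aniso (n - b) (by simp [hn, hab]) h2) h
    · simpa using hsub _ _ (aniso (n + b) (by simp [hn, hab]) h1) h
  · exact aniso n hn hnn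

/-- The square of an isotropic vector is a parameter. -/
lemma Ctx.sqP_isotropic [Finite F] (hq : Nat.card F = 3 → 4 ≤ finrank F W)
    (hL : ¬ D.ScalarParams M) {w : W} (hw : w ≠ 0) (hww : D.S w w = 0) :
    Par D M (sqP D.S w) := by
  have hS := hC.orth
  obtain ⟨u, y, hu, huy, hy, hP⟩ := hC.exists_symP hL
  obtain ⟨a, e, ha, hae, he, hee, hPe⟩ : ∃ a e, D.S a a ≠ 0 ∧ D.S a e = 0 ∧ e ≠ 0 ∧ D.S e e = 0 ∧
      Par D M (symP D.S a e) := by
    by_cases hyy : D.S y y = 0
    · exact ⟨u, y, hu, huy, hy, hyy, hP⟩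
    have hyu : D.S y u = 0 := by rw [hS.symm]; exact huy
    have hy_full : ∀ n, D.S y n = 0 → Par D M (symP D.S y n) := fun n hn =>
      hC.symP_full hq hyy hu hyu (by rwa [symP_comm]) hn
    obtain ⟨n, hun, hyn, hnn⟩ := exists_perp_pair hS hu hyy huy
    obtain ⟨α, β, hv⟩ := exists_value hS hu hnn hun (-D.S y y)
    set m1 := α • u + β • n with hm1
    have hym1 : D.S y m1 = 0 := by simp [hm1, hyu, hyn]
    obtain ⟨m, hym, hm1m, hmm⟩ := exists_perp_pair hS hyy
      (by rw [hv]; exact neg_ne_zero.2 hyy : D.S m1 m1 ≠ 0) hym1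
    have hmy : D.S m y = 0 := by rw [hS.symm]; exact hym
    have hmm1 : D.S m m1 = 0 := by rw [hS.symm]; exact hm1m
    refine ⟨m, y + m1, hmm, by simp [hmy, hmm1], fun h0 => hyy ?_, ?_,
      hC.symP_full hq hmm hyy hmy ?_ (by simp [hmy, hmm1])⟩
    · have := congrArg (D.S y) h0
      simpa [hym1] using this
    · simp only [map_add, LinearMap.add_apply, hym1, hS.symm m1 y, hv]; ring
    · rw [symP_comm]; exact hy_full m hym
  have hea : D.S e a = 0 := by rw [hS.symm]; exact hae
  have hn : D.S (a + e) (a + e) ≠ 0 := by simpa [hae, hea, hee] using ha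
  have h1 := Par.refl_conj hC hPe hn
  rw [refl_symP_refl hS hn] at h1
  have hre : refl D.S (a + e) e = e := refl_of_perp (by simp [hae, hee])
  have hra : refl D.S (a + e) a = -a - (2 : F) • e := by
    rw [refl_apply]
    simp [hae, hea, hee]
    rw [div_mul_cancel₀ _ ha]
    module
  rw [hre, hra] at h1
  have h0 : Par D M (sqP D.S e) := by
    convert Par.smul hC (h1.add hPe) (-(4 : F)⁻¹) using 1
    refine LinearMap.ext fun x => ?_
    have h4 : (4 : F) ≠ 0 := by
      rw [show (4 : F) = 2 * 2 by norm_num]; exact mul_ne_zero hS.two hS.two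
    simp [symP, sqP]
    match_scalars <;> field_simp <;> ring
  refine isotropic_induction hS (P := fun v => Par D M (sqP D.S v)) (fun n v hn hv => ?_)
    he hee h0 hw hww
  rw [← refl_sqP_refl hS hn]
  exact Par.refl_conj hC hv hn

/-- The centres of transvections in `M`. -/
def Cen (D : TD F U W V) (M : Subgroup (Module.End F V)ˣ) (v : V) : Prop :=
  ∀ t : F, Mem M (t • (D.Om v).smulRight v)

omit hC in
lemma Cen.smul {v : V} (h : Cen D M v) (a : F) : Cen D M (a • v) := fun t => by
  convert h (t * a * a) using 1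
  refine LinearMap.ext fun x => ?_
  simp [smul_smul]
  ring_nf

lemma Cen.conj {v : V} (h : Cen D M v) {g : (Module.End F V)ˣ} (hg : g ∈ M) :
    Cen D M ((g : Module.End F V) v) := fun t => by
  convert (h t).conj hg using 1
  refine LinearMap.ext fun x => ?_
  have := hC.pres g hg v (((g⁻¹ : (Module.End F V)ˣ) : Module.End F V) x)
  rw [show (g : Module.End F V) (((g⁻¹ : (Module.End F V)ˣ) : Module.End F V) x) = x from
    LinearMap.congr_fun (Units.mul_inv g) x] at this
  simp [this]

lemma Cen.plane {a b : V} (ha : Cen D M a) (hb : Cen D M b) (hab : D.Om a b ≠ 0) :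
    Cen D M (a + b) := by
  obtain ⟨g, hg, hge⟩ := hb (D.Om b a)⁻¹
  have := Cen.conj hC ha hg
  have hba : D.Om b a ≠ 0 := by rw [D.Om_skew]; exact neg_ne_zero.2 hab
  rwa [hge, LinearMap.add_apply, Module.End.one_apply, LinearMap.smul_apply,
    LinearMap.smulRight_apply, inv_smul_smul₀ hba] at this

omit hC in
lemma Cen.sub_of (hC : D.Ctx M) {a b : V} (ha : Cen D M a) (hb : Cen D M b) (hab : D.Om a b ≠ 0) :
    Cen D M (a - b) := by
  rw [sub_eq_add_neg, ← neg_one_smul F b]
  exact Cen.plane hC ha (hb.smul _) (by simp [hab])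

/-- Every pure tensor is a centre. -/
lemma Ctx.cen_pure [Finite F] (hq : Nat.card F = 3 → 4 ≤ finrank F W) (hL : ¬ D.ScalarParams M)
    (z : U) (w : W) : Cen D M (D.p z w) := by
  have hS := hC.orth
  rcases eq_or_ne z 0 with rfl | hz
  · intro t; simpa using (Mem.zero (M := M))
  have iso : ∀ z' e, z' ≠ 0 → D.S e e = 0 → Cen D M (D.p z' e) := by
    intro z' e hz' hee
    rcases eq_or_ne e 0 with rfl | he
    · intro t; simpa using (Mem.zero (M := M))
    intro t
    convert Par.smul hC (hC.sqP_isotropic hq hL he hee) t z' hz' using 1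
    exact LinearMap.ext fun v => by simp [N_apply, sqP, D.Om_p, smul_smul]
  obtain ⟨z', hzz⟩ := D.exists_pair hz
  have hz' : z' ≠ 0 := by rintro rfl; simp at hzz
  have hz'z : D.om z' z = -1 := by rw [D.om_skew, hzz]
  have sum : ∀ x y h, Cen D M (D.p z x) → Cen D M (D.p z y) → D.S h h = 0 → D.S x h ≠ 0 →
      D.S y h ≠ 0 → D.S (x + y) h ≠ 0 → Cen D M (D.p z (x + y)) := by
    intro x y h hx hy hh hxh hyh hxyh
    have hh' := iso z' h hz' hh
    have e1 : ∀ s, D.Om (D.p z s) (D.p z' h) = D.S s h := fun s => by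
      rw [D.Om_p, D.i_p, hzz, one_smul]
    have e2 : ∀ s s', D.Om (D.p z s) (D.p z s') = 0 := fun s s' => by
      rw [D.Om_p, D.i_p, D.om_self, zero_smul, map_zero]
    have h1 := Cen.plane hC hx hh' (by rw [e1]; exact hxh)
    have h2 := Cen.plane hC hy h1 (by rw [map_add, e1, e2, zero_add]; exact hyh)
    have h3 := Cen.sub_of hC h2 hh' (by
      simp only [map_add, LinearMap.add_apply, e1, D.Om_self, add_zero]
      rw [add_comm]; simpa using hxyh)
    convert h3 using 1
    rw [map_add]; abel
  by_cases hww : D.S w w = 0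
  · exact iso z w hz hww
  obtain ⟨e, he, hee⟩ := exists_isotropic hS
  obtain ⟨f, hef, hff⟩ := exists_partner hS he hee
  have hfe : D.S f e = 1 := by rw [hS.symm]; exact hef
  set c : F := D.S w w / 2 with hc
  have h2 := hS.two
  have hc0 : c ≠ 0 := div_ne_zero hww h2
  obtain ⟨n, hen, hfn, hnn⟩ := exists_perp_hyp hS hee hef hff
  have hne : D.S n e = 0 := by rw [hS.symm]; exact hen
  have hnf : D.S n f = 0 := by rw [hS.symm]; exact hfn
  obtain ⟨h, hhh, heh, hfh, hefh⟩ : ∃ h, D.S h h = 0 ∧ D.S e h ≠ 0 ∧ D.S (c • f) h ≠ 0 ∧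
      D.S (e + c • f) h ≠ 0 := by
    by_cases h3 : Nat.card F = 3
    · have huu : D.S (e + f) (e + f) ≠ 0 := by
        simp [hee, hff, hef, hfe, one_add_one_eq_two, h2]
      have hvv : D.S (e - f) (e - f) ≠ 0 := by
        simp [hee, hff, hef, hfe]
        intro h; exact h2 (by linear_combination -h)
      obtain ⟨n2, h1, h1', hnn2, hn2⟩ := exists_perp_triple hS (hq h3) huu hvv hnn
        (by simp [hee, hff, hef, hfe]) (by simp [hen, hfn]) (by simp [hen, hfn])
      simp only [map_add, map_sub, LinearMap.add_apply, LinearMap.sub_apply] at h1 h1'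
      have hen2 : D.S e n2 = 0 := mul_left_cancel₀ h2 (by linear_combination h1 + h1')
      have hfn2 : D.S f n2 = 0 := mul_left_cancel₀ h2 (by linear_combination h1 - h1')
      obtain ⟨α, β, hv⟩ := exists_value hS hnn hn2 hnn2 (-(2 * c))
      set k := α • n + β • n2 with hk
      have hek : D.S e k = 0 := by simp [hk, hen, hen2]
      have hfk : D.S f k = 0 := by simp [hk, hfn, hfn2]
      refine ⟨e + c • f + k, ?_, ?_, ?_, ?_⟩
      · simp [hee, hff, hef, hfe, hek, hfk, hS.symm k e, hS.symm k f, hv]; ring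
      · simpa [hee, hef, hek] using hc0
      · simpa [hff, hfe, hfk] using hc0
      · simp [hee, hff, hef, hfe, hek, hfk]
        intro h; exact mul_ne_zero h2 hc0 (by linear_combination h)
    · set k : F := -D.S n n / 2 with hk
      have hk0 : k ≠ 0 := div_ne_zero (neg_ne_zero.2 hnn) h2
      obtain ⟨α, hα0, hα⟩ := exists_sq_ne hS h3 (-k / c)
      refine ⟨α • e + (k / α) • f + n, ?_, ?_, ?_, ?_⟩
      · simp [hee, hff, hef, hfe, hne, hnf, hen, hfn, hk]; field_simp; ring
      · simp [hee, hef, hen, hk0, hα0]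
      · simp [hff, hfe, hfn, hc0, hα0]
      · simp [hee, hff, hef, hfe, hen, hfn]
        intro h
        refine hα ?_
        field_simp at h ⊢
        linear_combination h
  have hbase := sum e (c • f) h (iso z e hz hee) (iso z _ hz (by simp [hff])) hhh heh hfh hefh
  set x := e + c • f with hx
  have hxx : D.S x x = D.S w w := by
    simp [hx, hee, hff, hef, hfe, hc]; field_simp; ring
  have move : ∀ x' r, D.S r r ≠ 0 → Cen D M (D.p z x') → Cen D M (D.p z (refl D.S r x')) := by
    intro x' r hr hx'
    obtain ⟨g, hg, hge, -⟩ := hC.right_refl hr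
    have := Cen.conj hC hx' hg
    rwa [hge, D.act_p] at this
  by_cases hd : D.S (x - w) (x - w) = 0
  · have hd' : D.S (x - -w) (x - -w) ≠ 0 := by
      intro hd'
      simp [hxx, hS.symm w x] at hd hd'
      exact hww (mul_left_cancel₀ (mul_ne_zero h2 h2) (by linear_combination hd + hd'))
    have := move x _ hd' hbase
    rw [refl_swap hS (v := x) (w := -w) (by simp [hxx]) hd', map_neg] at this
    simpa using this.smul (-1)
  · have := move x _ hd hbase
    rwa [refl_swap hS hxx hd] at this

/-- One non-scalar parameter gives every transvection. -/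
theorem Ctx.transv_mem_of_not_scalar [Finite F] [FiniteDimensional F W]
    (hq : Nat.card F = 3 → 4 ≤ finrank F W) (hL : ¬ D.ScalarParams M) (v : V) (t : F) :
    Mem M (t • (D.Om v).smulRight v) := by
  have hS := hC.orth
  have hpure := hC.cen_pure hq hL
  have exists_dual : ∀ a : W, a ≠ 0 → ∃ s, D.S s a ≠ 0 := fun a ha => by
    by_contra hc; push Not at hc; exact ha (hS.zero_of_perp hc)
  have first : ∀ c z w, Cen D M c → D.i z c ≠ 0 → Cen D M (c + D.p z w) := by
    intro c z w hc hic
    by_cases hw : D.S w (D.i z c) = 0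
    · obtain ⟨s, hs⟩ := exists_dual _ hic
      have h1 := Cen.plane hC (hpure z s) hc (by rw [D.Om_p]; exact hs)
      have h2 := Cen.plane hC (hpure z (w - s)) h1 (by
        rw [D.Om_p, map_add, D.i_p, D.om_self, zero_smul, zero_add, map_sub,
          LinearMap.sub_apply, hw, zero_sub]
        exact neg_ne_zero.2 hs)
      convert h2 using 1
      rw [map_sub]; abel
    · rw [add_comm]; exact Cen.plane hC (hpure z w) hc (by rw [D.Om_p]; exact hw)
  have step : ∀ c z w, Cen D M c → Cen D M (c + D.p z w) := by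
    intro c z w hc
    by_cases hic : D.i z c = 0
    swap
    · exact first c z w hc hic
    rcases eq_or_ne z 0 with rfl | hz
    · simpa using hc
    rcases eq_or_ne c 0 with rfl | hc0
    · simpa using hpure z w
    rcases eq_or_ne (c + D.p z w) 0 with hcw | hcw
    · rw [hcw]; intro s; simpa using (Mem.zero (M := M))
    set d := c + D.p z w with hd
    have hid : D.i z d = 0 := by rw [hd, map_add, hic, D.i_p, D.om_self, zero_smul, add_zero]
    have ne : ∀ v : V, v ≠ 0 → ∃ s, D.i.flip v s ≠ 0 := fun v hv => by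
      by_contra hh; push Not at hh; exact hv (D.ext_i v fun x => hh x)
    obtain ⟨s, hsc, hsd⟩ := exists_avoid_two (ne c hc0) (ne d hcw) rfl
    simp only [LinearMap.flip_apply] at hsc hsd
    obtain ⟨z2, hz2, h2c, h2d⟩ : ∃ z2, D.om z2 z ≠ 0 ∧ D.i z2 c ≠ 0 ∧ D.i z2 d ≠ 0 := by
      by_cases hsz : D.om s z ≠ 0
      · exact ⟨s, hsz, hsc, hsd⟩
      push Not at hsz
      obtain ⟨y', hy'⟩ := D.exists_pair hz
      have hy : D.om y' z ≠ 0 := by rw [D.om_skew, hy']; exact neg_ne_zero.2 one_ne_zero
      have h2 := hS.two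
      by_contra hh
      push Not at hh
      have e1 := hh y' hy
      have e2 := hh (s + y') (by simpa [hsz] using hy)
      have e3 := hh (y' - s) (by simpa [hsz] using hy)
      simp only [map_add, map_sub, LinearMap.add_apply, LinearMap.sub_apply] at e2 e3
      have two : ∀ a : W, a + a = 0 → a = 0 := fun a ha => by
        rw [← two_smul F a] at ha; exact (smul_eq_zero.1 ha).resolve_left h2
      by_cases p1 : D.i y' c = 0
      · have q2 := e2 (by simpa [p1] using hsc)
        have q3 := e3 (by simpa [p1] using hsc)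
        refine hsd (two _ ?_)
        linear_combination (norm := module) q2 - q3
      · have q1 := e1 p1
        by_cases p2 : D.i s c + D.i y' c = 0
        · have q3 := e3 (by
            intro hh; exact hsc (two _ (by linear_combination (norm := module) p2 - hh)))
          exact hsd (by simpa [q1] using q3)
        · exact hsd (by simpa [q1] using e2 p2)
    obtain ⟨r, hr1, hr2⟩ : ∃ r, D.S r (D.i z2 c) ≠ 0 ∧ D.S r (D.i z2 d) ≠ 0 := by
      obtain ⟨a, ha⟩ := exists_dual _ h2c
      obtain ⟨b, hb⟩ := exists_dual _ h2d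
      by_cases h1 : D.S a (D.i z2 d) = 0
      · by_cases h2 : D.S b (D.i z2 c) = 0
        · exact ⟨a + b, by simp [h2, ha], by simp [h1, hb]⟩
        · exact ⟨b, h2, hb⟩
      · exact ⟨a, ha, h1⟩
    have hr0 : r ≠ 0 := by rintro rfl; simp at hr1
    have h1 : Cen D M (c + D.p z2 r) := first c z2 r hc h2c
    have h3 := first _ z w h1 (by
      rw [map_add, hic, zero_add, D.i_p, D.om_skew z2 z]
      exact smul_ne_zero (neg_ne_zero.2 hz2) hr0)
    have h4 := Cen.sub_of hC h3 (hpure z2 r) (by
      rw [show c + D.p z2 r + D.p z w = d + D.p z2 r by rw [hd]; abel, map_add,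
        LinearMap.add_apply, D.Om_self, add_zero, D.Om_skew, D.Om_p]
      exact neg_ne_zero.2 hr2)
    rwa [show c + D.p z2 r + D.p z w - D.p z2 r = d by rw [hd]; abel] at h4
  let A : Submodule F V :=
    { carrier := {v | ∀ (a : F) c, Cen D M c → Cen D M (c + a • v)}
      add_mem' := fun hv hv' a c hc => by
        rw [smul_add, ← add_assoc]; exact hv' a _ (hv a c hc)
      zero_mem' := fun a c hc => by simpa using hc
      smul_mem' := fun b v hv a c hc => by rw [smul_smul]; exact hv _ c hc }
  have hA : A = ⊤ := by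
    by_contra hne
    obtain ⟨φ, hφ, hAφ⟩ := Submodule.exists_dual_map_eq_bot_of_lt_top (lt_top_iff_ne_top.2 hne) inferInstance
    refine hφ (LinearMap.ext fun x => ?_)
    by_contra hx
    have := D.ext_p (φ.smulRight x) 0 fun z w => ?_
    · have h0 := LinearMap.congr_fun this x
      simp only [LinearMap.smulRight_apply, LinearMap.zero_apply, smul_eq_zero] at h0
      rcases h0 with h0 | h0
      · exact hx (by simpa using h0)
      · exact hx (by simp [h0])
    · have hm : D.p z w ∈ A := fun a c hc => by rw [← map_smul]; exact step c z _ hc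
      have : φ (D.p z w) = 0 := by
        rw [← Submodule.mem_bot F, ← hAφ]; exact Submodule.mem_map_of_mem hm
      simp [this]
  have hv : v ∈ A := hA ▸ Submodule.mem_top
  have h0 : Cen D M (0 : V) := fun s => by simpa using (Mem.zero (M := M))
  simpa using hv 1 0 h0 t

end TD

end Cfsg.Agent.GeoLow.TensorSO
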