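import Cfsg.Agent.GeoLow.TensorSO.Siegel
import Cfsg.Agent.GeoLow.TensorSO.Params
import Cfsg.Agent.GeoLow.TensorSO.Concrete
import Cfsg.Agent.GeoClasses.SympMax

/-!
The stabiliser of a decomposition of a symplectic space into a symplectic and an orthogonal factor
is maximal in the symplectic group.
-/

set_option autoImplicit false

namespace Cfsg.Agent.GeoLow.TensorSO

open Module Cfsg.Geo
open Cfsg.Agent.GeoClasses (spGL_le_of_spTau_mem spTau_apply spB_swap gl_ext_mulVec)
open scoped MatrixGroups Matrix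

variable {F : Type*} [Field F] [Fintype F] {m n₁ n₂ : ℕ} {e : (Fin m ⊕ Fin m) ≃ Fin n₁ × Fin n₂}
  {P : GL (Fin m ⊕ Fin m) F} {f₁ : (Fin n₁ → F) → (Fin n₁ → F) → F}
  {f₂ : (Fin n₂ → F) → (Fin n₂ → F) → F}

/-- Maximality, given that scalar parameters force all elements to be pure tensors. -/
theorem Setup.maximal_of_pure (h : Setup m n₁ n₂ e P f₁ f₂) (hm : 0 < m)
    (hq : Fintype.card F = 3 → 4 ≤ n₂)
    (hcore : ∀ M, h.data.Ctx M → h.data.ScalarParams M → ∀ g ∈ M,
      ∃ (C : Module.End F (Fin n₁ → F)) (k : Module.End F (Fin n₂ → F)),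
        ∀ x w, (g : Module.End F (Fin m ⊕ Fin m → F)) (h.data.p x w) = h.data.p (C x) (k w)) :
    IsMaximalIn (Cfsg.spGL m F) (tensorProductSubgroup n₁ n₂ e P ⊓ Cfsg.spGL m F) := by
  refine ⟨h.inf_lt hm, fun G hG hGs => ?_⟩
  have hC := h.ctx hG hGs
  by_cases hL : h.data.ScalarParams (G.map (toEndUnits m F))
  · refine Or.inl (le_antisymm (le_inf (fun g hg => ?_) hGs) hG)
    obtain ⟨C, k, hk⟩ := hcore _ hC hL _ (Subgroup.mem_map_of_mem _ hg)
    exact h.mem_of_pure hm C k hk
  · refine Or.inr (le_antisymm hGs (spGL_le_of_spTau_mem fun v c => ?_))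
    obtain ⟨_, ⟨g, hg, rfl⟩, hge⟩ := hC.transv_mem_of_not_scalar
      (fun hcard => by
        rw [finrank_fin_fun]
        exact hq (by rw [← Nat.card_eq_fintype_card]; exact hcard)) hL v (-c)
    suffices Cfsg.Agent.ClassicalMax.spTau v c = g by rwa [this]
    refine gl_ext_mulVec fun x => ?_
    rw [spTau_apply, ← toEndUnits_apply g x, hge, LinearMap.add_apply, Module.End.one_apply,
      LinearMap.smul_apply, LinearMap.smulRight_apply, smul_smul]
    congr 2
    show _ = -c * Cfsg.Agent.Forms.sympBil m F v x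
    rw [spB_swap x v]
    ring

/-- Maximality, given that scalar parameters force the pairings of opposite entries to be scalar. -/
theorem Setup.maximal (h : Setup m n₁ n₂ e P f₁ f₂) (hm : 0 < m)
    (hq : Fintype.card F = 3 → 4 ≤ n₂) (hex : ¬ (n₁ = 2 ∧ n₂ = 4))
    (hcore : ∀ M, h.data.Ctx M → h.data.ScalarParams M → h.data.EntScalar M) :
    IsMaximalIn (Cfsg.spGL m F) (tensorProductSubgroup n₁ n₂ e P ⊓ Cfsg.spGL m F) :=
  h.maximal_of_pure hm hq fun _ hC hL _ hg => hC.pure_of_entScalar (hcore _ hC hL)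
    (by rw [finrank_fin_fun]; exact h.two_le hm)
    (by rw [finrank_fin_fun, finrank_fin_fun]; exact hex) hg

/-- A symplectic factor of dimension above two has dimension at least four. -/
lemma four_le_of_ne_two {F U W V : Type*} [Field F] [AddCommGroup U] [Module F U] [AddCommGroup W]
    [Module F W] [AddCommGroup V] [Module F V] [FiniteDimensional F U] (D : TD F U W V)
    (h : 3 ≤ finrank F U) : 4 ≤ finrank F U := by
  have : Nontrivial U := Module.nontrivial_of_finrank_pos (R := F) (by omega)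
  obtain ⟨x, hx⟩ := exists_ne (0 : U)
  obtain ⟨y, hy⟩ := D.exists_pair hx
  obtain ⟨w, hw, hw0⟩ := Submodule.exists_mem_ne_zero_of_ne_bot
    (LinearMap.ker_ne_bot_of_finrank_lt (f := (D.om x).prod (D.om y)) (by
      rw [Module.finrank_prod, Module.finrank_self]; omega))
  simp only [LinearMap.mem_ker, LinearMap.prod_apply, Function.prod_apply, Prod.mk_eq_zero] at hw
  obtain ⟨z, hz⟩ := D.exists_pair hw0
  have hsurj : Function.Surjective
      (((D.om x).prod (D.om y)).prod ((D.om w).prod (D.om z))) := fun ⟨⟨a, b⟩, ⟨c, d⟩⟩ => by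
    have hyx : D.om y x = -1 := by rw [D.om_skew, hy]
    have hzw : D.om z w = -1 := by rw [D.om_skew, hz]
    have hwx : D.om w x = 0 := by rw [D.om_skew, hw.1, neg_zero]
    have hwy : D.om w y = 0 := by rw [D.om_skew, hw.2, neg_zero]
    set u := a • y - b • x with hu
    refine ⟨u + (a * 0 + c - D.om w u) • (z - D.om x z • y + D.om y z • x) -
      (d - D.om z u - (c - D.om w u) *
        D.om z (z - D.om x z • y + D.om y z • x)) • w, ?_⟩
    simp [hu, D.om_self, hy, hyx, hz, hzw, hwx, hwy, hw.1, hw.2]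
    rw [D.om_skew x z, D.om_skew y z]
    ring
  have h4 := Submodule.finrank_le (LinearMap.range
    (((D.om x).prod (D.om y)).prod ((D.om w).prod (D.om z))))
  rw [LinearMap.range_eq_top.2 hsurj, finrank_top, Module.finrank_prod, Module.finrank_prod,
    Module.finrank_self] at h4
  have h5 := LinearMap.finrank_range_le (((D.om x).prod (D.om y)).prod ((D.om w).prod (D.om z)))
  rw [LinearMap.range_eq_top.2 hsurj, finrank_top, Module.finrank_prod, Module.finrank_prod,
    Module.finrank_self] at h5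
  omega

/-- Maximality in all cases with an orthogonal factor of dimension at least four or a field with
more than three elements, except for the dimensions two and four. -/
theorem Setup.maximal_general (h : Setup m n₁ n₂ e P f₁ f₂) (hm : 0 < m)
    (hq : Fintype.card F = 3 → 4 ≤ n₂) (hex : ¬ (n₁ = 2 ∧ n₂ = 4)) :
    IsMaximalIn (Cfsg.spGL m F) (tensorProductSubgroup n₁ n₂ e P ⊓ Cfsg.spGL m F) := by
  by_cases h3 : Fintype.card F = 3
  · rcases eq_or_lt_of_le (h.two_le hm) with h2 | h2
    · refine h.maximal_of_pure hm hq fun _ hC hL _ hg => hC.pure_of_siegel hL ?_ ?_ hg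
      · rw [finrank_fin_fun]; exact h2.symm
      · rw [finrank_fin_fun]
        have := hq h3
        omega
    · exact h.maximal hm hq hex fun _ hC hL =>
        hC.entScalar_of_four hL (four_le_of_ne_two h.data (by rw [finrank_fin_fun]; omega))
  · exact h.maximal hm (fun h' => absurd h' h3) hex fun _ hC hL =>
      hC.entScalar hL (by rwa [Nat.card_eq_fintype_card])

/-- Maximality for fields with more than three elements. -/
theorem Setup.maximal_of_card (h : Setup m n₁ n₂ e P f₁ f₂) (hm : 0 < m)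
    (h3 : Fintype.card F ≠ 3) (hex : ¬ (n₁ = 2 ∧ n₂ = 4)) :
    IsMaximalIn (Cfsg.spGL m F) (tensorProductSubgroup n₁ n₂ e P ⊓ Cfsg.spGL m F) :=
  h.maximal hm (fun h' => absurd h' h3) hex fun _ hC hL =>
    hC.entScalar hL (by rwa [Nat.card_eq_fintype_card])

/-- Maximality in the dimensions two and four: the orthogonal factor has no totally isotropic plane. -/
theorem Setup.maximal_two_four (h : Setup m n₁ n₂ e P f₁ f₂) (hm : 0 < m) (hn₂ : n₂ = 4)
    (h3 : Fintype.card F ≠ 3) (hminus : ∀ W₀ : Submodule F (Fin n₂ → F), finrank F W₀ = 2 →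
      ∃ p ∈ W₀, ∃ q ∈ W₀, f₂ p q ≠ 0) :
    IsMaximalIn (Cfsg.spGL m F) (tensorProductSubgroup n₁ n₂ e P ⊓ Cfsg.spGL m F) := by
  have hq : Fintype.card F = 3 → 4 ≤ n₂ := fun _ => hn₂.ge
  have hpure : ∀ M, h.data.Ctx M → h.data.EntScalar M → ∀ g ∈ M,
      ∃ (C : Module.End F (Fin n₁ → F)) (k : Module.End F (Fin n₂ → F)),
        ∀ x w, (g : Module.End F (Fin m ⊕ Fin m → F)) (h.data.p x w) = h.data.p (C x) (k w) :=
    fun M hC hE g hg => hC.pure_of_entScalar' hE (by rw [finrank_fin_fun]; exact h.two_le hm)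
      (fun _ _ W₀ hW₀ => hminus W₀ hW₀) hg
  exact h.maximal_of_pure hm hq fun M hC hL g hg =>
    hpure M hC (hC.entScalar hL (by rwa [Nat.card_eq_fintype_card])) g hg

end Cfsg.Agent.GeoLow.TensorSO
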