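import Mathlib

/-!
Elementary facts on a finite orthogonal space of odd characteristic: reflections and isotropic vectors.
-/

set_option autoImplicit false
set_option linter.style.haveILetI false

namespace Cfsg.Agent.GeoLow.TensorSO

open Module

variable {F W : Type*} [Field F] [AddCommGroup W] [Module F W]

/-- A non-degenerate symmetric form, `2 ≠ 0`, dimension at least three. -/
structure Orth (S : LinearMap.BilinForm F W) : Prop where
  symm : ∀ x y, S x y = S y x
  nd : ∀ x, (∀ y, S x y = 0) → x = 0
  two : (2 : F) ≠ 0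
  three : 3 ≤ finrank F W

/-- The isometries. -/
def Iso (S : LinearMap.BilinForm F W) (k : Module.End F W) : Prop :=
  ∀ x y, S (k x) (k y) = S x y

/-- The reflection in `u`. -/
noncomputable def refl (S : LinearMap.BilinForm F W) (u : W) : Module.End F W :=
  LinearMap.id - (2 / S u u) • (S u).smulRight u

variable {S : LinearMap.BilinForm F W} {u v w : W}

lemma refl_apply (u w : W) : refl S u w = w - (2 / S u u * S u w) • u := by
  simp [refl, smul_smul]

lemma refl_self (hu : S u u ≠ 0) : refl S u u = -u := by
  rw [refl_apply, div_mul_cancel₀ _ hu]; module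

lemma refl_of_perp (h : S u w = 0) : refl S u w = w := by simp [refl_apply, h]

lemma refl_refl (hu : S u u ≠ 0) (w : W) : refl S u (refl S u w) = w := by
  rw [refl_apply (w := refl S u w), refl_apply, map_sub, map_smul, smul_eq_mul]
  match_scalars
  · ring
  · field_simp; ring

variable (hS : Orth S)
include hS

lemma refl_iso (hu : S u u ≠ 0) : Iso S (refl S u) := fun x y => by
  simp only [refl_apply, map_sub, map_smul, LinearMap.sub_apply, LinearMap.smul_apply, smul_eq_mul,
    hS.symm x u]
  field_simp
  ring

lemma Orth.zero_of_perp (h : ∀ y, S y v = 0) : v = 0 :=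
  hS.nd v fun y => by rw [hS.symm]; exact h y

lemma refl_swap (hvw : S v v = S w w) (h : S (v - w) (v - w) ≠ 0) : refl S (v - w) v = w := by
  have h1 : S (v - w) (v - w) = 2 * S (v - w) v := by
    simp only [map_sub, LinearMap.sub_apply, hS.symm w v, ← hvw]; ring
  rw [refl_apply, h1, div_mul_eq_mul_div, div_self (by rwa [← h1])]
  module

/-- An anisotropic vector orthogonal to an anisotropic one. -/
lemma exists_perp (hu : S u u ≠ 0) : ∃ n, S u n = 0 ∧ S n n ≠ 0 := by
  by_contra hc
  push Not at hc
  let π : Module.End F W := LinearMap.id - (S u u)⁻¹ • (S u).smulRight u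
  have hπ : ∀ w, S u (π w) = 0 := fun w => by
    simp [π, smul_smul, mul_comm (S u u)⁻¹]; field_simp; ring
  have h0 : ∀ w, π w = 0 := fun w => hS.nd _ fun y => by
    have e1 := hc _ (hπ (w + y))
    simp only [map_add, LinearMap.add_apply, hc _ (hπ w), hc _ (hπ y), hS.symm (π y)] at e1
    have e2 : S (π w) (π y) = 0 := by
      refine mul_left_cancel₀ hS.two ?_
      linear_combination e1
    have e3 : π y = y - ((S u u)⁻¹ * S u y) • u := by simp [π, smul_smul]
    rw [e3, map_sub, map_smul, hS.symm (π w) u, hπ, smul_zero, sub_zero] at e2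
    exact e2
  have hle : (⊤ : Submodule F W) ≤ F ∙ u := fun w _ => by
    have := h0 w
    simp only [π, LinearMap.sub_apply, LinearMap.id_apply, LinearMap.smul_apply,
      LinearMap.smulRight_apply, sub_eq_zero, smul_smul] at this
    exact Submodule.mem_span_singleton.2 ⟨_, this.symm⟩
  have hf : finrank F (F ∙ u) = 1 :=
    finrank_span_singleton (fun h => hu (by rw [h]; simp))
  have := hS.three
  rw [← finrank_top, show (⊤ : Submodule F W) = F ∙ u from le_antisymm hle le_top, hf] at this
  omega

/-- An anisotropic vector orthogonal to two orthogonal anisotropic ones. -/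
lemma exists_perp_pair (hu : S u u ≠ 0) (hv : S v v ≠ 0) (huv : S u v = 0) :
    ∃ n, S u n = 0 ∧ S v n = 0 ∧ S n n ≠ 0 := by
  classical
  by_contra hc
  push Not at hc
  let π : Module.End F W :=
    LinearMap.id - (S u u)⁻¹ • (S u).smulRight u - (S v v)⁻¹ • (S v).smulRight v
  have hvu : S v u = 0 := by rw [hS.symm]; exact huv
  have hπ : ∀ w, S u (π w) = 0 ∧ S v (π w) = 0 := fun w => by
    constructor <;> simp [π, smul_smul, huv, hvu] <;> field_simp <;> ring
  have h0 : ∀ w, π w = 0 := fun w => hS.nd _ fun y => by
    have e1 := hc _ (hπ (w + y)).1 (hπ (w + y)).2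
    simp only [map_add, LinearMap.add_apply, hc _ (hπ w).1 (hπ w).2, hc _ (hπ y).1 (hπ y).2,
      hS.symm (π y)] at e1
    have e2 : S (π w) (π y) = 0 := by
      refine mul_left_cancel₀ hS.two ?_
      linear_combination e1
    have e3 : π y = y - ((S u u)⁻¹ * S u y) • u - ((S v v)⁻¹ * S v y) • v := by
      simp [π, smul_smul]
    rw [e3, map_sub, map_sub, map_smul, map_smul, hS.symm (π w) u, hS.symm (π w) v, (hπ w).1,
      (hπ w).2, smul_zero, smul_zero, sub_zero, sub_zero] at e2
    exact e2
  have hle : (⊤ : Submodule F W) ≤ Submodule.span F {u, v} := fun w _ => by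
    have := h0 w
    simp only [π, LinearMap.sub_apply, LinearMap.id_apply, LinearMap.add_apply,
      LinearMap.smul_apply, LinearMap.smulRight_apply, smul_smul, sub_sub, sub_eq_zero] at this
    exact Submodule.mem_span_pair.2 ⟨_, _, this.symm⟩
  have h5 := finrank_span_finset_le_card (R := F) ({u, v} : Finset W)
  rw [Finset.coe_pair, Set.finrank] at h5
  have h6 : ({u, v} : Finset W).card ≤ 2 := Finset.card_le_two
  have := hS.three
  rw [← finrank_top, show (⊤ : Submodule F W) = Submodule.span F {u, v} from le_antisymm hle le_top] at this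
  omega

/-- An orthogonal pair of anisotropic vectors takes every value. -/
lemma exists_value [Finite F] (hu : S u u ≠ 0) (hv : S v v ≠ 0) (huv : S u v = 0) (c : F) :
    ∃ α β : F, S (α • u + β • v) (α • u + β • v) = c := by
  haveI := Fintype.ofFinite F
  have hodd : Fintype.card F % 2 = 1 := FiniteField.odd_card_of_char_ne_two fun e => hS.two (by
    have h := ringChar.Nat.cast_ringChar (R := F)
    rw [e] at h
    exact_mod_cast h)
  obtain ⟨α, β, h⟩ := FiniteField.exists_root_sum_quadratic
    (f := Polynomial.C (S u u) * Polynomial.X ^ 2)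
    (g := Polynomial.C (S v v) * Polynomial.X ^ 2 - Polynomial.C c)
    (Polynomial.degree_C_mul_X_pow 2 hu)
    (by rw [Polynomial.degree_sub_C (by rw [Polynomial.degree_C_mul_X_pow 2 hv]; norm_num),
      Polynomial.degree_C_mul_X_pow 2 hv]; rfl) hodd
  refine ⟨α, β, ?_⟩
  simp only [Polynomial.eval_mul, Polynomial.eval_C, Polynomial.eval_pow, Polynomial.eval_X,
    Polynomial.eval_sub] at h
  simp [huv, hS.symm v u]
  linear_combination h

lemma exists_aniso : ∃ u, S u u ≠ 0 := by
  by_contra hc
  push Not at hc
  have h0 : ∀ x : W, x = 0 := fun x => hS.nd x fun y => by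
    have e1 := hc (x + y)
    simp only [map_add, LinearMap.add_apply, hc, hS.symm y x] at e1
    exact mul_left_cancel₀ hS.two (by linear_combination e1)
  haveI : Subsingleton W := ⟨fun x y => (h0 x).trans (h0 y).symm⟩
  have := hS.three
  rw [finrank_zero_of_subsingleton] at this
  omega

/-- Isotropic vectors exist. -/
lemma exists_isotropic [Finite F] : ∃ e, e ≠ 0 ∧ S e e = 0 := by
  obtain ⟨u, hu⟩ := exists_aniso hS
  obtain ⟨v, huv, hv⟩ := exists_perp hS hu
  obtain ⟨n, hun, hvn, hn⟩ := exists_perp_pair hS hu hv huv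
  obtain ⟨α, β, h⟩ := exists_value hS hu hv huv (-S n n)
  refine ⟨α • u + β • v + n, fun h0 => hn ?_, ?_⟩
  · have := congrArg (S n) h0
    simpa [hS.symm n u, hS.symm n v, hun, hvn] using this
  · have h' := h
    simp [hS.symm v u, huv, hS.symm n u, hS.symm n v, hun, hvn] at h' ⊢
    linear_combination h'

/-- A hyperbolic partner. -/
lemma exists_partner {e : W} (he : e ≠ 0) (hee : S e e = 0) : ∃ f, S e f = 1 ∧ S f f = 0 := by
  obtain ⟨y, hy⟩ : ∃ y, S e y ≠ 0 := by
    by_contra hc; push Not at hc; exact he (hS.nd e hc)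
  set w := (S e y)⁻¹ • y with hw
  have hew : S e w = 1 := by rw [hw, map_smul, smul_eq_mul, inv_mul_cancel₀ hy]
  refine ⟨w - (S w w / 2) • e, by simp [hew, hee], ?_⟩
  have := hS.two
  simp [hee, hS.symm w e, hew]
  field_simp
  ring

/-- An anisotropic vector orthogonal to a hyperbolic pair. -/
lemma exists_perp_hyp {e f : W} (hee : S e e = 0) (hef : S e f = 1) (hff : S f f = 0) :
    ∃ n, S e n = 0 ∧ S f n = 0 ∧ S n n ≠ 0 := by
  have hfe : S f e = 1 := by rw [hS.symm]; exact hef
  have h2 := hS.two
  obtain ⟨n, h1, h3, h4⟩ := exists_perp_pair hS (u := e + f) (v := e - f)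
    (by simp [hee, hef, hff, hfe, one_add_one_eq_two, h2])
    (by
      simp [hee, hef, hff, hfe]
      intro h; exact h2 (by linear_combination -h))
    (by simp [hee, hef, hff, hfe])
  simp only [map_add, map_sub, LinearMap.add_apply, LinearMap.sub_apply] at h1 h3
  exact ⟨n, mul_left_cancel₀ h2 (by linear_combination h1 + h3),
    mul_left_cancel₀ h2 (by linear_combination h1 - h3), h4⟩

/-- A property invariant under reflections holding for one isotropic vector holds for all. -/
lemma isotropic_induction {P : W → Prop} (hP : ∀ u v, S u u ≠ 0 → P v → P (refl S u v)) {e : W}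
    (he : e ≠ 0) (hee : S e e = 0) (h0 : P e) {w : W} (hw : w ≠ 0) (hww : S w w = 0) : P w := by
  have one : ∀ v w, P v → S v v = 0 → S w w = 0 → S v w ≠ 0 → P w := by
    intro v w hv hvv hww hvw
    have h1 : S (v - w) (v - w) ≠ 0 := by
      simp [hvv, hww, hS.symm w v]
      intro h; exact mul_ne_zero hS.two hvw (by linear_combination -h)
    have := hP _ v h1 hv
    rwa [refl_swap hS (hvv.trans hww.symm) h1] at this
  by_cases hew : S e w = 0
  · obtain ⟨x, hex, hwx⟩ : ∃ x, S e x ≠ 0 ∧ S w x ≠ 0 := by
      obtain ⟨y, hy⟩ : ∃ y, S e y ≠ 0 := by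
        by_contra hc; push Not at hc; exact he (hS.nd e hc)
      obtain ⟨y', hy'⟩ : ∃ y, S w y ≠ 0 := by
        by_contra hc; push Not at hc; exact hw (hS.nd w hc)
      by_cases h1 : S w y ≠ 0
      · exact ⟨y, hy, h1⟩
      by_cases h2 : S e y' ≠ 0
      · exact ⟨y', h2, hy'⟩
      push Not at h1 h2
      exact ⟨y + y', by simp [h2, hy], by simp [h1, hy']⟩
    set z := x - (S x x / (2 * S e x)) • e with hz
    have hzz : S z z = 0 := by
      have := hS.two
      simp [hz, hee, hS.symm x e]
      field_simp; ring
    refine one z w (one e z h0 hee hzz ?_) hzz hww ?_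
    · simp [hz, hee, hex]
    · simp [hz, hew, hS.symm x w, hwx]
  · exact one e w h0 hee hww hew

/-- An endomorphism fixing every isotropic line is scalar. -/
lemma scalar_of_isotropic_eigen [Finite F] {φ : Module.End F W}
    (h : ∀ v, S v v = 0 → ∃ c : F, φ v = c • v) : ∃ c : F, φ = c • LinearMap.id := by
  obtain ⟨e, he, hee⟩ := exists_isotropic hS
  obtain ⟨f, hef, hff⟩ := exists_partner hS he hee
  obtain ⟨n, hen, hfn, hnn⟩ := exists_perp_hyp hS hee hef hff
  have hfe : S f e = 1 := by rw [hS.symm]; exact hef
  have h2 := hS.two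
  obtain ⟨l, hl⟩ := h e hee
  obtain ⟨m, hm⟩ := h f hff
  have key : ∀ u, S e u = 0 → S f u = 0 → S u u ≠ 0 → m = l ∧ φ u = l • u := by
    intro u heu hfu huu
    have hu0 : S u e = 0 ∧ S u f = 0 := ⟨by rw [hS.symm]; exact heu, by rw [hS.symm]; exact hfu⟩
    have iso : ∀ s : F, s * s = 1 → S (e + s • u - (S u u / 2) • f) (e + s • u - (S u u / 2) • f) = 0 :=
      fun s hs => by
        simp [hee, hff, hef, hfe, heu, hfu, hu0.1, hu0.2]
        field_simp
        linear_combination S u u * 2 * hs
    obtain ⟨p, hp⟩ := h _ (iso 1 (one_mul 1))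
    obtain ⟨q, hq⟩ := h _ (iso (-1) (by ring))
    simp only [map_sub, map_add, map_smul, hl, hm] at hp hq
    have hsum : (2 * l) • e - (S u u * m) • f =
        (p + q) • e + (p - q) • u - ((p + q) * (S u u / 2)) • f := by
      linear_combination (norm := skip) hp + hq
      match_scalars <;> field_simp <;> ring
    have e1 := congrArg (S f) hsum
    have e2 := congrArg (S u) hsum
    have e3 := congrArg (S e) hsum
    simp [hee, hff, hef, hfe, heu, hfu, hu0.1, hu0.2, huu] at e1 e2 e3
    have hpq : p = q := sub_eq_zero.1 e2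
    subst hpq
    have hpl : p = l := mul_left_cancel₀ h2 (by linear_combination -e1)
    subst hpl
    field_simp at e3
    refine ⟨mul_left_cancel₀ h2 (by linear_combination e3), ?_⟩
    have hml : m = p := mul_left_cancel₀ h2 (by linear_combination e3)
    subst hml
    linear_combination (norm := module) hp
  refine ⟨l, LinearMap.ext fun w => ?_⟩
  have hperp : ∀ u, S e u = 0 → S f u = 0 → φ u = l • u := by
    intro u heu hfu
    by_cases huu : S u u = 0
    · have hh : S (u + n) (u + n) ≠ 0 ∨ S (u - n) (u - n) ≠ 0 := by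
        by_contra hc
        push Not at hc
        obtain ⟨h3, h4⟩ := hc
        simp [huu, hS.symm n u] at h3 h4
        exact hnn (mul_left_cancel₀ h2 (by linear_combination h3 + h4))
      rcases hh with hh | hh
      · have := (key (u + n) (by simp [heu, hen]) (by simp [hfu, hfn]) hh).2
        rw [map_add, (key n hen hfn hnn).2, smul_add, add_left_inj] at this
        exact this
      · have := (key (u - n) (by simp [heu, hen]) (by simp [hfu, hfn]) hh).2
        rw [map_sub, (key n hen hfn hnn).2, smul_sub, sub_left_inj] at this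
        exact this
    · exact (key u heu hfu huu).2
  have hw := hperp (w - S f w • e - S e w • f) (by simp [hee, hef]) (by simp [hff, hfe])
  simp only [map_sub, map_smul, hl, hm, (key n hen hfn hnn).1] at hw
  show φ w = l • w
  linear_combination (norm := module) hw

end Cfsg.Agent.GeoLow.TensorSO
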