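import Cfsg.Agent.GeoLow.TensorSO.Dichotomy

/-!
If all products of opposite entries are scalar, every element of the group is a pure tensor.
-/

set_option autoImplicit false

namespace Cfsg.Agent.GeoLow.TensorSO

open Module

variable {F U W V : Type*} [Field F] [AddCommGroup U] [Module F U] [AddCommGroup W] [Module F W]
  [AddCommGroup V] [Module F V]

namespace TD

variable (D : TD F U W V)

lemma exists_dual [FiniteDimensional F U] (φ : U →ₗ[F] F) : ∃ z, ∀ x, D.om x z = φ x := by
  have hinj : Function.Injective D.om.flip := by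
    rw [← LinearMap.ker_eq_bot, LinearMap.ker_eq_bot']
    intro z hz
    refine D.om_nd z fun y => ?_
    rw [D.om_skew, show D.om y z = D.om.flip z y from rfl, hz, LinearMap.zero_apply, neg_zero]
  obtain ⟨z, hz⟩ := (LinearMap.injective_iff_surjective_of_finrank_eq_finrank
    Subspace.dual_finrank_eq.symm).1 hinj φ
  exact ⟨z, fun x => LinearMap.congr_fun hz x⟩

lemma eq_zero_of_p {x : U} {w : W} (h : D.p x w = 0) (hw : w ≠ 0) : x = 0 := by
  by_contra hx
  exact hw (D.p_injective hx (h.trans (map_zero _).symm))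

/-- The rank of an endomorphism of the second factor. -/
lemma finrank_range_act [FiniteDimensional F U] [FiniteDimensional F W] [FiniteDimensional F V]
    (f : Module.End F W) :
    finrank F (LinearMap.range (D.act f)) = finrank F U * finrank F (LinearMap.range f) := by
  classical
  let e := Module.finBasis F U
  let Φ : V →ₗ[F] (Fin (finrank F U) → W) := LinearMap.pi fun j => D.i (e j)
  have hinj : Function.Injective Φ := by
    rw [← LinearMap.ker_eq_bot, LinearMap.ker_eq_bot']
    intro v hv
    refine D.ext_i v fun x => ?_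
    have : (LinearMap.flip D.i v) = 0 := e.ext fun j => congrFun hv j
    exact LinearMap.congr_fun this x
  have hsurj : Function.Surjective Φ := by
    intro u
    choose d hd using fun k => D.exists_dual (e.coord k)
    refine ⟨∑ k, D.p (d k) (u k), funext fun j => ?_⟩
    show D.i (e j) _ = u j
    rw [map_sum, Finset.sum_eq_single j]
    · rw [D.i_p, hd]; simp
    · intro k _ hk; rw [D.i_p, hd]; simp [Finsupp.single_apply, hk.symm]
    · simp
  let Ψ := LinearEquiv.ofBijective Φ ⟨hinj, hsurj⟩
  have hrange : (LinearMap.range (D.act f)).map Ψ.toLinearMap =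
      LinearMap.range ((LinearMap.range f).subtype.compLeft (Fin (finrank F U))) := by
    refine le_antisymm ?_ ?_
    · rintro _ ⟨_, ⟨v, rfl⟩, rfl⟩
      exact ⟨fun j => ⟨f (D.i (e j) v), LinearMap.mem_range_self _ _⟩,
        funext fun j => (D.i_act f (e j) v).symm⟩
    · rintro _ ⟨u, rfl⟩
      choose w hw using fun j => (u j).2
      obtain ⟨v, hv⟩ := hsurj w
      refine ⟨D.act f v, LinearMap.mem_range_self _ _, funext fun j => ?_⟩
      show D.i (e j) (D.act f v) = (u j : W)
      rw [D.i_act, show D.i (e j) v = w j from congrFun hv j, hw]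
  rw [← LinearEquiv.finrank_map_eq Ψ, hrange, LinearMap.finrank_range_of_inj,
    Module.finrank_pi_fintype]
  · simp
  · intro u u' h
    funext j
    exact Subtype.ext (congrFun h j)

lemma finrank_range_img [FiniteDimensional F W] (g : (Module.End F V)ˣ) {z : U} (hz : z ≠ 0) :
    finrank F (LinearMap.range (D.img g z)) = finrank F W := by
  let G : V ≃ₗ[F] V := LinearMap.GeneralLinearGroup.generalLinearEquiv F V g
  have h : LinearMap.range (D.img g z) = (LinearMap.range (D.p z)).map G.toLinearMap := by
    refine le_antisymm ?_ ?_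
    · rintro _ ⟨v, rfl⟩
      exact ⟨_, LinearMap.mem_range_self _ _, rfl⟩
    · rintro _ ⟨_, ⟨w, rfl⟩, rfl⟩
      obtain ⟨y, hy⟩ := D.exists_pair hz
      refine ⟨(g : Module.End F V) (D.p y w), ?_⟩
      show D.img g z ((g : Module.End F V) (D.p y w)) = (g : Module.End F V) (D.p z w)
      simp only [img, Module.End.mul_apply]
      rw [show ((g⁻¹ : (Module.End F V)ˣ) : Module.End F V) ((g : Module.End F V) (D.p y w)) =
        D.p y w from LinearMap.congr_fun (Units.inv_mul g) _, N_apply, D.i_p, hy, one_smul,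
        Module.End.one_apply]
  rw [h, LinearEquiv.finrank_map_eq, LinearMap.finrank_range_of_inj (D.p_injective hz)]

/-- A non-zero endomorphism of the first factor has in its range a whole copy of the second. -/
lemma exists_range_p_le [FiniteDimensional F U] {n : Module.End F V} (hl : D.IsLeft n)
    (hn : n ≠ 0) : ∃ z', z' ≠ 0 ∧ LinearMap.range (D.p z') ≤ LinearMap.range n := by
  obtain ⟨v, hv⟩ : ∃ v, n v ≠ 0 := by
    by_contra hc; push Not at hc; exact hn (LinearMap.ext hc)
  obtain ⟨x, hx⟩ : ∃ x, D.i x (n v) ≠ 0 := by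
    by_contra hc; push Not at hc; exact hv (D.ext_i _ hc)
  obtain ⟨φ, hφ⟩ := Module.Projective.exists_dual_ne_zero F hx
  obtain ⟨z', hz'⟩ := D.exists_dual (φ ∘ₗ D.i.flip (n v))
  have hz'0 : z' ≠ 0 := fun h => hφ (by
    have := hz' x
    rw [h, map_zero] at this
    exact this.symm)
  have hle : LinearMap.range (D.p z') ≤ LinearMap.range n := by
    rintro _ ⟨w, rfl⟩
    refine ⟨D.act (φ.smulRight w) v, ?_⟩
    rw [← Module.End.mul_apply, ← hl, Module.End.mul_apply]
    refine sub_eq_zero.1 (D.ext_i _ fun y => ?_)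
    rw [map_sub, D.i_act, D.i_p, hz', sub_eq_zero]
    rfl
  exact ⟨z', hz'0, hle⟩

lemma img_mul (g h : (Module.End F V)ˣ) (z : U) :
    D.img (g * h) z = (g : Module.End F V) * D.img h z * ((g⁻¹ : (Module.End F V)ˣ) : Module.End F V) := by
  simp only [img, mul_inv_rev, Units.val_mul, mul_assoc]

lemma mixed_arith {a' c r₀ k R : ℕ} (hfin : k ≤ c + r₀ + a' * c) (hD : R ≤ 2 * (a' + 2))
    (hrn : R + k = (a' + 2) * (c + r₀)) (hrk : (a' + 2) * r₀ = c + r₀) (hr0 : 2 ≤ r₀) :
    a' + 2 = 2 ∧ c + r₀ = 4 := by
  have key : (2 * a' + 2) * r₀ ≤ 2 * (a' + 2) := by nlinarith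
  rcases Nat.eq_zero_or_pos a' with h0 | h0
  · subst h0
    exact ⟨rfl, by nlinarith⟩
  · nlinarith

variable {D} {M : Subgroup (Module.End F V)ˣ} (hC : D.Ctx M)
  [Finite F] [FiniteDimensional F U] [FiniteDimensional F W] [FiniteDimensional F V]
include hC

omit [Finite F] in
lemma Ctx.W_pos : 0 < finrank F W := lt_of_lt_of_le (by norm_num) hC.orth.three

omit [Finite F] in
/-- An image in the first factor is a multiple of a transvection. -/
lemma Ctx.left_form {g : (Module.End F V)ˣ} (hg : g ∈ M) {z : U} (hz : z ≠ 0)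
    (hl : D.IsLeft (D.img g z)) :
    ∃ (μ : F) (z' : U), μ ≠ 0 ∧ z' ≠ 0 ∧ D.img g z = μ • D.N z' 1 := by
  set n := D.img g z with hn
  have hW := hC.W_pos
  have hrk : finrank F (LinearMap.range n) = finrank F W := D.finrank_range_img g hz
  obtain ⟨v, hv⟩ : ∃ v, n v ≠ 0 := by
    by_contra hc
    push Not at hc
    rw [show n = 0 from LinearMap.ext hc, LinearMap.range_zero, finrank_bot] at hrk
    omega
  obtain ⟨z', hz'0, hle⟩ := D.exists_range_p_le hl (fun h => hv (by rw [h]; rfl))
  have heq : LinearMap.range (D.p z') = LinearMap.range n :=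
    Submodule.eq_of_le_of_finrank_eq hle
      (by rw [hrk, LinearMap.finrank_range_of_inj (D.p_injective hz'0)])
  obtain ⟨y₀, hy₀⟩ := D.exists_pair hz'0
  set x₀ := -y₀ with hx₀def
  have hx₀ : D.om x₀ z' = 1 := by
    rw [hx₀def, map_neg, LinearMap.neg_apply, D.om_skew z' y₀, neg_neg, hy₀]
  choose l hl' using D.ent_scalar_of_isLeft hl
  have hsym : ∀ x y, l x y = l y x := fun x y => by
    obtain ⟨u, hu⟩ := exists_aniso hC.orth
    have h := hC.img_adj hg z x y u u
    rw [← hn, hl', hl'] at h
    simp only [LinearMap.smul_apply, Module.End.one_apply, map_smul, smul_eq_mul] at h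
    exact mul_right_cancel₀ hu h
  have hval : ∀ x y, l x y = D.om x z' * l x₀ y := fun x y => by
    obtain ⟨u, hu⟩ := exists_aniso hC.orth
    obtain ⟨w', hw'⟩ := heq.ge (LinearMap.mem_range_self n (D.p y u))
    have e1 : D.ent n x y u = D.om x z' • w' := by rw [ent_apply, ← hw', D.i_p]
    have e2 : D.ent n x₀ y u = D.om x₀ z' • w' := by rw [ent_apply, ← hw', D.i_p]
    rw [hl', LinearMap.smul_apply, Module.End.one_apply] at e1 e2
    rw [hx₀, one_smul] at e2
    rw [← e2, smul_smul] at e1
    exact smul_left_injective F (fun h0 : u = 0 => hu (by rw [h0]; simp)) e1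
  have hN : n = (-(l x₀ x₀)) • D.N z' 1 := D.ext_ent fun x y => by
    rw [hl', ent_smul, ent_N, smul_smul, hval, hsym x₀ y, hval y x₀, D.om_skew y z']
    congr 1; ring
  refine ⟨_, z', fun h0 => hv ?_, hz'0, hN⟩
  rw [hN, h0, zero_smul, LinearMap.zero_apply]

omit [Finite F] [FiniteDimensional F U] [FiniteDimensional F W] [FiniteDimensional F V] in
/-- If all images lie in the first factor, the second factor is normalised. -/
lemma Ctx.act_conj {g : (Module.End F V)ˣ} (hall : ∀ z, D.IsLeft (D.img g z)) (f : Module.End F W) :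
    ∃ f', ((g⁻¹ : (Module.End F V)ˣ) : Module.End F V) * D.act f * (g : Module.End F V) = D.act f' := by
  set X := ((g⁻¹ : (Module.End F V)ˣ) : Module.End F V) * D.act f * (g : Module.End F V) with hX
  have hcomm : ∀ z, X * D.N z 1 = D.N z 1 * X := fun z => by
    have h := congrArg (fun m => ((g⁻¹ : (Module.End F V)ˣ) : Module.End F V) * m *
      (g : Module.End F V)) (hall z f)
    simpa only [img, hX, mul_assoc, Units.inv_mul_cancel_left, Units.inv_mul, mul_one] using h
  by_cases hU : ∀ z : U, z = 0
  · exact ⟨0, D.ext_p _ _ fun x w => by rw [hU x]; simp⟩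
  push Not at hU
  obtain ⟨e, he⟩ := hU
  have hform : ∀ z, z ≠ 0 → ∃ fz : Module.End F W, (∀ x, D.ent X x z = D.om x z • fz) ∧
      (∀ y, D.ent X z y = D.om z y • fz) ∧ ∀ w, X (D.p z w) = D.p z (fz w) := by
    intro z hz
    obtain ⟨y, hy⟩ := D.exists_pair hz
    have hright : ∀ w, X (D.p z w) = D.p z (D.ent X z y w) := fun w => by
      have := LinearMap.congr_fun (hcomm z) (D.p y w)
      simpa [Module.End.mul_apply, N_apply, D.i_p, hy, ent_apply] using this
    have hy' : D.om (-y) z = 1 := by rw [map_neg, LinearMap.neg_apply, D.om_skew z y, neg_neg, hy]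
    have hleft : ∀ v, D.i z (X v) = D.ent X z y (D.i z v) := fun v => by
      have := congrArg (D.i (-y)) (LinearMap.congr_fun (hcomm z) v)
      simp only [Module.End.mul_apply, N_apply, Module.End.one_apply, hright] at this
      rw [D.i_p, D.i_p, hy', one_smul, one_smul] at this
      exact this.symm
    refine ⟨D.ent X z y, fun x => LinearMap.ext fun w => ?_, fun y' => LinearMap.ext fun w => ?_,
      hright⟩
    · rw [ent_apply, hright, D.i_p]; rfl
    · rw [ent_apply, hleft, D.i_p, map_smul]; rfl
  obtain ⟨fe, -, hfe2, hfe⟩ := hform e he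
  have hpair : ∀ z z', z ≠ 0 → z' ≠ 0 → ∀ fz fz' : Module.End F W, (∀ w, X (D.p z w) = D.p z (fz w)) →
      (∀ w, X (D.p z' w) = D.p z' (fz' w)) → D.om z z' ≠ 0 → fz = fz' := by
    intro z z' hz hz' fz fz' h1 h2 hne
    obtain ⟨a, ha1, ha2, ha3⟩ := hform z hz
    have e1 : fz = a := LinearMap.ext fun w => D.p_injective hz ((h1 w).symm.trans (ha3 w))
    refine smul_right_injective (Module.End F W) hne ?_
    show D.om z z' • fz = D.om z z' • fz'
    rw [e1, ← ha2]
    exact LinearMap.ext fun w => by rw [ent_apply, h2, D.i_p]; rfl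
  refine ⟨fe, D.ext_p _ _ fun z w => ?_⟩
  rcases eq_or_ne z 0 with rfl | hz
  · simp
  obtain ⟨fz, -, -, hfz⟩ := hform z hz
  suffices fz = fe by rw [hfz, this, D.act_p]
  by_cases hze : D.om z e = 0
  · obtain ⟨y₁, hy₁⟩ := D.exists_pair hz
    obtain ⟨y₂, hy₂⟩ := D.exists_pair he
    obtain ⟨y, hy1, hy2⟩ : ∃ y, D.om z y ≠ 0 ∧ D.om e y ≠ 0 := by
      by_cases h1 : D.om e y₁ = 0
      · by_cases h2 : D.om z y₂ = 0
        · exact ⟨y₁ + y₂, by simp [hy₁, h2], by simp [hy₂, h1]⟩
        · exact ⟨y₂, h2, by simp [hy₂]⟩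
      · exact ⟨y₁, by simp [hy₁], h1⟩
    have hy0 : y ≠ 0 := fun h => hy1 (by rw [h]; simp)
    obtain ⟨fy, -, -, hfy⟩ := hform y hy0
    exact (hpair z y hz hy0 fz fy hfz hfy hy1).trans (hpair e y he hy0 fe fy hfe hfy hy2).symm
  · exact hpair z e hz he fz fe hfz hfe hze

omit [Finite F] in
/-- If all images lie in the first factor, the element is a pure tensor. -/
lemma Ctx.pure_of_left {g : (Module.End F V)ˣ} (hg : g ∈ M) (hall : ∀ z, D.IsLeft (D.img g z)) :
    ∃ (C : Module.End F U) (h : Module.End F W),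
      ∀ x w, (g : Module.End F V) (D.p x w) = D.p (C x) (h w) := by
  classical
  by_cases hU : ∀ z : U, z = 0
  · exact ⟨0, 0, fun x w => by rw [hU x]; simp⟩
  push Not at hU
  obtain ⟨e, he⟩ := hU
  have hline : ∀ z, z ≠ 0 → ∃ (z' : U) (hz : Module.End F W), z' ≠ 0 ∧
      ∀ w, (g : Module.End F V) (D.p z w) = D.p z' (hz w) := by
    intro z hz
    obtain ⟨μ, z', -, hz', hn⟩ := hC.left_form hg hz (hall z)
    obtain ⟨y, hy⟩ := D.exists_pair hz
    refine ⟨z', μ • (D.ent (g : Module.End F V) z' y), hz', fun w => ?_⟩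
    have := LinearMap.congr_fun hn ((g : Module.End F V) (D.p y w))
    simp only [img, Module.End.mul_apply] at this
    rw [show ((g⁻¹ : (Module.End F V)ˣ) : Module.End F V) ((g : Module.End F V) (D.p y w)) =
      D.p y w from LinearMap.congr_fun (Units.inv_mul g) _, N_apply, D.i_p, hy, one_smul,
      Module.End.one_apply] at this
    rw [this, LinearMap.smul_apply, N_apply, LinearMap.smul_apply, map_smul]
    rfl
  obtain ⟨e', h, he', hh⟩ := hline e he
  have hinj : Function.Injective h := fun a b hab => D.p_injective he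
    ((LinearMap.GeneralLinearGroup.generalLinearEquiv F V g).injective
      (show (g : Module.End F V) (D.p e a) = (g : Module.End F V) (D.p e b) by rw [hh, hh, hab]))
  let h' := LinearEquiv.ofBijective h ⟨hinj, LinearMap.injective_iff_surjective.1 hinj⟩
  obtain ⟨u, hu⟩ := exists_aniso hC.orth
  have hu0 : h u ≠ 0 := fun h0 => hu (by rw [hinj (h0.trans (map_zero h).symm)]; simp)
  have hz : ∀ z, ∃ cz : U, ∀ w, (g : Module.End F V) (D.p z w) = D.p cz (h w) := by
    intro z
    rcases eq_or_ne z 0 with rfl | hz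
    · exact ⟨0, fun w => by simp⟩
    obtain ⟨z', k, hz', hk⟩ := hline z hz
    have hcomm : ∀ f, f * (k ∘ₗ h'.symm.toLinearMap) = (k ∘ₗ h'.symm.toLinearMap) * f := by
      intro f
      obtain ⟨f', hf'⟩ := hC.act_conj hall f
      have e1 : ∀ x w, D.act f ((g : Module.End F V) (D.p x w)) =
          (g : Module.End F V) (D.p x (f' w)) := fun x w => by
        rw [← D.act_p f' x w, ← hf', Module.End.mul_apply, Module.End.mul_apply,
          show ∀ v, (g : Module.End F V) (((g⁻¹ : (Module.End F V)ˣ) : Module.End F V) v) = v from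
            fun v => LinearMap.congr_fun (Units.mul_inv g) v]
      refine LinearMap.ext fun w => ?_
      obtain ⟨w, rfl⟩ := h'.surjective w
      show f (k (h'.symm (h' w))) = k (h'.symm (f (h' w)))
      have a1 := e1 e w
      rw [hh, hh, D.act_p] at a1
      have a2 := e1 z w
      rw [hk, hk, D.act_p] at a2
      rw [h'.symm_apply_apply, D.p_injective hz' a2,
        show f (h' w) = h' (f' w) from D.p_injective he' a1, h'.symm_apply_apply]
    obtain ⟨c, hc⟩ := scalar_of_comm hcomm
    refine ⟨c • z', fun w => ?_⟩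
    have := LinearMap.congr_fun hc (h' w)
    simp only [LinearMap.comp_apply, LinearEquiv.coe_coe, h'.symm_apply_apply,
      LinearMap.smul_apply, Module.End.one_apply] at this
    rw [hk, this, map_smul, map_smul, LinearMap.smul_apply]
    rfl
  choose C hCz using hz
  have huniq : ∀ c c' : U, D.p c (h u) = D.p c' (h u) → c = c' := fun c c' hcc =>
    sub_eq_zero.1 (D.eq_zero_of_p (by rw [map_sub, LinearMap.sub_apply, hcc, sub_self]) hu0)
  refine ⟨{ toFun := C, map_add' := fun a b => huniq _ _ ?_, map_smul' := fun c a => huniq _ _ ?_ },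
    h, hCz⟩
  · rw [← hCz, map_add, LinearMap.add_apply, map_add, hCz, hCz, map_add, LinearMap.add_apply]
  · rw [← hCz, map_smul, LinearMap.smul_apply, map_smul, hCz, RingHom.id_apply, map_smul,
      LinearMap.smul_apply]

omit [FiniteDimensional F U] [FiniteDimensional F V] in
/-- If the conjugates of a skew square-zero map of the second factor all stay there, the images of
transvections of the first factor stay in the first factor. -/
lemma Ctx.isLeft_of_orbit {g : (Module.End F V)ˣ} {S₀ : Module.End F W} (hS₀ : Skew D.S S₀)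
    (hS₀2 : ∀ w, S₀ (S₀ w) = 0) {u₀ : W} (hu₀ : D.S u₀ u₀ ≠ 0) (hSu₀ : S₀ u₀ ≠ 0)
    (hA : ∀ k k', k * k' = 1 → k' * k = 1 → Iso D.S k → ∃ S', (g : Module.End F V) *
      D.act (k * S₀ * k') * ((g⁻¹ : (Module.End F V)ˣ) : Module.End F V) = D.act S') :
    ∀ x, D.IsLeft (D.img g⁻¹ x) := by
  have hS := hC.orth
  have h2 := hS.two
  let Orb : Module.End F W → Prop := fun X =>
    ∃ k k', k * k' = 1 ∧ k' * k = 1 ∧ Iso D.S k ∧ X = k * S₀ * k'
  have hOrb0 : Orb S₀ := ⟨1, 1, mul_one 1, mul_one 1, fun _ _ => rfl, by rw [one_mul, mul_one]⟩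
  have hOrbr : ∀ X u, Orb X → D.S u u ≠ 0 → Orb (refl D.S u * X * refl D.S u) := by
    rintro X u ⟨k, k', h1, h1', hk, rfl⟩ hu
    have hrr : refl D.S u * refl D.S u = 1 := LinearMap.ext fun w => refl_refl hu w
    refine ⟨refl D.S u * k, k' * refl D.S u, ?_, ?_, fun a b => ?_, by simp only [mul_assoc]⟩
    · rw [mul_assoc, ← mul_assoc k, h1, one_mul, hrr]
    · rw [mul_assoc, ← mul_assoc (refl D.S u), hrr, one_mul, h1']
    · show D.S (refl D.S u (k a)) (refl D.S u (k b)) = _
      rw [refl_iso hS hu, hk]
  have hOrbX : ∀ X, Orb X → Skew D.S X ∧ ∀ w, X (X w) = 0 := by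
    rintro X ⟨k, k', h1, h1', hk, rfl⟩
    refine ⟨fun w w' => ?_, fun w => ?_⟩
    · have e : ∀ a, k (k' a) = a := fun a => LinearMap.congr_fun h1 a
      show D.S (k (S₀ (k' w))) w' = -D.S w (k (S₀ (k' w')))
      conv_lhs => rw [← e w', hk, hS₀]
      conv_rhs => rw [← e w, hk]
    · show k (S₀ (k' (k (S₀ (k' w))))) = 0
      rw [show ∀ a, k' (k a) = a from fun a => LinearMap.congr_fun h1' a, hS₀2, map_zero]
  intro x f
  refine D.ext_ent fun a b => ?_
  rw [ent_act_mul, ent_mul_act]
  set E := D.ent (D.img g⁻¹ x) a b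
  have hE : ∀ X, Orb X → X * E = E * X := by
    intro X hX
    obtain ⟨S', hS'⟩ : ∃ S', (g : Module.End F V) * D.act X *
        ((g⁻¹ : (Module.End F V)ˣ) : Module.End F V) = D.act S' := by
      obtain ⟨k, k', h1, h1', hk, rfl⟩ := hX
      exact hA k k' h1 h1' hk
    have h1 : D.act S' * D.N x 1 = D.N x 1 * D.act S' := by
      rw [D.act_mul_N, D.N_mul_act, one_mul, mul_one]
    rw [← hS'] at h1
    have h5 : D.act X * D.img g⁻¹ x = D.img g⁻¹ x * D.act X := by
      have h := congrArg (fun m => ((g⁻¹ : (Module.End F V)ˣ) : Module.End F V) * m *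
        (g : Module.End F V)) h1
      simpa only [img, inv_inv, mul_assoc, Units.inv_mul_cancel_left, Units.inv_mul, mul_one]
        using h
    rw [← D.ent_act_mul, h5, D.ent_mul_act]
  have heig : ∀ X, Orb X → ∀ u, D.S u u ≠ 0 → X u ≠ 0 → ∃ c : F, E (X u) = c • X u := by
    intro X hX u hu hXu
    obtain ⟨hXs, hX2⟩ := hOrbX X hX
    have hd : ∀ w, (refl D.S u * X * refl D.S u - X) ((refl D.S u * X * refl D.S u - X) w) =
        (-2 * (2 / D.S u u * D.S (X u) w)) • X u := fun w => by
      have e1 : D.S (X u) u = 0 := by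
        have h := hXs u u
        rw [hS.symm u] at h
        exact mul_left_cancel₀ h2 (by linear_combination h)
      have hvv : D.S (X u) (X u) = 0 := by rw [hXs, hX2, map_zero, neg_zero]
      have hD : ∀ w, (refl D.S u * X * refl D.S u - X) w =
          -((2 / D.S u u * D.S u w) • X u - (2 / D.S u u * D.S (X u) w) • u) :=
        fun w => refl_conj_apply hS hXs w
      rw [hD w, map_neg, map_sub, map_smul, map_smul, hD, hD u, hS.symm u (X u), e1, hvv,
        div_mul_cancel₀ _ hu]
      module
    set Dl := refl D.S u * X * refl D.S u - X with hDl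
    have hcomm : Dl * E = E * Dl := by
      rw [hDl, sub_mul, mul_sub, hE _ (hOrbr X u hX hu), hE X hX]
    obtain ⟨w, hw⟩ : ∃ w, D.S (X u) w ≠ 0 := by
      by_contra hc; push Not at hc; exact hXu (hS.nd _ hc)
    have h6 : Dl (Dl (E w)) = E (Dl (Dl w)) := by
      have := LinearMap.congr_fun (show Dl * Dl * E = E * (Dl * Dl) by
        rw [mul_assoc, hcomm, ← mul_assoc, hcomm, mul_assoc]) w
      exact this
    rw [hd, hd, map_smul] at h6
    have hne : (-2 : F) * (2 / D.S u u * D.S (X u) w) ≠ 0 :=
      mul_ne_zero (neg_ne_zero.2 h2) (mul_ne_zero (div_ne_zero h2 hu) hw)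
    refine ⟨((-2 : F) * (2 / D.S u u * D.S (X u) w))⁻¹ *
      (-2 * (2 / D.S u u * D.S (X u) (E w))), ?_⟩
    rw [mul_smul, h6, inv_smul_smul₀ hne]
  obtain ⟨c, hc⟩ := scalar_of_isotropic_eigen hS (φ := E) fun v hv => by
    rcases eq_or_ne v 0 with rfl | hv0
    · exact ⟨0, by simp⟩
    have hind : ∃ X u, Orb X ∧ D.S u u ≠ 0 ∧ X u = v := isotropic_induction hS
      (P := fun v => ∃ X u, Orb X ∧ D.S u u ≠ 0 ∧ X u = v)
      (fun r v hr ⟨X, u, hX, hu, hXu⟩ => ⟨refl D.S r * X * refl D.S r, refl D.S r u,
        hOrbr X r hX hr, by rwa [refl_iso hS hr], by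
          show refl D.S r (X (refl D.S r (refl D.S r u))) = _
          rw [refl_refl hr, hXu]⟩)
      hSu₀ (by rw [hS₀, hS₀2, map_zero, neg_zero]) ⟨S₀, u₀, hOrb0, hu₀, rfl⟩ hv0 hv
    obtain ⟨X, u, hX, hu, rfl⟩ := hind
    exact heig X hX u hu hv0
  rw [hc, ← Module.End.one_eq_id, mul_smul_comm, smul_mul_assoc, mul_one, one_mul]

set_option maxHeartbeats 1000000 in
/-- A transvection of the first factor is not sent into the second factor. -/
lemma Ctx.not_right (hK : D.EntScalar M) (hU : 2 ≤ finrank F U)
    (hex : finrank F U = 2 → finrank F W = 4 → ∀ W₀ : Submodule F W, finrank F W₀ = 2 →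
      ∃ p ∈ W₀, ∃ q ∈ W₀, D.S p q ≠ 0) {g : (Module.End F V)ˣ} (hg : g ∈ M) {z : U}
    (hz : z ≠ 0) {S₀ : Module.End F W} (hS₀ : Skew D.S S₀) (himg : D.img g z = D.act S₀) :
    False := by
  classical
  have hS := hC.orth
  have h2 := hS.two
  have hW := hC.W_pos
  have hsq0 : ∀ {X : Module.End F W}, D.act X * D.act X = 0 → ∀ w, X (X w) = 0 := by
    intro X hX w
    obtain ⟨y, hy⟩ := D.exists_pair hz
    have h := congrArg (fun m => D.ent m z y) hX
    simp only [← map_mul, ent_act, ent_zero, hy, one_smul] at h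
    exact LinearMap.congr_fun h w
  have hdisp : ∀ {X : Module.End F W}, Skew D.S X → D.act X * D.act X = 0 → ∀ u, D.S u u ≠ 0 →
      (refl D.S u * X * refl D.S u - X) u = (-2 : F) • X u ∧
      ∀ w, (refl D.S u * X * refl D.S u - X) ((refl D.S u * X * refl D.S u - X) w) =
        (-2 * (2 / D.S u u * D.S (X u) w)) • X u := by
    intro X hX hX0 u hu
    have e1 : D.S (X u) u = 0 := by
      have h := hX u u
      rw [hS.symm u] at h
      exact mul_left_cancel₀ h2 (by linear_combination h)
    have hvv : D.S (X u) (X u) = 0 := by rw [hX, hsq0 hX0, map_zero, neg_zero]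
    have hD : ∀ w, (refl D.S u * X * refl D.S u - X) w =
        -((2 / D.S u u * D.S u w) • X u - (2 / D.S u u * D.S (X u) w) • u) :=
      fun w => refl_conj_apply hS hX w
    refine ⟨?_, fun w => ?_⟩
    · rw [hD, e1, div_mul_cancel₀ _ hu]; module
    · rw [hD w, map_neg, map_sub, map_smul, map_smul, hD, hD u, hS.symm u (X u), e1, hvv,
        div_mul_cancel₀ _ hu]
      module
  -- `S₀` has rank at least two
  have hS0 : S₀ ≠ 0 := fun h0 => by
    have h := D.finrank_range_img g hz
    rw [himg, h0, map_zero, LinearMap.range_zero, finrank_bot] at h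
    omega
  have hS02 : D.act S₀ * D.act S₀ = 0 := by rw [← himg]; exact D.img_sq g z
  obtain ⟨u₀, hu₀, hSu₀⟩ : ∃ u, D.S u u ≠ 0 ∧ S₀ u ≠ 0 := by
    by_contra hc
    push Not at hc
    refine hS0 (eq_zero_of_anticomm hS hS₀ (ν := 0) (fun w => by rw [hsq0 hS02, zero_smul])
      fun u hu => ⟨0, fun w => ?_⟩)
    rw [refl_conj_apply hS hS₀, refl_conj_apply hS hS₀, hc u hu]
    simp [hS₀ u, hsq0 hS02, hc u hu]
  have hrk : finrank F U * finrank F (LinearMap.range S₀) = finrank F W := by
    rw [← D.finrank_range_act, ← himg, D.finrank_range_img g hz]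
  have hr0 : 2 ≤ finrank F (LinearMap.range S₀) := by
    by_contra hlt
    obtain ⟨y, hy⟩ : ∃ y, D.S (S₀ u₀) y ≠ 0 := by
      by_contra hc; push Not at hc; exact hSu₀ (hS.nd _ hc)
    have hspan : F ∙ (S₀ u₀) = LinearMap.range S₀ :=
      Submodule.eq_of_le_of_finrank_le ((Submodule.span_singleton_le_iff_mem _ _).2
        (LinearMap.mem_range_self _ _)) (by rw [finrank_span_singleton hSu₀]; omega)
    obtain ⟨c, hc⟩ := Submodule.mem_span_singleton.1 (hspan.ge (LinearMap.mem_range_self S₀ y))
    have h1 := hS₀ u₀ y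
    rw [← hc, map_smul, smul_eq_mul] at h1
    have h4 : D.S u₀ (S₀ u₀) = 0 := by
      have h := hS₀ u₀ u₀
      rw [hS.symm] at h
      exact mul_left_cancel₀ h2 (by linear_combination h)
    rw [h4, mul_zero, neg_zero] at h1
    exact hy h1
  -- the conjugates of `S₀`
  let Orb : Module.End F W → Prop := fun X =>
    ∃ k k', k * k' = 1 ∧ k' * k = 1 ∧ Iso D.S k ∧ X = k * S₀ * k'
  have hOrb0 : Orb S₀ := ⟨1, 1, mul_one 1, mul_one 1, fun _ _ => rfl, by rw [one_mul, mul_one]⟩
  have hOrbr : ∀ X u, Orb X → D.S u u ≠ 0 → Orb (refl D.S u * X * refl D.S u) := by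
    rintro X u ⟨k, k', h1, h1', hk, rfl⟩ hu
    have hrr : refl D.S u * refl D.S u = 1 := LinearMap.ext fun w => refl_refl hu w
    refine ⟨refl D.S u * k, k' * refl D.S u, ?_, ?_, fun a b => ?_, by simp only [mul_assoc]⟩
    · rw [mul_assoc, ← mul_assoc k, h1, one_mul, hrr]
    · rw [mul_assoc, ← mul_assoc (refl D.S u), hrr, one_mul, h1']
    · show D.S (refl D.S u (k a)) (refl D.S u (k b)) = _
      rw [refl_iso hS hu, hk]
  have hOrbX : ∀ X, Orb X → Skew D.S X ∧ D.act X * D.act X = 0 ∧ ∃ h ∈ M,
      D.img h z = (g : Module.End F V) * D.act X * ((g⁻¹ : (Module.End F V)ˣ) : Module.End F V) := by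
    rintro X ⟨k, k', h1, h1', hk, rfl⟩
    obtain ⟨R, hR, hRe⟩ := hC.right k k' h1 hk
    have hRi : ((R⁻¹ : (Module.End F V)ˣ) : Module.End F V) = D.act k' :=
      Units.inv_eq_of_mul_eq_one_right (by rw [hRe, ← map_mul, h1, map_one])
    refine ⟨fun w w' => ?_, ?_, g * R * g, mul_mem (mul_mem hg hR) hg, ?_⟩
    · have e : ∀ a, k (k' a) = a := fun a => LinearMap.congr_fun h1 a
      show D.S (k (S₀ (k' w))) w' = -D.S w (k (S₀ (k' w')))
      conv_lhs => rw [← e w', hk, hS₀]
      conv_rhs => rw [← e w, hk]
    · rw [← map_mul, show k * S₀ * k' * (k * S₀ * k') = k * (S₀ * S₀) * k' by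
        rw [mul_assoc, ← mul_assoc k', ← mul_assoc k', h1', one_mul]; simp only [mul_assoc],
        map_mul, map_mul, map_mul, hS02, mul_zero, zero_mul]
    · rw [img_mul, himg, Units.val_mul, mul_inv_rev, Units.val_mul, hRe, hRi, map_mul, map_mul]
      simp only [mul_assoc]
  by_cases hA : ∀ X, Orb X → ∃ S', (g : Module.End F V) * D.act X *
      ((g⁻¹ : (Module.End F V)ˣ) : Module.End F V) = D.act S'
  · -- all images in the second factor: then `g⁻¹` maps left to left
    have hleft : ∀ x, D.IsLeft (D.img g⁻¹ x) := hC.isLeft_of_orbit hS₀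
      (fun w => hsq0 hS02 w) hu₀ hSu₀ fun k k' h1 h1' hk => hA _ ⟨k, k', h1, h1', hk, rfl⟩
    have hθ : ∀ f, ∃ f', (g : Module.End F V) * D.act f *
        ((g⁻¹ : (Module.End F V)ˣ) : Module.End F V) = D.act f' := fun f => by
      simpa only [inv_inv] using hC.act_conj hleft f
    choose θ hθ' using hθ
    have hactinj : ∀ f f', D.act f = D.act f' → f = f' := fun f f' h => by
      obtain ⟨y, hy⟩ := D.exists_pair hz
      have := congrArg (fun m => D.ent m z y) h
      simpa [ent_act, hy] using this
    let Θ : Module.End F W →ₗ[F] Module.End F W :=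
      { toFun := θ
        map_add' := fun a b => hactinj _ _ (by
          rw [map_add, ← hθ', ← hθ', ← hθ', map_add, mul_add, add_mul])
        map_smul' := fun c a => hactinj _ _ (by
          rw [RingHom.id_apply, map_smul, ← hθ', ← hθ', map_smul, mul_smul_comm, smul_mul_assoc]) }
    have hΘ : Function.Injective Θ := by
      intro a b hab
      refine hactinj _ _ ?_
      have h : D.act (θ a) = D.act (θ b) := congrArg D.act hab
      rw [← hθ', ← hθ'] at h
      exact (Units.mul_right_inj g).1 ((Units.mul_left_inj g⁻¹).1 h)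
    obtain ⟨c, hc⟩ := scalar_of_comm (E := S₀) fun f => by
      obtain ⟨f₁, rfl⟩ := LinearMap.injective_iff_surjective.1 hΘ f
      refine hactinj _ _ ?_
      show D.act (θ f₁ * S₀) = D.act (S₀ * θ f₁)
      rw [map_mul, map_mul, ← hθ', ← himg, img]
      simp only [mul_assoc, Units.inv_mul_cancel_left]
      rw [← mul_assoc (D.act f₁), D.act_mul_N, mul_one, ← mul_assoc (D.N z 1), D.N_mul_act, one_mul]
    obtain ⟨v, hv⟩ := exists_aniso hS
    have h := hS₀ v v
    rw [hc] at h
    simp only [LinearMap.smul_apply, Module.End.one_apply, map_smul, smul_eq_mul] at h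
    have hc0 : c = 0 := by
      refine mul_left_cancel₀ h2 (mul_right_cancel₀ hv ?_)
      linear_combination h
    exact hS0 (by rw [hc, hc0, zero_smul])
  · push Not at hA
    obtain ⟨X, hX, hXr⟩ := hA
    obtain ⟨hXs, hX2, h, hh, hhimg⟩ := hOrbX X hX
    have hl : D.IsLeft (D.img h z) := by
      rcases hC.dichotomy hK hh z with hl | ⟨S', -, hS'⟩
      · exact hl
      · exact absurd (hhimg.symm.trans hS') (hXr S')
    obtain ⟨μ, z₁, hμ, hz₁, hn⟩ := hC.left_form hh hz hl
    obtain ⟨u, hu, hXu⟩ : ∃ u, D.S u u ≠ 0 ∧ X u ≠ 0 := by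
      by_contra hc
      push Not at hc
      have hX0 : X = 0 := eq_zero_of_anticomm hS hXs (ν := 0)
        (fun w => by rw [hsq0 hX2, zero_smul]) fun u hu => ⟨0, fun w => by
          rw [refl_conj_apply hS hXs, refl_conj_apply hS hXs, hc u hu]
          simp [hXs u, hsq0 hX2, hc u hu]⟩
      exact hXr 0 (by rw [hX0]; simp)
    set r := refl D.S u
    obtain ⟨-, hX2', h', hh', hhimg'⟩ := hOrbX _ (hOrbr X u hX hu)
    set Dl := r * X * r - X with hDl
    obtain ⟨hdu, hdd⟩ := hdisp hXs hX2 u hu
    -- the rank of the difference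
    have hDrank : finrank F (LinearMap.range (D.img h z - D.img h' z)) ≤ 2 * finrank F U := by
      have e : D.img h z - D.img h' z =
          (g : Module.End F V) * D.act (-Dl) * ((g⁻¹ : (Module.End F V)ˣ) : Module.End F V) := by
        rw [hhimg, hhimg', hDl, ← sub_mul, ← mul_sub, ← map_sub, neg_sub]
      let G : V ≃ₗ[F] V := LinearMap.GeneralLinearGroup.generalLinearEquiv F V g
      have hr : LinearMap.range (D.img h z - D.img h' z) ≤
          (LinearMap.range (D.act (-Dl))).map G.toLinearMap := by
        rw [e]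
        rintro _ ⟨v, rfl⟩
        exact ⟨_, LinearMap.mem_range_self _ _, rfl⟩
      refine (Submodule.finrank_mono hr).trans ?_
      rw [LinearEquiv.finrank_map_eq, D.finrank_range_act, mul_comm]
      refine Nat.mul_le_mul_right _ ((Submodule.finrank_mono
        (?_ : LinearMap.range (-Dl) ≤ Submodule.span F {X u, u})).trans ?_)
      · rintro _ ⟨w, rfl⟩
        rw [LinearMap.neg_apply, show Dl w = _ from refl_conj_apply hS hXs w, neg_neg]
        exact Submodule.sub_mem _ (Submodule.smul_mem _ _ (Submodule.subset_span (by simp)))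
          (Submodule.smul_mem _ _ (Submodule.subset_span (by simp)))
      · have h5 := finrank_span_finset_le_card (R := F) ({X u, u} : Finset W)
        rw [Finset.coe_pair, Set.finrank] at h5
        exact h5.trans Finset.card_le_two
    have hab : 2 * finrank F U ≤ finrank F W := by
      rw [← hrk, mul_comm]; exact Nat.mul_le_mul_left _ hr0
    rcases hC.dichotomy hK hh' z with hl' | ⟨S', hS's, hS'⟩
    · obtain ⟨μ', z₂, hμ', hz₂, hn'⟩ := hC.left_form hh' hz hl'
      by_cases hdep : D.om z₁ = 0 ∨ ∃ c : F, z₂ = c • z₁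
      · obtain ⟨c, rfl⟩ := hdep.resolve_left fun h0 => hz₁ (D.om_nd z₁ fun y => by
          rw [h0, LinearMap.zero_apply])
        rw [D.N_smul_left, smul_smul] at hn'
        have e1 : (g : Module.End F V) * D.act (r * X * r) * ((g⁻¹ : (Module.End F V)ˣ) : Module.End F V) =
            (g : Module.End F V) * D.act ((μ' * (c * c) / μ) • X) *
              ((g⁻¹ : (Module.End F V)ˣ) : Module.End F V) := by
          rw [map_smul, mul_smul_comm, smul_mul_assoc, ← hhimg, ← hhimg', hn, hn', smul_smul,
            div_mul_cancel₀ _ hμ]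
        have e2 := (Units.mul_right_inj g).1 ((Units.mul_left_inj g⁻¹).1 e1)
        have e3 : Dl = (μ' * (c * c) / μ - 1) • X := by
          obtain ⟨y, hy⟩ := D.exists_pair hz
          have e4 := congrArg (fun m => D.ent m z y) e2
          simp only [ent_act, hy, one_smul] at e4
          rw [hDl, e4, sub_smul, one_smul]
        obtain ⟨w, hw⟩ : ∃ w, D.S (X u) w ≠ 0 := by
          by_contra hc; push Not at hc; exact hXu (hS.nd _ hc)
        have h6 := hdd w
        rw [← hDl, e3] at h6
        simp only [LinearMap.smul_apply, map_smul, hsq0 hX2, smul_zero] at h6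
        rcases smul_eq_zero.1 h6.symm with h7 | h7
        · exact mul_ne_zero (neg_ne_zero.2 h2) (mul_ne_zero (div_ne_zero h2 hu) hw) h7
        · exact hXu h7
      · push Not at hdep
        -- two different lines give too large a rank
        let Ψ : W × W →ₗ[F] V := (D.p z₁).coprod (D.p z₂)
        have hΨ : Function.Injective Ψ := by
          rw [← LinearMap.ker_eq_bot, LinearMap.ker_eq_bot']
          rintro ⟨a, b⟩ hab'
          simp only [Ψ, LinearMap.coprod_apply] at hab'
          have hb : b = 0 := by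
            by_contra hb
            obtain ⟨φ, hφ⟩ := Module.Projective.exists_dual_ne_zero F hb
            have h8 : ∀ x, D.om x (φ a • z₁ + φ b • z₂) = 0 := fun x => by
              have := congrArg (fun v => φ (D.i x v)) hab'
              simp only [map_add, D.i_p, map_smul, map_zero, smul_eq_mul] at this
              simp only [map_add, map_smul, smul_eq_mul]
              linear_combination this
            have h9 := D.om_nd _ fun y => by rw [D.om_skew, h8, neg_zero]
            refine hdep.2 (-(φ a) / φ b) ?_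
            rw [div_eq_inv_mul, mul_smul, eq_inv_smul_iff₀ hφ]
            linear_combination (norm := module) h9
          subst hb
          rw [map_zero, add_zero] at hab'
          rw [D.p_injective hz₁ (hab'.trans (map_zero _).symm)]
          rfl
        have hle : LinearMap.range Ψ ≤ LinearMap.range (D.img h z - D.img h' z) := by
          rw [hn, hn']
          have key : ∀ {za zb : U} {ca cb : F}, ca ≠ 0 → za ≠ 0 → (∀ c : F, za ≠ c • zb) →
              zb ≠ 0 → LinearMap.range (D.p za) ≤ LinearMap.range (ca • D.N za 1 - cb • D.N zb 1) := by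
            intro za zb ca cb hca hza hne hzb
            obtain ⟨yb, hyb⟩ := D.exists_pair hzb
            obtain ⟨y₀, hy₀⟩ : ∃ y₀, D.om (za - D.om za yb • zb) y₀ ≠ 0 := by
              by_contra hc; push Not at hc
              exact hne _ (sub_eq_zero.1 (D.om_nd _ hc))
            set y := y₀ - D.om zb y₀ • yb with hy
            have h1 : D.om zb y = 0 := by simp [hy, hyb]
            have h2' : D.om za y ≠ 0 := by
              simpa [hy, mul_comm] using hy₀
            rintro _ ⟨w, rfl⟩
            refine ⟨D.p y ((ca * D.om za y)⁻¹ • w), ?_⟩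
            simp only [LinearMap.sub_apply, LinearMap.smul_apply, N_apply, D.i_p, h1, zero_smul,
              map_zero, smul_zero, sub_zero, Module.End.one_apply, map_smul, smul_smul]
            rw [inv_mul_cancel₀ (mul_ne_zero hca h2'), one_smul]
          rintro _ ⟨⟨a, b⟩, rfl⟩
          refine Submodule.add_mem _ (key hμ hz₁ (fun c hc => ?_) hz₂ ⟨a, rfl⟩) ?_
          · rcases eq_or_ne c 0 with rfl | hc0
            · exact hz₁ (by rw [hc, zero_smul])
            · exact hdep.2 c⁻¹ (by rw [hc, inv_smul_smul₀ hc0])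
          · have := key (cb := μ) hμ' hz₂ hdep.2 hz₁ ⟨b, rfl⟩
            rwa [← neg_sub, LinearMap.range_neg] at this
        have := Submodule.finrank_mono hle
        rw [LinearMap.finrank_range_of_inj hΨ, Module.finrank_prod] at this
        omega
    · -- mixed types
      obtain ⟨x₀', hx₀'⟩ := D.exists_pair hz₁
      set x₀ := -x₀' with hx₀def
      have hx₀ : D.om x₀ z₁ = 1 := by
        rw [hx₀def, map_neg, LinearMap.neg_apply, D.om_skew z₁ x₀', neg_neg, hx₀']
      let U₁ : Submodule F U := LinearMap.ker ((D.om.flip z₁).prod (D.om.flip x₀))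
      have hU₁ : finrank F U₁ + 2 ≤ finrank F U := by
        let e : (F × F) × U₁ →ₗ[F] U :=
          ((LinearMap.toSpanSingleton F U x₀).coprod (LinearMap.toSpanSingleton F U z₁)).coprod
            U₁.subtype
        have he : Function.Injective e := by
          rw [← LinearMap.ker_eq_bot, LinearMap.ker_eq_bot']
          rintro ⟨⟨a, b⟩, ⟨y, hy⟩⟩ h0
          simp only [U₁, LinearMap.mem_ker, LinearMap.prod_apply, Function.prod_apply,
            Prod.mk_eq_zero, LinearMap.BilinForm.flip_apply] at hy
          simp only [e, LinearMap.coprod_apply, LinearMap.toSpanSingleton_apply,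
            Submodule.coe_subtype] at h0
          have e1 := congrArg (D.om.flip z₁) h0
          have e2 := congrArg (D.om.flip x₀) h0
          simp only [map_add, map_smul, LinearMap.BilinForm.flip_apply, D.om_self, hx₀, hy.1, hy.2,
            smul_eq_mul, map_zero, D.om_skew x₀ z₁, LinearMap.zero_apply] at e1 e2
          have ha : a = 0 := by linear_combination e1
          have hb : b = 0 := by linear_combination -e2
          subst ha hb
          simp at h0
          simp [h0]
        have := LinearMap.finrank_le_finrank_of_injective he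
        rw [Module.finrank_prod, Module.finrank_prod, Module.finrank_self] at this
        omega
      set T := D.img h z - D.img h' z with hT
      have hker : ∀ v ∈ LinearMap.ker T, ∀ x, S' (D.i x v) = (μ * D.om x z₁) • D.i z₁ v := by
        intro v hv x
        have h0 : T v = 0 := hv
        rw [hT, hn, hS', LinearMap.sub_apply, sub_eq_zero] at h0
        have h1 := congrArg (D.i x) h0
        simp only [LinearMap.smul_apply, map_smul, N_apply, D.i_p, D.i_act, Module.End.one_apply,
          smul_smul] at h1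
        exact h1.symm
      let ev : LinearMap.ker T →ₗ[F] W × (U₁ →ₗ[F] LinearMap.ker S') :=
        LinearMap.prod (D.i x₀ ∘ₗ (LinearMap.ker T).subtype)
          { toFun := fun v =>
              LinearMap.codRestrict (LinearMap.ker S') ((D.i.flip v.1) ∘ₗ U₁.subtype) fun x => by
                show S' (D.i x.1 v.1) = 0
                have hx : D.om x.1 z₁ = 0 :=
                  (Prod.mk_eq_zero.1 (LinearMap.mem_ker.1 x.2)).1
                rw [hker v.1 v.2, hx, mul_zero, zero_smul]
            map_add' := fun v v' => by ext x; simp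
            map_smul' := fun c v => by ext x; simp }
      have hev : Function.Injective ev := by
        rw [← LinearMap.ker_eq_bot, LinearMap.ker_eq_bot']
        rintro ⟨v, hv⟩ h0
        have h1 : D.i x₀ v = 0 := congrArg Prod.fst h0
        have h2' : ∀ x : U₁, D.i x.1 v = 0 := fun x =>
          congrArg Subtype.val (LinearMap.congr_fun (congrArg Prod.snd h0) x)
        have h3' : D.i z₁ v = 0 := by
          have := hker v hv x₀
          rw [h1, map_zero, hx₀, mul_one, eq_comm] at this
          exact (smul_eq_zero.1 this).resolve_left hμ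
        refine Subtype.ext (D.ext_i v fun x => ?_)
        have hxU : x - D.om x z₁ • x₀ + D.om x x₀ • z₁ ∈ U₁ := by
          simp [U₁, hx₀, D.om_self, D.om_skew x₀ z₁]
        have h4 := h2' ⟨_, hxU⟩
        simpa [map_sub, map_smul, h1, h3'] using h4
      have hfin := LinearMap.finrank_le_finrank_of_injective hev
      rw [Module.finrank_prod, Module.finrank_linearMap] at hfin
      have hrn := LinearMap.finrank_range_add_finrank_ker T
      have hS'rk : finrank F U * finrank F (LinearMap.range S') = finrank F W := by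
        rw [← D.finrank_range_act, ← hS', D.finrank_range_img h' hz]
      have hkS := LinearMap.finrank_range_add_finrank_ker S'
      have hVdim : finrank F V = finrank F U * finrank F W := by
        have h1 := D.finrank_range_act 1
        rwa [map_one, Module.End.one_eq_id, Module.End.one_eq_id, LinearMap.range_id,
          LinearMap.range_id, finrank_top, finrank_top] at h1
      have hr' : finrank F (LinearMap.range S') = finrank F (LinearMap.range S₀) :=
        Nat.eq_of_mul_eq_mul_left (by omega) (hS'rk.trans hrk.symm)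
      set a := finrank F U with ha
      set b := finrank F W with hb
      set r₀ := finrank F (LinearMap.range S₀)
      rw [hr'] at hkS
      have hfin' : finrank F (LinearMap.ker T) ≤ b + (a - 2) * (b - r₀) := by
        refine hfin.trans (Nat.add_le_add_left ?_ _)
        rw [show finrank F (LinearMap.ker S') = b - r₀ by omega]
        exact Nat.mul_le_mul_right _ (by omega)
      obtain ⟨a', ha'⟩ : ∃ a', a = a' + 2 := ⟨a - 2, by omega⟩
      obtain ⟨c, hc⟩ : ∃ c, b = c + r₀ := ⟨b - r₀, by omega⟩
      rw [ha', hc, Nat.add_sub_cancel, Nat.add_sub_cancel] at hfin'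
      rw [hVdim] at hrn
      rw [ha'] at hrk hDrank hrn
      rw [hc] at hrk hrn
      obtain ⟨h24, h24'⟩ := mixed_arith hfin' hDrank hrn hrk hr0
      rw [h24] at hrk
      obtain ⟨p, ⟨p', rfl⟩, q, ⟨q', rfl⟩, hpq⟩ := hex (by omega) (by omega)
        (LinearMap.range S₀) (by omega)
      exact hpq (by rw [hS₀, hsq0 hS02, map_zero, neg_zero])

/-- If all products of opposite entries are scalar, every element is a pure tensor; for the
dimensions two and four this needs an orthogonal factor without totally isotropic planes. -/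
theorem Ctx.pure_of_entScalar' (hK : D.EntScalar M) (hU : 2 ≤ finrank F U)
    (hex : finrank F U = 2 → finrank F W = 4 → ∀ W₀ : Submodule F W, finrank F W₀ = 2 →
      ∃ p ∈ W₀, ∃ q ∈ W₀, D.S p q ≠ 0) {g : (Module.End F V)ˣ} (hg : g ∈ M) :
    ∃ (C : Module.End F U) (h : Module.End F W),
      ∀ x w, (g : Module.End F V) (D.p x w) = D.p (C x) (h w) := by
  refine hC.pure_of_left hg fun z => ?_
  rcases eq_or_ne z 0 with rfl | hz
  · intro f
    simp [img, N]
  rcases hC.dichotomy hK hg z with hl | ⟨S₀, hS₀, himg⟩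
  · exact hl
  · exact (hC.not_right hK hU hex hg hz hS₀ himg).elim

/-- If all products of opposite entries are scalar, every element is a pure tensor. -/
theorem Ctx.pure_of_entScalar (hK : D.EntScalar M) (hU : 2 ≤ finrank F U)
    (hex : ¬ (finrank F U = 2 ∧ finrank F W = 4)) {g : (Module.End F V)ˣ} (hg : g ∈ M) :
    ∃ (C : Module.End F U) (h : Module.End F W),
      ∀ x w, (g : Module.End F V) (D.p x w) = D.p (C x) (h w) :=
  hC.pure_of_entScalar' hK hU (fun h1 h2 => absurd ⟨h1, h2⟩ hex) hg

end TD

end Cfsg.Agent.GeoLow.TensorSO
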