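import Cfsg.Agent.RootSub.SL2Gen.Perfect

/-!
The group generated by the upper elements over `k` and the lower ones over `k α`, for an arbitrary
element `α` of a finite algebra `k[α]`: the part where `α` is a unit and the nilpotent case.
-/

set_option autoImplicit false
set_option linter.style.haveILetI false

namespace Cfsg.Agent.GeoLow.TensorSO

open Polynomial Cfsg.Agent.RootSub.SL2Gen

universe u

variable {k : Type*} [Field k] {R : Type u} [CommRing R] [Algebra k R] {α : R}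

local notation "SLR" => Matrix.SpecialLinearGroup (Fin 2) R

/-- Some positive power of an element of a finite monoid is idempotent. -/
lemma exists_idempotent_pow {A : Type*} [Monoid A] [Finite A] (a : A) :
    ∃ N, 0 < N ∧ a ^ N * a ^ N = a ^ N := by
  obtain ⟨i, j, hne, hij⟩ := Finite.exists_ne_map_eq_of_infinite fun n : ℕ => a ^ n
  wlog hlt : i < j generalizing i j
  · exact this j i hne.symm hij.symm (by omega)
  obtain ⟨d, rfl⟩ := Nat.le.dest hlt.le
  have step : ∀ q, a ^ (i + q * d) = a ^ i := by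
    intro q
    induction q with
    | zero => simp
    | succ q ih =>
      rw [show i + (q + 1) * d = (i + q * d) + d by ring, pow_add, ih, ← pow_add]
      exact hij.symm
  refine ⟨(i + 1) * d, Nat.mul_pos (by omega) (by omega), ?_⟩
  have hle : i ≤ (i + 1) * d := le_trans (Nat.le_succ i) (Nat.le_mul_of_pos_right _ (by omega))
  obtain ⟨s, hs⟩ := Nat.le.dest hle
  rw [← pow_add]
  nth_rw 1 [← hs]
  rw [show i + s + (i + 1) * d = (i + (i + 1) * d) + s by ring, pow_add, step, ← pow_add, hs]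

/-- Upper unitriangular modulo `α`. -/
lemma dvd_of_mem_gam {g : SLR} (hg : g ∈ gam k α) :
    α ∣ g 0 0 - 1 ∧ α ∣ g 1 0 ∧ α ∣ g 1 1 - 1 := by
  induction hg using Subgroup.closure_induction with
  | mem x hx =>
    rcases hx with ⟨c, rfl⟩ | ⟨c, rfl⟩ <;> simp
  | one => simp
  | mul x y _ _ hx hy =>
    obtain ⟨⟨a, ha⟩, ⟨c, hc⟩, ⟨d, hd⟩⟩ := hx
    obtain ⟨⟨a', ha'⟩, ⟨c', hc'⟩, ⟨d', hd'⟩⟩ := hy
    simp only [mul_entry]
    refine ⟨⟨a * y 0 0 + a' + x 0 1 * c', ?_⟩, ⟨c * y 0 0 + x 1 1 * c', ?_⟩,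
      ⟨c * y 0 1 + d * y 1 1 + d', ?_⟩⟩
    · linear_combination y 0 0 * ha + ha' + x 0 1 * hc'
    · linear_combination y 0 0 * hc + x 1 1 * hc'
    · linear_combination y 0 1 * hc + y 1 1 * hd + hd'
  | inv x _ hx =>
    simp only [inv_entry_00, inv_entry_10, inv_entry_11]
    exact ⟨hx.2.2, dvd_neg.2 hx.2.1, hx.1⟩

/-- The parameters in the part where `α` is a unit. -/
theorem mul_mem_upperSet [Finite k] [Finite R] (h2 : (2 : k) ≠ 0) (h3 : Nat.card k ≠ 3)
    (hgen : ∀ r : R, ∃ q : k[X], aeval α q = r) {N : ℕ} (hN : 0 < N)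
    (he : α ^ N * α ^ N = α ^ N) (r : R) : α ^ N * r ∈ upperSet (gam k α) := by
  classical
  rcases subsingleton_or_nontrivial R with hR | hR
  · rw [Subsingleton.elim (α ^ N * r) 0]; exact zero_mem _
  set e := α ^ N with hedef
  obtain ⟨p, hp⟩ := CharP.exists k
  haveI : Fact p.Prime := ⟨CharP.char_is_prime k p⟩
  haveI : CharP R p := charP_of_injective_algebraMap (algebraMap k R).injective p
  let I : Ideal R := Ideal.span {1 - e}
  set π : R →ₐ[k] R ⧸ I := Ideal.Quotient.mkₐ k I with hπ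
  haveI : Finite (R ⧸ I) := Finite.of_surjective _ Ideal.Quotient.mk_surjective
  have hπe : π e = 1 := by
    rw [← map_one π]; exact Ideal.Quotient.eq.2 (Ideal.mem_span_singleton.2 ⟨-1, by ring⟩)
  have hα1 : IsUnit (π α) := IsUnit.of_mul_eq_one (π α ^ (N - 1)) (by
    rw [← pow_succ', Nat.sub_add_cancel hN, ← map_pow, hπe])
  haveI : Module.Finite k (R ⧸ I) := Module.Finite.of_finite
  have hfull := upperSet_eq_top h2 h3 (R := R ⧸ I) (π α) hα1 fun r => by
    obtain ⟨r, rfl⟩ := Ideal.Quotient.mk_surjective r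
    obtain ⟨q, rfl⟩ := hgen r
    exact ⟨q, aeval_algHom_apply π α q⟩
  have hsurj : ∀ g ∈ gam k (π α), ∃ g' ∈ gam k α,
      Matrix.SpecialLinearGroup.map (π : R →+* R ⧸ I) g' = g := fun g hg => by
    rw [← map_gam k π α] at hg; exact Subgroup.mem_map.1 hg
  obtain ⟨c, hc0, hc1⟩ := exists_sq_ne_one_of_card h2 h3
  set a := algebraMap k (R ⧸ I) c
  set b := algebraMap k (R ⧸ I) c⁻¹
  have hab : a * b = 1 := by rw [← map_mul, mul_inv_cancel₀ hc0, map_one]
  obtain ⟨g, hg, hgd⟩ := hsurj _ (dd_mem_gam hα1 hfull hab)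
  -- a power of `g` lies in the kernel
  obtain ⟨n, hn⟩ : ∃ n, 2 * N ≤ p ^ n :=
    ⟨2 * N, (Nat.lt_pow_self (Fact.out : p.Prime).one_lt).le⟩
  set h := g ^ p ^ n with hh
  have hker : ∀ i j, e ∣ h i j - (1 : Matrix (Fin 2) (Fin 2) R) i j := by
    obtain ⟨⟨x, hx⟩, ⟨y, hy⟩, ⟨z, hz⟩⟩ := dvd_of_mem_gam hg
    set X : Matrix (Fin 2) (Fin 2) R := (g : Matrix (Fin 2) (Fin 2) R) - 1 with hX
    have hXX : X * X = α • !![α * x * x + g 0 1 * y, x * g 0 1 + g 0 1 * z;
        α * y * x + α * z * y, y * g 0 1 + α * z * z] := by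
      ext i j
      fin_cases i <;> fin_cases j <;>
        simp [hX, Matrix.mul_apply, Fin.sum_univ_two, hx, hy, hz] <;> ring
    have h1 : (h : Matrix (Fin 2) (Fin 2) R) - 1 = X ^ p ^ n := by
      rw [hX, sub_pow_char_pow_of_commute _ _ (Commute.one_right _), one_pow, hh,
        Matrix.SpecialLinearGroup.coe_pow]
    intro i j
    obtain ⟨m, hm⟩ := Nat.le.dest hn
    have h2' := congrArg (fun Y : Matrix (Fin 2) (Fin 2) R => Y i j) h1
    simp only [Matrix.sub_apply] at h2'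
    rw [h2', ← hm, pow_add, pow_mul, sq, hXX, _root_.smul_pow, smul_mul_assoc, Matrix.smul_apply,
      smul_eq_mul]
    exact ⟨_, rfl⟩
  set c' := c ^ p ^ n with hc'
  have hc'1 : c' * c' - 1 ≠ 0 := fun h0 => hc1 (sub_eq_zero.1 (pow_eq_zero_iff
    (pow_ne_zero n (Fact.out : p.Prime).ne_zero) |>.1 (by
      rw [sub_pow_char_pow, one_pow, mul_pow]; exact h0)))
  obtain ⟨u', hu', hu'd⟩ := hsurj (uu (π r * algebraMap k _ (c' * c' - 1)⁻¹))
    (mem_upperSet.1 (hfull ▸ AddSubgroup.mem_top _))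
  set z := h * u' * h⁻¹ * u'⁻¹ with hz
  have hzmem : z ∈ gam k α :=
    mul_mem (mul_mem (mul_mem (pow_mem hg _) hu') (inv_mem (pow_mem hg _))) (inv_mem hu')
  have hd : Matrix.SpecialLinearGroup.map (π : R →+* R ⧸ I) h = dd a b hab ^ p ^ n := by
    rw [hh, map_pow, hgd]
  have hdpow : ∀ m, ((dd a b hab ^ m : Matrix.SpecialLinearGroup (Fin 2) (R ⧸ I)) :
      Matrix (Fin 2) (Fin 2) (R ⧸ I)) = !![a ^ m, 0; 0, b ^ m] := by
    intro m
    induction m with
    | zero => ext i j; fin_cases i <;> fin_cases j <;> simp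
    | succ m ih =>
      ext i j
      rw [pow_succ, Matrix.SpecialLinearGroup.coe_mul, ih]
      fin_cases i <;> fin_cases j <;> simp [Matrix.mul_apply, Fin.sum_univ_two, pow_succ]
  have hπz : Matrix.SpecialLinearGroup.map (π : R →+* R ⧸ I) z = uu (π r) := by
    rw [hz, map_mul, map_mul, map_mul, map_inv, map_inv, hd, hu'd,
      conj_uu_of_upper _ _ (by simp [hdpow]), uu_inv, uu_add]
    congr 1
    simp only [hdpow, Matrix.of_apply, Matrix.cons_val', Matrix.cons_val_zero,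
      Matrix.cons_val_fin_one]
    have : a ^ p ^ n * a ^ p ^ n - 1 = algebraMap k (R ⧸ I) (c' * c' - 1) := by
      rw [map_sub, map_mul, map_one, hc', map_pow]
    linear_combination (π r * algebraMap k _ (c' * c' - 1)⁻¹) * this +
      π r * (by rw [← map_mul, mul_inv_cancel₀ hc'1, map_one] :
        algebraMap k (R ⧸ I) (c' * c' - 1) * algebraMap k _ (c' * c' - 1)⁻¹ = 1)
  have hz1 : ∀ i j, e ∣ z i j - (1 : Matrix (Fin 2) (Fin 2) R) i j := by
    let J : Ideal R := Ideal.span {e}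
    have hh1 : Matrix.SpecialLinearGroup.map (Ideal.Quotient.mk J) h = 1 := by
      refine Matrix.SpecialLinearGroup.ext _ _ fun i j => ?_
      rw [map_entry]
      show _ = (1 : Matrix (Fin 2) (Fin 2) (R ⧸ J)) i j
      rw [← Matrix.map_one (Ideal.Quotient.mk J) (map_zero _) (map_one _)]
      exact Ideal.Quotient.eq.2 (Ideal.mem_span_singleton.2 (hker i j))
    have hz1' : Matrix.SpecialLinearGroup.map (Ideal.Quotient.mk J) z = 1 := by
      rw [hz, map_mul, map_mul, map_mul, map_inv, map_inv, hh1]; group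
    intro i j
    refine Ideal.mem_span_singleton.1 (Ideal.Quotient.eq.1 (?_ : Ideal.Quotient.mk J (z i j) = _))
    rw [← map_entry, hz1', ← Matrix.map_apply (f := Ideal.Quotient.mk J),
      Matrix.map_one (Ideal.Quotient.mk J) (map_zero _) (map_one _)]
    rfl
  have heq : z = uu (e * r) := by
    refine Matrix.SpecialLinearGroup.ext _ _ fun i j => sub_eq_zero.1 ?_
    set x := z i j - (uu (e * r) : SLR) i j with hx
    have hx1 : e ∣ x := by
      obtain ⟨w, hw⟩ := hz1 i j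
      have : e ∣ (uu (e * r) : SLR) i j - (1 : Matrix (Fin 2) (Fin 2) R) i j := by
        fin_cases i <;> fin_cases j <;> simp
      obtain ⟨w', hw'⟩ := this
      exact ⟨w - w', by rw [hx]; linear_combination hw - hw'⟩
    have hx2 : 1 - e ∣ x := by
      refine Ideal.mem_span_singleton.1 (Ideal.Quotient.eq.1 ?_)
      show (π : R →+* R ⧸ I) (z i j) = (π : R →+* R ⧸ I) ((uu (e * r) : SLR) i j)
      rw [← map_entry, ← map_entry, hπz, map_uu]
      rw [show (π : R →+* R ⧸ I) (e * r) = π r by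
        show π (e * r) = π r
        rw [map_mul, hπe, one_mul]]
    obtain ⟨w, hw⟩ := hx1
    obtain ⟨w', hw'⟩ := hx2
    linear_combination (1 - e) * hw + e * hw' + (-w - w') * he
  rw [mem_upperSet, ← heq]
  exact hzmem

/-- An element of level `j` with the given leading coefficients. -/
def Lev (α : R) (j : ℕ) (a b c : R) (g : SLR) : Prop :=
  α ^ (j + 1) ∣ g 0 0 - 1 - α ^ j * a ∧ α ^ (j + 1) ∣ g 0 1 - α ^ j * b ∧
    α ^ (j + 2) ∣ g 1 0 - α ^ (j + 1) * c ∧ α ^ (j + 1) ∣ g 1 1 - 1 + α ^ j * a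

lemma Lev.mul {j : ℕ} (hj : 1 ≤ j) {a b c a' b' c' : R} {g h : SLR} (hg : Lev α j a b c g)
    (hh : Lev α j a' b' c' h) : Lev α j (a + a') (b + b') (c + c') (g * h) := by
  obtain ⟨i, rfl⟩ : ∃ i, j = i + 1 := ⟨j - 1, by omega⟩
  obtain ⟨⟨A, hA⟩, ⟨B, hB⟩, ⟨C, hC⟩, ⟨D, hD⟩⟩ := hg
  obtain ⟨⟨A', hA'⟩, ⟨B', hB'⟩, ⟨C', hC'⟩, ⟨D', hD'⟩⟩ := hh
  rw [sub_eq_iff_eq_add] at hB hC hB' hC'
  rw [sub_sub, sub_eq_iff_eq_add] at hA hA'
  rw [sub_add, sub_eq_iff_eq_add] at hD hD'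
  simp only [Lev, mul_entry, hA, hB, hC, hD, hA', hB', hC', hD']
  refine ⟨⟨A + A' + α ^ i * (a + α * A) * (a' + α * A') +
      α ^ i * α * (b + α * B) * (c' + α * C'), ?_⟩,
    ⟨B + B' + α ^ i * (a + α * A) * (b' + α * B') + α ^ i * (b + α * B) * (α * D' - a'), ?_⟩,
    ⟨C + C' + α ^ i * (c + α * C) * (a' + α * A') + α ^ i * (α * D - a) * (c' + α * C'), ?_⟩,
    ⟨D + D' + α ^ i * α * (c + α * C) * (b' + α * B') + α ^ i * (α * D - a) * (α * D' - a'), ?_⟩⟩ <;>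
  ring

lemma Lev.inv {j : ℕ} {a b c : R} {g : SLR} (hg : Lev α j a b c g) :
    Lev α j (-a) (-b) (-c) g⁻¹ := by
  obtain ⟨⟨A, hA⟩, ⟨B, hB⟩, ⟨C, hC⟩, ⟨D, hD⟩⟩ := hg
  simp only [Lev, inv_entry_00, inv_entry_01, inv_entry_10, inv_entry_11]
  exact ⟨⟨D, by linear_combination hD⟩, ⟨-B, by linear_combination -hB⟩,
    ⟨-C, by linear_combination -hC⟩, ⟨A, by linear_combination hA⟩⟩

lemma Lev.comm_uu {j : ℕ} (hj : 1 ≤ j) {a b c : R} {g : SLR} (hg : Lev α j a b c g) (t : R) :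
    Lev α j 0 (2 * a * t) 0 (g * uu t * g⁻¹ * (uu t)⁻¹) := by
  obtain ⟨i, rfl⟩ : ∃ i, j = i + 1 := ⟨j - 1, by omega⟩
  obtain ⟨⟨A, hA⟩, -, ⟨C, hC⟩, -⟩ := hg
  rw [sub_eq_iff_eq_add] at hC
  rw [sub_sub, sub_eq_iff_eq_add] at hA
  have hconj := conj_uu g t
  generalize g * uu t * g⁻¹ = q at hconj ⊢
  simp only [Lev, uu_inv, mul_entry, hconj, hA, hC]
  simp
  refine ⟨⟨t * (1 + α ^ (i + 1) * (a + α * A)) * (c + α * C), ?_⟩,
    ⟨t * (2 * A + α ^ i * (a + α * A) * (a + α * A)) +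
      t * t * (1 + α ^ (i + 1) * (a + α * A)) * (c + α * C), ?_⟩,
    ⟨t * α ^ (i + 1) * (c + α * C) * (c + α * C), ?_⟩,
    ⟨t * (1 + α ^ (i + 1) * (a + α * A)) * (c + α * C) +
      t * t * α ^ (i + 2) * (c + α * C) * (c + α * C), ?_⟩⟩ <;>
  ring

lemma Lev.comm_vv {j : ℕ} (hj : 1 ≤ j) {a b c : R} {g : SLR} (hg : Lev α j a b c g) (t : R) :
    Lev α j 0 0 (-2 * a * t) (g * vv (t * α) * g⁻¹ * (vv (t * α))⁻¹) := by
  obtain ⟨i, rfl⟩ : ∃ i, j = i + 1 := ⟨j - 1, by omega⟩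
  obtain ⟨-, ⟨B, hB⟩, -, ⟨D, hD⟩⟩ := hg
  rw [sub_eq_iff_eq_add] at hB
  rw [sub_add, sub_eq_iff_eq_add] at hD
  have hconj := conj_vv g (t * α)
  generalize g * vv (t * α) * g⁻¹ = q at hconj ⊢
  simp only [Lev, vv_inv, mul_entry, hconj, hB, hD]
  simp
  refine ⟨⟨t * (b + α * B) * (1 + α ^ (i + 1) * (α * D - a)) +
      t * t * α ^ (i + 2) * (b + α * B) * (b + α * B), ?_⟩,
    ⟨t * α ^ (i + 1) * (b + α * B) * (b + α * B), ?_⟩,
    ⟨t * (2 * D + α ^ i * (α * D - a) * (α * D - a)) +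
      t * t * (b + α * B) * (1 + α ^ (i + 1) * (α * D - a)), ?_⟩,
    ⟨t * (b + α * B) * (1 + α ^ (i + 1) * (α * D - a)), ?_⟩⟩ <;>
  ring

lemma Lev.comm_vv_next {j : ℕ} (hj : 1 ≤ j) {b c : R} {g : SLR} (hg : Lev α j 0 b c g) (t : R) :
    ∃ c', Lev α (j + 1) (t * b) 0 c' (g * vv (t * α) * g⁻¹ * (vv (t * α))⁻¹) := by
  obtain ⟨i, rfl⟩ : ∃ i, j = i + 1 := ⟨j - 1, by omega⟩
  obtain ⟨-, ⟨B, hB⟩, -, ⟨D, hD⟩⟩ := hg
  rw [sub_eq_iff_eq_add] at hB
  rw [mul_zero, add_zero, sub_eq_iff_eq_add] at hD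
  refine ⟨t * (2 * D + α ^ (i + 2) * D * D) +
    t * t * (b + α * B) * (1 + α ^ (i + 2) * D), ?_⟩
  have hconj := conj_vv g (t * α)
  generalize g * vv (t * α) * g⁻¹ = q at hconj ⊢
  simp only [Lev, vv_inv, mul_entry, hconj, hB, hD]
  simp
  refine ⟨⟨t * B + t * α ^ (i + 1) * (b + α * B) * D + t * t * α ^ (i + 1) * (b + α * B) * (b + α * B), ?_⟩,
    ⟨t * α ^ i * (b + α * B) * (b + α * B), ?_⟩,
    ⟨0, ?_⟩,
    ⟨-t * B - t * α ^ (i + 1) * (b + α * B) * D, ?_⟩⟩ <;>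
  ring

/-- For nilpotent `α` the parameter `α` occurs. -/
theorem self_mem_upperSet_of_nilpotent (h2 : (2 : k) ≠ 0) {n : ℕ} (hn : α ^ n = 0)
    (hgen : ∀ r : R, ∃ q : k[X], aeval α q = r) : α ∈ upperSet (gam k α) := by
  set Γ := gam k α
  have hu : ∀ c : k, uu (algebraMap k R c) ∈ Γ := uu_mem_gam k α
  have hv : ∀ c : k, vv (algebraMap k R c * α) ∈ Γ := vv_mem_gam k α
  have hmod : ∀ r : R, ∃ s : k, α ∣ r - algebraMap k R s := fun r => by
    obtain ⟨q, rfl⟩ := hgen r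
    refine ⟨q.coeff 0, aeval α q.divX, ?_⟩
    have := congrArg (aeval α) q.X_mul_divX_add
    rw [map_add, map_mul, aeval_X, aeval_C] at this
    rw [← this, add_sub_cancel_right]
  have hhalf : (2 : R) * algebraMap k R 2⁻¹ = 1 := by
    rw [show (2 : R) = algebraMap k R 2 by rw [map_ofNat], ← map_mul, mul_inv_cancel₀ h2, map_one]
  have comm_mem : ∀ {g h : SLR}, g ∈ Γ → h ∈ Γ → g * h * g⁻¹ * h⁻¹ ∈ Γ := fun hg hh =>
    mul_mem (mul_mem (mul_mem hg hh) (inv_mem hg)) (inv_mem hh)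
  have hE : ∀ j, 1 ≤ j → (∃ g ∈ Γ, ∃ b c, Lev α j 1 b c g) → ∀ s : k,
      ∃ g ∈ Γ, Lev α j 0 (algebraMap k R s) 0 g := by
    rintro j hj ⟨g, hg, b, c, hl⟩ s
    refine ⟨_, comm_mem hg (hu (2⁻¹ * s)), ?_⟩
    convert hl.comm_uu hj (algebraMap k R (2⁻¹ * s)) using 1
    rw [map_mul]; linear_combination -(algebraMap k R s) * hhalf
  have hH : ∀ j, 1 ≤ j → ∀ s : k, ∃ g ∈ Γ, ∃ b c, Lev α j (algebraMap k R s) b c g := by
    intro j hj
    induction j, hj using Nat.le_induction with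
    | base =>
      intro s
      refine ⟨_, comm_mem (hu 1) (hv s), -algebraMap k R s,
        algebraMap k R s * algebraMap k R s, ?_⟩
      have hconj := conj_vv (uu (algebraMap k R 1)) (algebraMap k R s * α)
      generalize uu (algebraMap k R 1) * vv (algebraMap k R s * α) * (uu (algebraMap k R 1))⁻¹ = q
        at hconj ⊢
      simp only [Lev, vv_inv, mul_entry, hconj]
      simp
      refine ⟨⟨algebraMap k R s * algebraMap k R s, by ring⟩, ⟨0, by ring⟩, ⟨0, by ring⟩,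
        ⟨0, by ring⟩⟩
    | succ i hi ih =>
      intro s
      obtain ⟨g, hg, hl⟩ := hE i hi (by simpa using ih 1) 1
      obtain ⟨c', hc'⟩ := hl.comm_vv_next hi (algebraMap k R s)
      exact ⟨_, comm_mem hg (hv s), 0, c', by simpa using hc'⟩
  have hF : ∀ j, 1 ≤ j → ∀ s : k, ∃ g ∈ Γ, Lev α j 0 0 (algebraMap k R s) g := by
    intro j hj s
    obtain ⟨g, hg, b, c, hl⟩ := hH j hj 1
    refine ⟨_, comm_mem hg (hv (-(2⁻¹ * s))), ?_⟩
    convert hl.comm_vv hj (algebraMap k R (-(2⁻¹ * s))) using 1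
    rw [map_neg, map_mul, map_one]; linear_combination -(algebraMap k R s) * hhalf
  have hall : ∀ m j, 1 ≤ j → n ≤ j + m → ∀ g : SLR, α ^ j ∣ g 0 0 - 1 → α ^ j ∣ g 0 1 →
      α ^ (j + 1) ∣ g 1 0 → α ^ j ∣ g 1 1 - 1 → g ∈ Γ := by
    intro m
    induction m with
    | zero =>
      intro j hj hnj g h00 h01 h10 h11
      have h0 : α ^ j = 0 := pow_eq_zero_of_le (by omega) hn
      rw [h0, zero_dvd_iff] at h00 h01 h11
      rw [pow_succ, h0, zero_mul, zero_dvd_iff] at h10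
      have : g = 1 := sl_ext (by simpa using sub_eq_zero.1 h00) (by simpa using h01)
        (by simpa using h10) (by simpa using sub_eq_zero.1 h11)
      exact this ▸ one_mem Γ
    | succ m ih =>
      intro j hj hnj g h00 h01 h10 h11
      obtain ⟨x, hx⟩ := h00
      obtain ⟨y, hy⟩ := h01
      obtain ⟨z, hz⟩ := h10
      obtain ⟨w, hw⟩ := h11
      obtain ⟨sa, A, hA⟩ := hmod x
      obtain ⟨sb, B, hB⟩ := hmod y
      obtain ⟨sc, C, hC⟩ := hmod z
      obtain ⟨i, rfl⟩ : ∃ i, j = i + 1 := ⟨j - 1, by omega⟩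
      -- the diagonal coefficients are opposite
      have hdet := det_eq g
      have hg : Lev α (i + 1) (algebraMap k R sa) (algebraMap k R sb) (algebraMap k R sc) g :=
        ⟨⟨A, by linear_combination hx + α ^ (i + 1) * hA⟩,
          ⟨B, by linear_combination hy + α ^ (i + 1) * hB⟩,
          ⟨C, by linear_combination hz + α ^ (i + 2) * hC⟩,
          ⟨-A - α ^ i * x * w + α ^ (i + 1) * y * z, by
            rw [sub_eq_iff_eq_add] at hx hw
            rw [hx, hw, hy, hz] at hdet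
            linear_combination hw + hdet - α ^ (i + 1) * hA⟩⟩
      obtain ⟨H, hHm, b, c, hHl⟩ := hH (i + 1) hj sa
      have hnext : ∀ q : SLR, Lev α (i + 1) 0 0 0 q → q ∈ Γ := by
        rintro q ⟨q00, q01, q10, q11⟩
        simp only [mul_zero, sub_zero, add_zero] at q00 q01 q10 q11
        exact ih (i + 2) (by omega) (by omega) q q00 q01 q10 q11
      have hlev : ∀ b c : R, ∃ q ∈ Γ, Lev α (i + 1) 0 b c q := by
        intro b c
        obtain ⟨s, S, hS⟩ := hmod b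
        obtain ⟨t, T, hT⟩ := hmod c
        obtain ⟨E, hEm, hEl⟩ := hE (i + 1) hj (by simpa using hH (i + 1) hj 1) s
        obtain ⟨G, hGm, hGl⟩ := hF (i + 1) hj t
        refine ⟨E * G, mul_mem hEm hGm, ?_⟩
        obtain ⟨h1, ⟨u, hu⟩, ⟨v, hv⟩, h4⟩ := hEl.mul hj hGl
        simp only [add_zero, zero_add] at h1 hu hv h4
        exact ⟨h1, ⟨u - S, by linear_combination hu - α ^ (i + 1) * hS⟩,
          ⟨v - T, by linear_combination hv - α ^ (i + 2) * hT⟩, h4⟩
      obtain ⟨q, hqm, hql⟩ := hlev (algebraMap k R sb - b) (algebraMap k R sc - c)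
      have h1 := hg.mul hj (hHl.mul hj hql).inv
      simp only [add_zero, add_sub_cancel, add_neg_cancel] at h1
      simpa only [inv_mul_cancel_right] using mul_mem (hnext _ h1) (mul_mem hHm hqm)
  exact hall n 1 le_rfl (by omega) _ (by simp) (by simp) (by simp) (by simp)

end Cfsg.Agent.GeoLow.TensorSO
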