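import Cfsg.Agent.GeoLow.TensorSO.Pure
import Cfsg.Agent.MaxSub.QuadPair.Main

/-!
With scalar parameters the products of opposite entries are scalars once the symplectic factor has
dimension at least four.
-/

set_option autoImplicit false

namespace Cfsg.Agent.GeoLow.TensorSO

open Module Cfsg.Agent.MaxSub.QuadPair

variable {F U W V : Type*} [Field F] [AddCommGroup U] [Module F U] [AddCommGroup W] [Module F W]
  [AddCommGroup V] [Module F V]

/-- The commutator of two members whose products are central. -/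
lemma Mem.commutator {M : Subgroup (Module.End F V)ˣ} {A B : Module.End F V} (hA : Mem M A)
    (hB : Mem M B) (hAA : A * A = 0) (hBB : B * B = 0) (hABA : A * B * A = 0)
    (hBAB : B * A * B = 0) : Mem M (A * B - B * A) := by
  obtain ⟨a, ha, hae⟩ := hA
  obtain ⟨b, hb, hbe⟩ := hB
  refine ⟨a * b * a⁻¹ * b⁻¹, mul_mem (mul_mem (mul_mem ha hb) (inv_mem ha)) (inv_mem hb), ?_⟩
  rw [Units.val_mul, Units.val_mul, Units.val_mul, hae, hbe, inv_eq_one_sub hae hAA,
    inv_eq_one_sub hbe hBB]
  calc (1 + A) * (1 + B) * (1 - A) * (1 - B)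
      = 1 + (A * B - B * A) - A * A + A * A * B - A * B * A + A * B * A * B - B * B + B * A * B
          - A * (B * B) := by noncomm_ring
    _ = _ := by rw [hAA, hBB, hABA, hBAB]; simp

namespace TD

variable (D : TD F U W V)

lemma i_surjective_apply {x y : U} (hxy : D.om x y = 1) (w : W) : D.i x (D.p y w) = w := by
  rw [D.i_p, hxy, one_smul]

/-- A map between the range and the kernel of a transvection is a transvection parameter. -/
lemma exists_eq_N {x : U} (hx : x ≠ 0) {L : Module.End F V}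
    (hr : LinearMap.range L ≤ LinearMap.range (D.N x 1))
    (hk : LinearMap.ker (D.N x 1) ≤ LinearMap.ker L) : ∃ Y, L = D.N x Y := by
  obtain ⟨y, hy⟩ := D.exists_pair hx
  refine ⟨-(D.ent L y y), LinearMap.ext fun v => ?_⟩
  have hv : L v = L (D.p y (D.i x v)) := by
    rw [← sub_eq_zero, ← map_sub]
    refine hk ?_
    rw [LinearMap.mem_ker, N_apply, map_sub, D.i_surjective_apply hy, sub_self, map_zero, map_zero]
  obtain ⟨u, hu⟩ := hr ⟨D.p y (D.i x v), rfl⟩
  rw [N_apply] at hu
  rw [N_apply, LinearMap.neg_apply, ent_apply, hv, ← hu, D.i_p, D.om_skew, hy, neg_one_smul, neg_neg]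

variable {D} {M : Subgroup (Module.End F V)ˣ} (hC : D.Ctx M)
  [Finite F] [FiniteDimensional F U] [FiniteDimensional F W] [FiniteDimensional F V]
include hC

omit [Finite F] [FiniteDimensional F W] [FiniteDimensional F V] in
/-- The parameters of the elements normalising a transvection are scalars. -/
lemma Ctx.diag_scalar (hL : D.ScalarParams M) (ha : 4 ≤ finrank F U) {x : U} (hx : x ≠ 0)
    {g : (Module.End F V)ˣ} (hg : g ∈ M) {ρ : Module.End F W}
    (h1 : (g : Module.End F V) * D.N x 1 = D.N x ρ)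
    (h2 : D.N x 1 * ((g⁻¹ : (Module.End F V)ˣ) : Module.End F V) = D.N x ρ)
    (h3 : ∀ v, D.N x 1 v = 0 → (g : Module.End F V) v - v ∈ LinearMap.range (D.N x 1)) :
    ∃ c : F, ρ = c • 1 := by
  obtain ⟨y, hy⟩ := D.exists_pair hx
  obtain ⟨w, hw, hw0⟩ := Submodule.exists_mem_ne_zero_of_ne_bot
    (LinearMap.ker_ne_bot_of_finrank_lt (f := (D.om x).prod (D.om y)) (by
      rw [Module.finrank_prod, Module.finrank_self]; omega))
  simp only [LinearMap.mem_ker, LinearMap.prod_apply, Function.prod_apply, Prod.mk_eq_zero] at hw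
  obtain ⟨hxw, hyw⟩ := hw
  obtain ⟨t, ht⟩ := D.exists_pair hw0
  set w₂ := t - D.om x t • y with hw₂
  have hxw₂ : D.om x w₂ = 0 := by rw [hw₂, map_sub, map_smul, hy]; simp
  have hww₂ : D.om w w₂ = 1 := by rw [hw₂, map_sub, map_smul, ht, D.om_skew y w, hyw]; simp
  have hw₂w : D.om w₂ w = -1 := by rw [D.om_skew, hww₂]
  have hwx : D.om w x = 0 := by rw [D.om_skew, hxw, neg_zero]
  have hw₂x : D.om w₂ x = 0 := by rw [D.om_skew, hxw₂, neg_zero]
  -- the action of `g` near `x`
  have hgx : ∀ a, (g : Module.End F V) (D.p x a) = D.p x (ρ a) := fun a => by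
    have := LinearMap.congr_fun h1 (D.p y a)
    rwa [Module.End.mul_apply, N_apply, N_apply, D.i_surjective_apply hy,
      Module.End.one_apply] at this
  have hix : ∀ v, D.i x (((g⁻¹ : (Module.End F V)ˣ) : Module.End F V) v) = ρ (D.i x v) := fun v => by
    have := LinearMap.congr_fun h2 v
    rw [Module.End.mul_apply, N_apply, N_apply, Module.End.one_apply] at this
    exact D.p_injective hx this
  have hker : ∀ v, D.i x v = 0 → ∃ a, (g : Module.End F V) v = v + D.p x a := fun v hv => by
    obtain ⟨u, hu⟩ := h3 v (by rw [N_apply, hv, map_zero, map_zero])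
    exact ⟨D.i x u, by rw [N_apply, Module.End.one_apply] at hu; rw [hu]; abel⟩
  set T : Module.End F W := -(D.ent ((g : Module.End F V) - 1) y w) with hT
  have hgw : ∀ a, (g : Module.End F V) (D.p w a) = D.p w a + D.p x (T a) := fun a => by
    obtain ⟨b, hb⟩ := hker (D.p w a) (by rw [D.i_p, hxw, zero_smul])
    rw [hb, hT, LinearMap.neg_apply, ent_apply, LinearMap.sub_apply, Module.End.one_apply, hb,
      add_sub_cancel_left, D.i_p, D.om_skew, hy, neg_one_smul, neg_neg]
  set T' : Module.End F W :=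
    D.ent (((g⁻¹ : (Module.End F V)ˣ) : Module.End F V) - 1) w y with hT'
  have hiw : ∀ v, D.i w (((g⁻¹ : (Module.End F V)ˣ) : Module.End F V) v) =
      D.i w v + T' (D.i x v) := fun v => by
    set v₀ := v - D.p y (D.i x v) with hv₀
    have h0 : D.i x (((g⁻¹ : (Module.End F V)ˣ) : Module.End F V) v₀) = 0 := by
      rw [hix, hv₀, map_sub, D.i_surjective_apply hy, sub_self, map_zero]
    obtain ⟨b, hb⟩ := hker _ h0
    rw [← Module.End.mul_apply, Units.mul_inv, Module.End.one_apply] at hb
    have e : D.i w v₀ = D.i w (((g⁻¹ : (Module.End F V)ˣ) : Module.End F V) v₀) := by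
      conv_lhs => rw [hb, map_add, D.i_p, hwx, zero_smul, add_zero]
    rw [hv₀] at e
    simp only [map_sub] at e
    rw [hT', ent_apply, LinearMap.sub_apply, Module.End.one_apply, map_sub]
    linear_combination (norm := module) -e
  -- the two elements to commute
  let f : U → Module.End F V := fun z => D.p x ∘ₗ D.i z + D.p z ∘ₗ D.i x
  have hmem : ∀ z, D.om x z = 0 → Mem M (f z) := fun z hz => by
    have hz' : D.om z x = 0 := by rw [D.om_skew, hz, neg_zero]
    have hN := fun z' : U => show Mem M (D.N z' 1) by simpa using hC.left z' 1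
    have e : f z = D.N (x + z) 1 + -D.N x 1 + -D.N z 1 := LinearMap.ext fun v => by
      simp [f, N_apply]; abel
    rw [e]
    refine ((hN _).add ((hN x).neg (D.N_mul_N x 1 1)) ?_).add ((hN z).neg (D.N_mul_N z 1 1)) ?_
    · refine LinearMap.ext fun v => ?_
      simp [N_apply, D.i_p, D.om_self, hz']
    · refine LinearMap.ext fun v => ?_
      simp [N_apply, D.i_p, D.om_self, hz]
  set A := (g : Module.End F V) * f w * ((g⁻¹ : (Module.End F V)ˣ) : Module.End F V) with hA
  have hAv : ∀ v, A v = D.p x (ρ (D.i w v)) + D.p w (ρ (D.i x v)) +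
      D.p x (ρ (T' (D.i x v)) + T (ρ (D.i x v))) := fun v => by
    simp only [hA, f, Module.End.mul_apply, LinearMap.add_apply, LinearMap.comp_apply, map_add,
      hiw, hix, hgx, hgw]
    abel
  have hAm : Mem M A := (hmem w hxw).conj hg
  have hBm : Mem M (f w₂) := hmem w₂ hxw₂
  have hAB : A * f w₂ = D.N x ρ := LinearMap.ext fun v => by
    simp [hAv, f, N_apply, D.i_p, D.om_self, hxw₂, hwx, hww₂]
  have hBA : f w₂ * A = -D.N x ρ := LinearMap.ext fun v => by
    simp [hAv, f, N_apply, D.i_p, D.om_self, hxw, hw₂x, hw₂w]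
  have hAA : A * A = 0 := LinearMap.ext fun v => by
    simp [hAv, D.i_p, D.om_self, hxw, hwx]
  have hBB : f w₂ * f w₂ = 0 := LinearMap.ext fun v => by
    simp [f, D.i_p, D.om_self, hxw₂, hw₂x]
  have hABA : A * f w₂ * A = 0 := LinearMap.ext fun v => by
    simp [hAB, hAv, N_apply, D.i_p, D.om_self, hxw]
  have hBAB : f w₂ * A * f w₂ = 0 := LinearMap.ext fun v => by
    simp [hBA, f, N_apply, D.i_p, D.om_self, hxw₂]
  obtain ⟨c, hc⟩ := hL x hx ((2 : F) • ρ) (by
    have := hAm.commutator hBm hAA hBB hABA hBAB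
    rwa [hAB, hBA, sub_neg_eq_add, ← two_smul F, ← D.N_smul] at this)
  exact ⟨(2 : F)⁻¹ * c, by rw [← inv_smul_smul₀ hC.orth.two ρ, hc, smul_smul]⟩

/-- With scalar parameters the products of opposite entries are scalars. -/
theorem Ctx.entScalar_of_four (hL : D.ScalarParams M) (ha : 4 ≤ finrank F U) : D.EntScalar M := by
  intro g hg x z
  rcases eq_or_ne x 0 with rfl | hx
  · exact ⟨0, LinearMap.ext fun w => by simp [ent_apply]⟩
  rcases eq_or_ne z 0 with rfl | hz
  · exact ⟨0, LinearMap.ext fun w => by simp [ent_apply]⟩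
  have himg1 : D.img 1 x = D.N x 1 := by simp [img]
  have hP : Pair M (D.N x 1) (D.img g z) := by
    refine ⟨D.N_mul_N x 1 1, D.img_sq g z, ?_, fun t => ?_, fun t => ?_⟩
    · rw [D.finrank_range_img g hz, ← himg1, D.finrank_range_img 1 hx]
    · rw [← D.N_smul]; exact hC.left x t
    · have e : t • D.img g z = (g : Module.End F V) * D.N z (t • 1) *
          ((g⁻¹ : (Module.End F V)ˣ) : Module.End F V) := by
        rw [img, D.N_smul, mul_smul_comm, smul_mul_assoc]
      rw [e]; exact (hC.left z t).conj hg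
  have hTame : Tame M (D.N x 1) := by
    refine ⟨fun L hr hk hm => ?_, fun k hk r h1 h2 h3 => ?_⟩
    · obtain ⟨Y, rfl⟩ := D.exists_eq_N hx hr hk
      obtain ⟨c, rfl⟩ := hL x hx Y hm
      exact ⟨c, D.N_smul x c 1⟩
    · obtain ⟨ρ, hρ⟩ := D.exists_eq_N hx (L := r * D.N x 1)
        (by rw [← h2]; exact LinearMap.range_comp_le_range _ _)
        (fun v hv => by
          rw [LinearMap.mem_ker] at hv ⊢
          rw [Module.End.mul_apply, hv, map_zero])
      obtain ⟨c, rfl⟩ := hC.diag_scalar hL ha hx hk (h1.trans hρ) (h2.trans hρ) h3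
      exact ⟨c, hρ.trans (D.N_smul x c 1)⟩
  obtain ⟨c, hc⟩ := pairing_scalar hC.orth.two hP hTame
  refine ⟨c, LinearMap.ext fun w => ?_⟩
  obtain ⟨y, hy⟩ := D.exists_pair hx
  have := LinearMap.congr_fun hc (D.p y w)
  rw [Module.End.mul_apply, Module.End.mul_apply, LinearMap.smul_apply, N_apply, N_apply,
    D.i_surjective_apply hy, ← map_smul] at this
  simp only [Module.End.one_apply] at this
  have h' := D.p_injective hx this
  rw [← D.ent_img, ent_apply, LinearMap.smul_apply, Module.End.one_apply]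
  exact h'

end TD

end Cfsg.Agent.GeoLow.TensorSO
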