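import Cfsg.Agent.GeoLow.TensorSO.Data
import Cfsg.Agent.GeoLow.TensorSO.SL2Any

/-!
If all elation parameters are scalar, every entry of every element is a similitude or totally singular.
-/

set_option autoImplicit false
set_option linter.style.haveILetI false

namespace Cfsg.Agent.GeoLow.TensorSO

open Module Polynomial Cfsg.Agent.RootSub.SL2Gen

variable {F U W V : Type*} [Field F] [AddCommGroup U] [Module F U] [AddCommGroup W] [Module F W]
  [AddCommGroup V] [Module F V] {D : TD F U W V} {M : Subgroup (Module.End F V)ˣ}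

namespace TD

variable (D)

/-- All elation parameters are scalars. -/
def ScalarParams (M : Subgroup (Module.End F V)ˣ) : Prop :=
  ∀ z, z ≠ 0 → ∀ Y, Mem M (D.N z Y) → ∃ c : F, Y = c • (1 : Module.End F W)

/-- The image of a matrix of polynomials in the group of a pair of lines. -/
noncomputable def theta (g : (Module.End F V)ˣ) (x z : U) (a b c d : F[X]) : Module.End F V :=
  let A := D.ent (g : Module.End F V) x z
  let B := D.ent ((g⁻¹ : (Module.End F V)ˣ) : Module.End F V) z x
  let gm : Module.End F V := g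
  let gi : Module.End F V := ((g⁻¹ : (Module.End F V)ˣ) : Module.End F V)
  D.p x ∘ₗ (aeval (A * B) a * A) ∘ₗ D.i z ∘ₗ gi + D.p x ∘ₗ aeval (A * B) b ∘ₗ D.i x +
    gm ∘ₗ D.p z ∘ₗ aeval (B * A) c ∘ₗ D.i z ∘ₗ gi + gm ∘ₗ D.p z ∘ₗ (B * aeval (A * B) d) ∘ₗ D.i x

/-- The products of opposite entries are scalars. -/
def EntScalar (M : Subgroup (Module.End F V)ˣ) : Prop :=
  ∀ g ∈ M, ∀ x z : U, ∃ c : F,
    D.ent (g : Module.End F V) x z * D.ent ((g⁻¹ : (Module.End F V)ˣ) : Module.End F V) z x = c • 1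

variable {D}

lemma aeval_swap (A B : Module.End F W) (q : F[X]) :
    A * aeval (B * A) q = aeval (A * B) q * A := by
  induction q using Polynomial.induction_on' with
  | add r s hr hs => rw [map_add, map_add, mul_add, add_mul, hr, hs]
  | monomial n c =>
    rw [aeval_monomial, aeval_monomial, ← mul_assoc, ← Algebra.commutes c A, mul_assoc, mul_assoc]
    congr 1
    induction n with
    | zero => simp
    | succ n ih => rw [pow_succ, ← mul_assoc, ih, pow_succ, mul_assoc, mul_assoc, mul_assoc]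

lemma theta_mul (g : (Module.End F V)ˣ) (x z : U) (a b c d a' b' c' d' : F[X]) :
    D.theta g x z a b c d * D.theta g x z a' b' c' d' =
      D.theta g x z (X * a * a' + b * c') (X * (a * b' + b * d')) (X * (c * a' + d * c'))
        (X * d * d' + c * b') := by
  refine LinearMap.ext fun v => ?_
  set A := D.ent (g : Module.End F V) x z with hA
  set B := D.ent ((g⁻¹ : (Module.End F V)ˣ) : Module.End F V) z x with hB
  have hgi : ∀ u, ((g⁻¹ : (Module.End F V)ˣ) : Module.End F V) ((g : Module.End F V) u) = u :=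
    fun u => LinearMap.congr_fun (Units.inv_mul g) u
  have e1 : ∀ u, D.i x (D.p x u) = 0 := fun u => by rw [D.i_p, D.om_self, zero_smul]
  have e2 : ∀ u, D.i z (((g⁻¹ : (Module.End F V)ˣ) : Module.End F V)
      ((g : Module.End F V) (D.p z u))) = 0 := fun u => by rw [hgi, D.i_p, D.om_self, zero_smul]
  have e3 : ∀ u, D.i x ((g : Module.End F V) (D.p z u)) = A u := fun u => rfl
  have e4 : ∀ u, D.i z (((g⁻¹ : (Module.End F V)ˣ) : Module.End F V) (D.p x u)) = B u :=
    fun u => rfl
  have sA : ∀ q u, A (aeval (B * A) q u) = aeval (A * B) q (A u) := fun q u =>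
    LinearMap.congr_fun (aeval_swap A B q) u
  have sB : ∀ q u, B (aeval (A * B) q u) = aeval (B * A) q (B u) := fun q u =>
    LinearMap.congr_fun (aeval_swap B A q) u
  have hX : ∀ u, aeval (A * B) (X : F[X]) u = A (B u) := fun u => by rw [aeval_X]; rfl
  have hX' : ∀ u, aeval (B * A) (X : F[X]) u = B (A u) := fun u => by rw [aeval_X]; rfl
  simp only [theta, ← hA, ← hB, Module.End.mul_apply, LinearMap.add_apply, LinearMap.comp_apply,
    map_add, e1, e2, e3, e4, map_zero, add_zero, zero_add, map_mul, aeval_X]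
  simp only [sA, sB]
  abel

/-- The image of a polynomial matrix group is in `M`. -/
lemma exists_theta_mem (hC : D.Ctx M) {g : (Module.End F V)ˣ} (hg : g ∈ M) (x z : U)
    {h : Matrix.SpecialLinearGroup (Fin 2) F[X]} (hh : h ∈ gam F (X : F[X])) :
    ∃ a b c d, h 0 0 = 1 + X * a ∧ h 0 1 = b ∧ h 1 0 = X * c ∧ h 1 1 = 1 + X * d ∧
      Mem M (D.theta g x z a b c d) := by
  have mul : ∀ h h' : Matrix.SpecialLinearGroup (Fin 2) F[X],
      (∃ a b c d, h 0 0 = 1 + X * a ∧ h 0 1 = b ∧ h 1 0 = X * c ∧ h 1 1 = 1 + X * d ∧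
        Mem M (D.theta g x z a b c d)) →
      (∃ a b c d, h' 0 0 = 1 + X * a ∧ h' 0 1 = b ∧ h' 1 0 = X * c ∧ h' 1 1 = 1 + X * d ∧
        Mem M (D.theta g x z a b c d)) →
      ∃ a b c d, (h * h') 0 0 = 1 + X * a ∧ (h * h') 0 1 = b ∧ (h * h') 1 0 = X * c ∧
        (h * h') 1 1 = 1 + X * d ∧ Mem M (D.theta g x z a b c d) := by
    rintro h h' ⟨a, b, c, d, h1, h2, h3, h4, u, hu, hue⟩
      ⟨a', b', c', d', h1', h2', h3', h4', u', hu', hue'⟩
    refine ⟨a + a' + (X * a * a' + b * c'), b + b' + X * (a * b' + b * d'),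
      c + c' + X * (c * a' + d * c'), d + d' + (X * d * d' + c * b'), ?_, ?_, ?_, ?_,
      u * u', mul_mem hu hu', ?_⟩
    · rw [mul_entry, h1, h2, h1', h3']; ring
    · rw [mul_entry, h1, h2, h2', h4']; ring
    · rw [mul_entry, h3, h4, h1', h3']; ring
    · rw [mul_entry, h3, h4, h2', h4']; ring
    rw [Units.val_mul, hue, hue', mul_add, add_mul, add_mul, one_mul, one_mul, mul_one, theta_mul,
      add_assoc, add_assoc]
    congr 1
    refine LinearMap.ext fun v => ?_
    simp only [theta, LinearMap.add_apply, LinearMap.comp_apply, map_add, Module.End.mul_apply]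
    abel
  have hu : ∀ s : F, ∃ a b c d, (uu (C s) : Matrix.SpecialLinearGroup (Fin 2) F[X]) 0 0 = 1 + X * a ∧
      (uu (C s) : Matrix.SpecialLinearGroup (Fin 2) F[X]) 0 1 = b ∧
      (uu (C s) : Matrix.SpecialLinearGroup (Fin 2) F[X]) 1 0 = X * c ∧
      (uu (C s) : Matrix.SpecialLinearGroup (Fin 2) F[X]) 1 1 = 1 + X * d ∧
      Mem M (D.theta g x z a b c d) := fun s => by
    refine ⟨0, C s, 0, 0, by simp, by simp, by simp, by simp, ?_⟩
    convert hC.left x s using 1
    exact LinearMap.ext fun v => by simp [theta, N_apply, Module.algebraMap_end_apply]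
  have hv : ∀ s : F, ∃ a b c d,
      (vv (C s * X) : Matrix.SpecialLinearGroup (Fin 2) F[X]) 0 0 = 1 + X * a ∧
      (vv (C s * X) : Matrix.SpecialLinearGroup (Fin 2) F[X]) 0 1 = b ∧
      (vv (C s * X) : Matrix.SpecialLinearGroup (Fin 2) F[X]) 1 0 = X * c ∧
      (vv (C s * X) : Matrix.SpecialLinearGroup (Fin 2) F[X]) 1 1 = 1 + X * d ∧
      Mem M (D.theta g x z a b c d) := fun s => by
    refine ⟨0, 0, C s, 0, by simp, by simp, by simp [Polynomial.X_mul_C], by simp, ?_⟩
    convert (hC.left z s).conj hg using 1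
    exact LinearMap.ext fun v => by simp [theta, N_apply, Module.algebraMap_end_apply]
  induction hh using Subgroup.closure_induction_left with
  | one =>
    refine ⟨0, 0, 0, 0, by simp, by simp, by simp, by simp, ?_⟩
    convert Mem.zero (M := M) using 1
    exact LinearMap.ext fun v => by simp [theta]
  | mul_left x hx y _ hy =>
    rcases hx with ⟨s, rfl⟩ | ⟨s, rfl⟩
    · exact mul _ _ (hu s) hy
    · exact mul _ _ (hv s) hy
  | inv_mul_cancel x hx y _ hy =>
    rcases hx with ⟨s, rfl⟩ | ⟨s, rfl⟩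
    · refine mul _ _ ?_ hy
      have := hu (-s)
      rwa [C_neg, ← uu_inv] at this
    · refine mul _ _ ?_ hy
      have := hv (-s)
      rwa [C_neg, neg_mul, ← vv_inv] at this

/-- Upper parameters of a finite quotient give elation parameters. -/
lemma mem_of_upperSet (hC : D.Ctx M) {g : (Module.End F V)ˣ} (hg : g ∈ M) (x z : U) {m r : F[X]}
    (hm : aeval (D.ent (g : Module.End F V) x z *
      D.ent ((g⁻¹ : (Module.End F V)ˣ) : Module.End F V) z x) m = 0)
    (hm' : aeval (D.ent ((g⁻¹ : (Module.End F V)ˣ) : Module.End F V) z x *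
      D.ent (g : Module.End F V) x z) m = 0)
    (hr : AdjoinRoot.mk (X * m) r ∈ upperSet (gam F (AdjoinRoot.root (X * m)))) :
    Mem M (D.N x (aeval (D.ent (g : Module.End F V) x z *
      D.ent ((g⁻¹ : (Module.End F V)ˣ) : Module.End F V) z x) r)) := by
  set π : F[X] →ₐ[F] AdjoinRoot (X * m) := AdjoinRoot.mkₐ (X * m)
  have hroot : π X = AdjoinRoot.root (X * m) := AdjoinRoot.mk_X
  rw [mem_upperSet, ← hroot, ← map_gam F π X] at hr
  obtain ⟨h, hh, hhr⟩ := Subgroup.mem_map.1 hr
  obtain ⟨a, b, c, d, h00, h01, h10, h11, hmem⟩ := exists_theta_mem hC hg x z hh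
  have key : ∀ i j, X * m ∣ h i j - (uu r : Matrix.SpecialLinearGroup (Fin 2) F[X]) i j := by
    intro i j
    refine AdjoinRoot.mk_eq_mk.1 ?_
    show (π : F[X] →+* AdjoinRoot (X * m)) (h i j) = (π : F[X] →+* AdjoinRoot (X * m)) _
    rw [← map_entry, ← map_entry, hhr, map_uu]
    rfl
  obtain ⟨qa, hqa⟩ := key 0 0
  obtain ⟨qb, hqb⟩ := key 0 1
  obtain ⟨qc, hqc⟩ := key 1 0
  obtain ⟨qd, hqd⟩ := key 1 1
  simp [h00, h01, h10, h11] at hqa hqb hqc hqd
  have ha : a = m * qa := mul_left_cancel₀ X_ne_zero (by linear_combination hqa)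
  have hc : c = m * qc := mul_left_cancel₀ X_ne_zero (by linear_combination hqc)
  have hd : d = m * qd := mul_left_cancel₀ X_ne_zero (by linear_combination hqd)
  have hb : b = r + m * (X * qb) := by linear_combination hqb
  convert hmem using 1
  refine LinearMap.ext fun v => ?_
  simp [theta, N_apply, ha, hb, hc, hd, hm, hm']

variable [Finite F] [FiniteDimensional F W]

/-- With scalar parameters the products of opposite entries are scalar. -/
theorem Ctx.ent_mul_scalar (hC : D.Ctx M) (hL : D.ScalarParams M) (h3 : Nat.card F ≠ 3)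
    {g : (Module.End F V)ˣ} (hg : g ∈ M) (x z : U) :
    ∃ c : F, D.ent (g : Module.End F V) x z * D.ent ((g⁻¹ : (Module.End F V)ˣ) : Module.End F V) z x =
      c • 1 := by
  classical
  set A := D.ent (g : Module.End F V) x z with hA
  set B := D.ent ((g⁻¹ : (Module.End F V)ˣ) : Module.End F V) z x with hB
  rcases eq_or_ne x 0 with rfl | hx
  · exact ⟨0, LinearMap.ext fun w => by simp [hA, ent_apply]⟩
  set K := A * B with hK
  set K' := B * A with hK'
  have h2 := hC.orth.two
  have hgen : ∀ f : F[X], ∀ r : AdjoinRoot f, ∃ q : F[X], aeval (AdjoinRoot.root f) q = r := by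
    intro f r
    obtain ⟨q, rfl⟩ := AdjoinRoot.mk_surjective r
    exact ⟨q, AdjoinRoot.aeval_eq q⟩
  set m := minpoly F K * minpoly F K' with hmdef
  have hint : ∀ E : Module.End F W, IsIntegral F E := fun E => Algebra.IsIntegral.isIntegral E
  have hmon : (X * m).Monic :=
    monic_X.mul ((minpoly.monic (hint K)).mul (minpoly.monic (hint K')))
  have hm : aeval K m = 0 := by rw [hmdef, map_mul, minpoly.aeval, zero_mul]
  have hm' : aeval K' m = 0 := by rw [hmdef, map_mul, minpoly.aeval, mul_zero]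
  haveI : Module.Finite F (AdjoinRoot (X * m)) := hmon.finite_adjoinRoot
  haveI : Finite (AdjoinRoot (X * m)) := Module.finite_of_finite F
  obtain ⟨N, hN, he⟩ := exists_idempotent_pow (AdjoinRoot.root (X * m))
  have hup : ∀ s : F[X], AdjoinRoot.mk (X * m) (X ^ N * s) ∈
      upperSet (gam F (AdjoinRoot.root (X * m))) := fun s => by
    rw [map_mul, map_pow, AdjoinRoot.mk_X]
    exact mul_mem_upperSet h2 h3 (hgen _) hN he _
  obtain ⟨c, hc⟩ := hL x hx _ (mem_of_upperSet hC hg x z hm hm' (hup 1))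
  obtain ⟨c', hc'⟩ := hL x hx _ (mem_of_upperSet hC hg x z hm hm' (hup X))
  simp only [mul_one, map_pow, map_mul, aeval_X] at hc hc'
  rw [← hA, ← hB, ← hK] at hc hc'
  have hcc : c * c = c := by
    have h1 : AdjoinRoot.mk (X * m) (X ^ N * X ^ N) = AdjoinRoot.mk (X * m) (X ^ N) := by
      rw [map_mul, map_pow, AdjoinRoot.mk_X]; exact he
    obtain ⟨q, hq⟩ := AdjoinRoot.mk_eq_mk.1 h1
    have h2 := congrArg (aeval K) hq
    simp only [map_sub, map_mul, map_pow, aeval_X, hm, mul_zero, zero_mul, hc, smul_mul_assoc,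
      one_mul, smul_smul, ← sub_smul] at h2
    exact sub_eq_zero.1 ((smul_eq_zero.1 h2).resolve_right hC.one_ne_zero_W)
  rcases eq_or_ne c 0 with rfl | hc0
  · -- the nilpotent case
    have hKN : K ^ N = 0 := by rw [hc, zero_smul]
    have hKN' : K' ^ (N + 1) = 0 := by
      have : ∀ n, K' ^ (n + 1) = B * K ^ n * A := by
        intro n
        induction n with
        | zero => simp [hK']
        | succ n ih => rw [pow_succ, ih, hK', pow_succ (a := K), hK]; simp only [mul_assoc]
      rw [this, hKN, mul_zero, zero_mul]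
    have hmon' : (X * X ^ (N + 1) : F[X]).Monic := monic_X.mul (monic_X_pow _)
    haveI : Module.Finite F (AdjoinRoot (X * X ^ (N + 1) : F[X])) := hmon'.finite_adjoinRoot
    haveI : Finite (AdjoinRoot (X * X ^ (N + 1) : F[X])) := Module.finite_of_finite F
    have hnil : AdjoinRoot.root (X * X ^ (N + 1) : F[X]) ^ (N + 2) = 0 := by
      rw [← AdjoinRoot.mk_X, ← map_pow, AdjoinRoot.mk_eq_zero]
      exact ⟨1, by ring⟩
    obtain ⟨k, hk⟩ := hL x hx _ (mem_of_upperSet hC hg x z (m := X ^ (N + 1)) (r := X)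
      (by rw [map_pow, aeval_X, ← hA, ← hB, ← hK, pow_succ, hKN, zero_mul])
      (by rw [map_pow, aeval_X, ← hA, ← hB, ← hK', hKN'])
      (by rw [AdjoinRoot.mk_X]; exact self_mem_upperSet_of_nilpotent h2 hnil (hgen _)))
    exact ⟨k, by rwa [aeval_X] at hk⟩
  · have h1 : c = 1 := mul_left_cancel₀ hc0 (by rw [hcc, mul_one])
    refine ⟨c', ?_⟩
    rwa [hc, h1, one_smul, one_mul] at hc'

/-- With scalar parameters the products of opposite entries are scalar. -/
theorem Ctx.entScalar (hC : D.Ctx M) (hL : D.ScalarParams M) (h3 : Nat.card F ≠ 3) :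
    D.EntScalar M :=
  fun _ hg x z => hC.ent_mul_scalar hL h3 hg x z

omit [Finite F] [FiniteDimensional F W] in
/-- Entries multiply the form by scalars. -/
theorem Ctx.sim (hC : D.Ctx M) (hK : D.EntScalar M) {g : (Module.End F V)ˣ} (hg : g ∈ M) (x y : U) :
    ∃ c : F, ∀ w w', D.S (D.ent (g : Module.End F V) x y w) (D.ent (g : Module.End F V) x y w') =
      c * D.S w w' := by
  obtain ⟨c, hc⟩ := hK g⁻¹ (inv_mem hg) y x
  refine ⟨-c, fun w w' => ?_⟩
  rw [hC.adj hg, ← Module.End.mul_apply]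
  rw [inv_inv] at hc
  rw [hc, LinearMap.smul_apply, Module.End.one_apply, map_smul, LinearMap.smul_apply, smul_eq_mul,
    neg_mul]

end TD

end Cfsg.Agent.GeoLow.TensorSO
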