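import Cfsg.Agent.GeoLow.TensorSO.Quad

/-!
A two-dimensional symplectic factor and an orthogonal factor of dimension at least five: with scalar
parameters every element is a pure tensor. The pair argument is applied to a root element of the
orthogonal factor; this needs no assumption on the number of elements of the field.
-/

set_option autoImplicit false

namespace Cfsg.Agent.GeoLow.TensorSO

open Module Cfsg.Agent.MaxSub.QuadPair

variable {F U W V : Type*} [Field F] [AddCommGroup U] [Module F U] [AddCommGroup W] [Module F W]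
  [AddCommGroup V] [Module F V]

/-- Two orthogonal isotropic vectors, their duals and an anisotropic vector orthogonal to both. -/
structure Frame (S : LinearMap.BilinForm F W) where
  /-- the first isotropic vector -/
  e : W
  /-- the second isotropic vector -/
  f : W
  /-- the dual of the first -/
  e₂ : W
  /-- the dual of the second -/
  f₂ : W
  /-- the anisotropic vector -/
  n : W
  ee : S e e = 0
  ff : S f f = 0
  ef : S e f = 0
  ee₂ : S e e₂ = 1
  ff₂ : S f f₂ = 1
  ef₂ : S e f₂ = 0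
  fe₂ : S f e₂ = 0
  e₂e₂ : S e₂ e₂ = 0
  f₂f₂ : S f₂ f₂ = 0
  en : S e n = 0
  fn : S f n = 0
  nn : S n n ≠ 0

variable {S : LinearMap.BilinForm F W} (hS : Orth S)

/-- The form on the orthogonal complement of a hyperbolic pair. -/
def perpPair (S : LinearMap.BilinForm F W) (e e' : W) : Submodule F W :=
  LinearMap.ker ((S e).prod (S e'))

lemma mem_perpPair {e e' w : W} : w ∈ perpPair S e e' ↔ S e w = 0 ∧ S e' w = 0 := by
  simp [perpPair]

include hS

lemma orth_perpPair [FiniteDimensional F W] (h5 : 5 ≤ finrank F W) {e e' : W} (hee : S e e = 0)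
    (hee' : S e e' = 1) (he'e' : S e' e' = 0) : Orth (S.restrict (perpPair S e e')) := by
  refine ⟨fun x y => hS.symm _ _, fun x hx => Subtype.ext (hS.nd _ fun y => ?_), hS.two, ?_⟩
  · have he'e : S e' e = 1 := by rw [hS.symm]; exact hee'
    obtain ⟨h1, h2⟩ := mem_perpPair.1 x.2
    have h := hx ⟨y - S e' y • e - S e y • e', mem_perpPair.2 ⟨by simp [hee, hee'],
      by simp [he'e, he'e']⟩⟩
    have h1' : S (x : W) e = 0 := (hS.symm _ _).trans h1
    have h2' : S (x : W) e' = 0 := (hS.symm _ _).trans h2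
    simpa [LinearMap.BilinForm.restrict_apply, LinearMap.domRestrict_apply, h1', h2'] using h
  · have h := LinearMap.finrank_range_add_finrank_ker ((S e).prod (S e'))
    have h' := Submodule.finrank_le (LinearMap.range ((S e).prod (S e')))
    rw [Module.finrank_prod, Module.finrank_self] at h'
    show 3 ≤ finrank F (LinearMap.ker ((S e).prod (S e')))
    omega

lemma exists_frame [Finite F] [FiniteDimensional F W] (h5 : 5 ≤ finrank F W) :
    Nonempty (Frame S) := by
  obtain ⟨e, he, hee⟩ := exists_isotropic hS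
  obtain ⟨e', hee', he'e'⟩ := exists_partner hS he hee
  have hP := orth_perpPair hS h5 hee hee' he'e'
  obtain ⟨f, hf, hff⟩ := exists_isotropic hP
  obtain ⟨f', hff', hf'f'⟩ := exists_partner hP hf hff
  obtain ⟨n, hfn, hf'n, hnn⟩ := exists_perp_hyp hP hff hff' hf'f'
  obtain ⟨hef, he'f⟩ := mem_perpPair.1 f.2
  obtain ⟨hef', -⟩ := mem_perpPair.1 f'.2
  obtain ⟨hen, -⟩ := mem_perpPair.1 n.2
  exact ⟨⟨e, f, e', f', n, hee, hff, hef, hee', hff', hef', (hS.symm _ _).trans he'f, he'e', hf'f',
    hen, hfn, hnn⟩⟩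

/-- A vector orthogonal to all isotropic vectors vanishes. -/
lemma eq_zero_of_perp_isotropic [Finite F] {y : W} (h : ∀ v, S v v = 0 → S v y = 0) : y = 0 := by
  obtain ⟨e, he, hee⟩ := exists_isotropic hS
  obtain ⟨f, hef, hff⟩ := exists_partner hS he hee
  have hfe : S f e = 1 := by rw [hS.symm]; exact hef
  refine hS.zero_of_perp fun u => ?_
  set u₀ := u - S f u • e - S e u • f with hu₀
  have heu : S e u₀ = 0 := by simp [hu₀, hee, hef]
  have hfu : S f u₀ = 0 := by simp [hu₀, hff, hfe]
  have h2 := hS.two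
  have h1 := h (e + u₀ - (S u₀ u₀ / 2) • f) (by
    simp only [map_add, map_sub, map_smul, LinearMap.add_apply, LinearMap.sub_apply,
      LinearMap.smul_apply, hee, hff, hef, hfe, heu, hfu, hS.symm u₀ e, hS.symm u₀ f, smul_eq_mul]
    field_simp
    ring)
  simp only [map_add, map_sub, map_smul, LinearMap.add_apply, LinearMap.sub_apply,
    LinearMap.smul_apply, h e hee, h f hff, smul_zero, sub_zero, zero_add, hu₀] at h1
  exact h1

/-- An endomorphism mapping isotropic vectors orthogonally to their isotropic perps is scalar. -/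
lemma scalar_of_pairs [Finite F] [FiniteDimensional F W] (h5 : 5 ≤ finrank F W)
    {T : Module.End F W} (h : ∀ a b, S a a = 0 → S b b = 0 → S a b = 0 → S a (T b) = 0) :
    ∃ c : F, T = c • 1 := by
  refine (scalar_of_isotropic_eigen hS fun v hvv => ?_).imp fun c hc =>
    hc.trans (by rw [Module.End.one_eq_id])
  rcases eq_or_ne v 0 with rfl | hv
  · exact ⟨0, by simp⟩
  obtain ⟨v', hvv', hv'v'⟩ := exists_partner hS hv hvv
  have hP := orth_perpPair hS h5 hvv hvv' hv'v'
  have hv'v : S v' v = 1 := by rw [hS.symm]; exact hvv'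
  have hTv : S v (T v) = 0 := h v v hvv hvv hvv
  refine ⟨S v' (T v), sub_eq_zero.1 (congrArg Subtype.val (eq_zero_of_perp_isotropic hP
    (y := ⟨T v - S v' (T v) • v, mem_perpPair.2 ⟨by simp [hTv, hvv], by simp [hv'v]⟩⟩)
    fun w hw => ?_))⟩
  obtain ⟨h1, -⟩ := mem_perpPair.1 w.2
  have hwv : S (w : W) v = 0 := by rw [hS.symm]; exact h1
  show S (w : W) (T v - S v' (T v) • v) = 0
  rw [map_sub, map_smul, hwv, h (w : W) v hw hvv hwv, smul_zero, sub_zero]

omit hS

namespace Frame

variable (fr : Frame S)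

/-- The same frame with the two lines exchanged. -/
def swap (hS : Orth S) : Frame S where
  e := fr.f
  f := fr.e
  e₂ := fr.f₂
  f₂ := fr.e₂
  n := fr.n
  ee := fr.ff
  ff := fr.ee
  ef := (hS.symm _ _).trans fr.ef
  ee₂ := fr.ff₂
  ff₂ := fr.ee₂
  ef₂ := fr.fe₂
  fe₂ := fr.ef₂
  e₂e₂ := fr.f₂f₂
  f₂f₂ := fr.e₂e₂
  en := fr.fn
  fn := fr.en
  nn := fr.nn

/-- The root map of the plane. -/
def X : Module.End F W := (S fr.e).smulRight fr.f - (S fr.f).smulRight fr.e

/-- The other root map of the first line. -/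
def Y : Module.End F W :=
  (S fr.e).smulRight (fr.n - (S fr.n fr.n / 2) • fr.e) - (S fr.n).smulRight fr.e

/-- The coefficient of the product of the two root maps on the left. -/
def P : Module.End F W := -((S fr.f).smulRight fr.f₂)

/-- The coefficient of the product of the two root maps on the right. -/
def Q : Module.End F W := (S fr.f₂).smulRight fr.f

lemma X_apply (w : W) : fr.X w = S fr.e w • fr.f - S fr.f w • fr.e := by simp [X]

lemma Y_apply (w : W) :
    fr.Y w = S fr.e w • (fr.n - (S fr.n fr.n / 2) • fr.e) - S fr.n w • fr.e := by simp [Y]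

lemma swap_X (hS : Orth S) : (fr.swap hS).X = -fr.X := by
  simp [X, swap]

include hS

lemma fe : S fr.f fr.e = 0 := (hS.symm _ _).trans fr.ef
lemma ne : S fr.n fr.e = 0 := (hS.symm _ _).trans fr.en
lemma nf : S fr.n fr.f = 0 := (hS.symm _ _).trans fr.fn
lemma e₂e : S fr.e₂ fr.e = 1 := (hS.symm _ _).trans fr.ee₂
lemma e₂f : S fr.e₂ fr.f = 0 := (hS.symm _ _).trans fr.fe₂
lemma f₂e : S fr.f₂ fr.e = 0 := (hS.symm _ _).trans fr.ef₂
lemma f₂f : S fr.f₂ fr.f = 1 := (hS.symm _ _).trans fr.ff₂

omit hS in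
lemma X_e₂ : fr.X fr.e₂ = fr.f := by simp [X_apply, fr.ee₂, fr.fe₂]

omit hS in
lemma X_f₂ : fr.X fr.f₂ = -fr.e := by simp [X_apply, fr.ef₂, fr.ff₂]

lemma X_skew : Skew S fr.X := fun w w' => by
  simp [X_apply, hS.symm w fr.e, hS.symm w fr.f]; ring

lemma X_sq : fr.X * fr.X = 0 := LinearMap.ext fun w => by
  simp [X_apply, fr.ee, fr.ef, fr.fe hS, fr.ff]

lemma X_ne_zero : fr.X ≠ 0 := fun h => by
  have h1 := fr.X_e₂
  rw [h, LinearMap.zero_apply] at h1
  have := fr.f₂f hS
  rw [← h1, map_zero] at this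
  exact zero_ne_one this

lemma X_mul_Y : fr.X * fr.Y = 0 := LinearMap.ext fun w => by
  simp [X_apply, Y_apply, fr.ee, fr.en, fr.fn, fr.fe hS]

lemma Y_mul_X : fr.Y * fr.X = 0 := LinearMap.ext fun w => by
  simp [X_apply, Y_apply, fr.ee, fr.ef, fr.ne hS, fr.nf hS]

lemma Y_factor : fr.Y = fr.X * (S fr.n).smulRight fr.f₂ +
    (S fr.f₂).smulRight (fr.n - (S fr.n fr.n / 2) • fr.e) * fr.X := LinearMap.ext fun w => by
  simp [X_apply, Y_apply, fr.ef₂, fr.ff₂, fr.f₂e hS, fr.f₂f hS]
  abel

lemma Y_iso : ∃ k', (1 + fr.Y) * k' = 1 ∧ Iso S (1 + fr.Y) := by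
  have h2 := hS.two
  refine ⟨1 - fr.Y + fr.Y * fr.Y, LinearMap.ext fun w => ?_, fun x y => ?_⟩
  · simp [Y_apply, fr.ee, fr.en, fr.ne hS]
    module
  · simp [Y_apply, fr.ee, fr.en, fr.ne hS, hS.symm x fr.e, hS.symm x fr.n]
    field_simp
    ring

/-- The product of the root maps of the two lines. -/
lemma Y_mul_swap : fr.Y * (fr.swap hS).Y = (-S fr.n fr.n) • (fr.X * fr.P) := LinearMap.ext fun w => by
  simp [Y_apply, X_apply, P, swap, fr.ef, fr.en, fr.ef₂, fr.ff₂, fr.nf hS, smul_smul]
  module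

/-- The product of the root maps of the two lines in the other order. -/
lemma swap_mul_Y : (fr.swap hS).Y * fr.Y = (-S fr.n fr.n) • (fr.Q * fr.X) := LinearMap.ext fun w => by
  simp [Y_apply, X_apply, Q, swap, fr.fe hS, fr.fn, fr.ne hS, fr.f₂e hS, fr.f₂f hS, smul_smul]
  module

lemma X_mul_P_add : fr.X * fr.P + fr.X * (fr.swap hS).P = -fr.X := LinearMap.ext fun w => by
  simp [X_apply, P, swap, fr.ef₂, fr.ff₂, fr.ee₂, fr.fe₂]
  abel

lemma Q_add_mul_X : fr.Q * fr.X + (fr.swap hS).Q * fr.X = fr.X := LinearMap.ext fun w => by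
  simp [X_apply, Q, swap, fr.e₂e hS, fr.e₂f hS, fr.f₂e hS, fr.f₂f hS]
  abel

omit hS

end Frame

namespace TD

variable {D : TD F U W V} {M : Subgroup (Module.End F V)ˣ}

lemma N_mul_mul_N (z : U) (L : Module.End F V) :
    D.N z 1 * L * D.N z 1 = D.N z (D.ent L z z) :=
  LinearMap.ext fun v => by simp [N_apply, ent_apply]

variable (hC : D.Ctx M)
include hC

/-- The entries of a square-zero member are adjoint in pairs. -/
lemma Ctx.adj_of_mem {n : Module.End F V} (hn : Mem M n) (hsq : n * n = 0) (x y : U) (w w' : W) :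
    D.S w (D.ent n x y w') = D.S (D.ent n y x w) w' := by
  obtain ⟨g, hg, hge⟩ := hn
  have h := hC.adj hg x y w w'
  simp only [inv_eq_one_sub hge hsq, hge, ent_add, ent_sub, ent_one, LinearMap.add_apply,
    LinearMap.sub_apply, LinearMap.smul_apply, Module.End.one_apply, map_add, map_sub, map_smul,
    smul_eq_mul] at h
  rw [D.om_skew x y] at h
  linear_combination h

variable (fr : Frame D.S)

lemma Ctx.root_mem (t : F) : Mem M (t • D.act fr.X) := by
  have hX2 := fr.X_sq hC.orth
  have h1 : (1 + t • fr.X) * (1 - t • fr.X) = (1 : Module.End F W) := by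
    rw [add_mul, one_mul, mul_sub, mul_one, smul_mul_smul_comm, hX2, smul_zero, sub_zero,
      sub_add_cancel]
  obtain ⟨g, hg, hge⟩ := hC.right _ _ h1 fun x y => by
    have hz : fr.X (fr.X y) = 0 := LinearMap.congr_fun hX2 y
    simp [fr.X_skew hC.orth x, hz]
  exact ⟨g, hg, by rw [hge, map_add, map_one, map_smul]⟩

lemma Ctx.root_sq : D.act fr.X * D.act fr.X = 0 := by
  rw [← map_mul, fr.X_sq hC.orth, map_zero]

variable [Finite F] [FiniteDimensional F U] [FiniteDimensional F W] [FiniteDimensional F V]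

omit [Finite F] [FiniteDimensional F W] [FiniteDimensional F V] in
/-- The members between the range and the kernel of the root element are its multiples. -/
lemma Ctx.root_class (hL : D.ScalarParams M) (hU : finrank F U = 2) {L : Module.End F V}
    (hr : ∀ v, ∃ u, L v = D.act fr.X u) (hk : ∀ v, D.act fr.X v = 0 → L v = 0) (hm : Mem M L) :
    ∃ c : F, L = c • D.act fr.X := by
  have hS := hC.orth
  set N := D.act fr.X with hN
  have hNN : N * N = 0 := hC.root_sq fr
  have hmul : ∀ {K K' : Module.End F V}, (∀ v, N v = 0 → K v = 0) → (∀ v, ∃ u, K' v = N u) →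
      K * K' = 0 := fun hK hK' => LinearMap.ext fun v => by
    obtain ⟨u, hu⟩ := hK' v
    rw [Module.End.mul_apply, hu, hK _ (LinearMap.congr_fun hNN u), LinearMap.zero_apply]
  have hLL : L * L = 0 := hmul hk hr
  have hdiag : ∀ z, D.ent L z z = 0 := by
    intro z
    rcases eq_or_ne z 0 with rfl | hz
    · exact LinearMap.ext fun w => by simp [ent_apply]
    set T := D.N z 1 with hT
    have hTT : T * T = 0 := D.N_mul_N z 1 1
    have hTN : T * N = N * T := by rw [hT, hN, D.N_mul_act, D.act_mul_N, one_mul, mul_one]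
    have hconj : ∀ t : F, ∃ K, Mem M K ∧ (∀ v, ∃ u, K v = N u) ∧ (∀ v, N v = 0 → K v = 0) ∧
        K = L + t • (T * L - L * T) - (t * t) • (T * L * T) := by
      intro t
      obtain ⟨g, hg, hge⟩ := hC.left z t
      rw [D.N_smul, ← hT] at hge
      have hgi := inv_eq_one_sub hge (by rw [smul_mul_smul_comm, hTT, smul_zero])
      refine ⟨_, hm.conj hg, fun v => ?_, fun v hv => ?_, ?_⟩
      · obtain ⟨u, hu⟩ := hr (((g⁻¹ : (Module.End F V)ˣ) : Module.End F V) v)
        refine ⟨(g : Module.End F V) u, ?_⟩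
        rw [Module.End.mul_apply, Module.End.mul_apply, hu, ← Module.End.mul_apply,
          ← Module.End.mul_apply, hge, add_mul, mul_add, one_mul, mul_one, smul_mul_assoc,
          mul_smul_comm, hTN]
      · rw [Module.End.mul_apply, Module.End.mul_apply, hk _ ?_, map_zero]
        rw [hgi, LinearMap.sub_apply, Module.End.one_apply, map_sub, hv, LinearMap.smul_apply,
          map_smul, ← Module.End.mul_apply, ← hTN, Module.End.mul_apply, hv, map_zero, smul_zero,
          sub_zero]
      · rw [hge, hgi, mul_sub, add_mul, mul_one, one_mul, smul_mul_assoc, mul_smul_comm, add_mul,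
          smul_mul_assoc, smul_sub, smul_add, smul_smul]
        abel
    obtain ⟨K₁, m₁, r₁, k₁, e₁⟩ := hconj 1
    obtain ⟨K₂, m₂, r₂, k₂, e₂⟩ := hconj (-1)
    have hmem : Mem M (D.N z ((-2 : F) • D.ent L z z)) := by
      have h : Mem M (K₁ + K₂ + -L + -L) := by
        refine ((m₁.add m₂ (hmul k₁ r₂)).add (hm.neg hLL) ?_).add (hm.neg hLL) ?_
        · rw [mul_neg, add_mul, hmul k₁ hr, hmul k₂ hr, add_zero, neg_zero]
        · rw [mul_neg, add_mul, add_mul, hmul k₁ hr, hmul k₂ hr, neg_mul, hLL]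
          simp
      convert h using 1
      rw [e₁, e₂, D.N_smul, ← D.N_mul_mul_N, ← hT]
      module
    obtain ⟨c, hc⟩ := hL z hz _ hmem
    have hz0 : D.ent L z z fr.e = 0 := by
      rw [ent_apply, hk _ ?_, map_zero]
      rw [hN, D.act_p, Frame.X_apply, fr.ee, fr.fe hS]
      simp
    have he0 : fr.e ≠ 0 := fun h => by
      have := fr.ee₂
      rw [h, map_zero, LinearMap.zero_apply] at this
      exact zero_ne_one this
    have h1 := LinearMap.congr_fun hc fr.e
    rw [LinearMap.smul_apply, hz0, smul_zero, LinearMap.smul_apply, Module.End.one_apply] at h1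
    rw [(smul_eq_zero.1 h1.symm).resolve_right he0, zero_smul] at hc
    exact (smul_eq_zero.1 hc).resolve_left (neg_ne_zero.2 hS.two)
  have : Nontrivial U := Module.nontrivial_of_finrank_pos (R := F) (by omega)
  obtain ⟨e₀, he₀⟩ := exists_ne (0 : U)
  obtain ⟨f₀, hef⟩ := D.exists_pair he₀
  set R₀ := D.ent L e₀ f₀ with hR₀
  have hR10 : D.ent L f₀ e₀ = -R₀ := by
    have h := hdiag (e₀ + f₀)
    rw [ent_add_left, ent_add_right, ent_add_right, hdiag, hdiag, zero_add, add_zero] at h
    exact eq_neg_of_add_eq_zero_right h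
  have hexp : ∀ x, x = D.om x f₀ • e₀ - D.om x e₀ • f₀ := by
    have hinj : Function.Injective ((D.om.flip f₀).prod (D.om.flip e₀)) := by
      refine (LinearMap.injective_iff_surjective_of_finrank_eq_finrank
        (by rw [hU, Module.finrank_prod, Module.finrank_self])).2 fun ⟨a, b⟩ =>
        ⟨a • e₀ - b • f₀, ?_⟩
      simp [hef, D.om_self, D.om_skew e₀ f₀]
    intro x
    refine hinj ?_
    simp [hef, D.om_self, D.om_skew e₀ f₀]
  have hall : ∀ x y, D.ent L x y = D.om x y • R₀ := fun x y => by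
    conv_lhs => rw [hexp x, hexp y]
    conv_rhs => rw [hexp x, hexp y]
    simp only [sub_eq_add_neg, ← neg_smul, ent_add_left, ent_add_right, ent_smul_left,
      ent_smul_right, hdiag, hR10, ← hR₀, map_add, map_smul, LinearMap.add_apply,
      LinearMap.smul_apply, D.om_self, hef, D.om_skew e₀ f₀, smul_eq_mul]
    module
  have hskew : Skew D.S R₀ := fun w w' => by
    have h := hC.adj_of_mem hm hLL e₀ f₀ w w'
    rw [hR10, ← hR₀, LinearMap.neg_apply, map_neg, LinearMap.neg_apply] at h
    linear_combination h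
  have hker : ∀ w, fr.X w = 0 → R₀ w = 0 := fun w hw => by
    rw [hR₀, ent_apply, hk _ (by rw [hN, D.act_p, hw, map_zero]), map_zero]
  have hrange : ∀ w, ∃ z, R₀ w = fr.X z := fun w => by
    obtain ⟨u, hu⟩ := hr (D.p f₀ w)
    exact ⟨D.i e₀ u, by rw [hR₀, ent_apply, hu, hN, D.i_act]⟩
  obtain ⟨z₁, hz₁⟩ := hrange fr.e₂
  obtain ⟨z₂, hz₂⟩ := hrange fr.f₂
  rw [Frame.X_apply] at hz₁ hz₂
  have hself : ∀ w, D.S (R₀ w) w = 0 := fun w => by
    have h := hskew w w
    rw [hS.symm w (R₀ w)] at h
    exact mul_left_cancel₀ hS.two (by linear_combination h)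
  have hb : D.S fr.f z₁ = 0 := by
    have h := hself fr.e₂
    simpa [hz₁, fr.fe₂, fr.ee₂] using h
  have ha' : D.S fr.e z₂ = 0 := by
    have h := hself fr.f₂
    simpa [hz₂, fr.ff₂, fr.ef₂] using h
  have hab : D.S fr.e z₁ = D.S fr.f z₂ := by
    have h := hskew fr.e₂ fr.f₂
    simpa [hz₁, hz₂, fr.ff₂, fr.ef₂, fr.e₂e hS, fr.e₂f hS] using h
  refine ⟨D.S fr.e z₁, D.ext_ent fun x y => ?_⟩
  rw [hall, ent_smul, ent_act, smul_comm]
  congr 1
  refine LinearMap.ext fun w => ?_
  have h := hker (w - D.S fr.e w • fr.e₂ - D.S fr.f w • fr.f₂) (by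
    simp [Frame.X_apply, fr.ee₂, fr.ef₂, fr.fe₂, fr.ff₂])
  rw [map_sub, map_sub, map_smul, map_smul, hz₁, hz₂, hb, ha', ← hab, zero_smul, zero_smul] at h
  rw [LinearMap.smul_apply, Frame.X_apply]
  linear_combination (norm := module) h

omit [Finite F] [FiniteDimensional F W] [FiniteDimensional F V] in
/-- Half of the condition on the elements normalising the root element. -/
lemma Ctx.diag_half (hL : D.ScalarParams M) (hU : finrank F U = 2) {g : (Module.End F V)ˣ}
    (hg : g ∈ M) {r : Module.End F V} (h1 : (g : Module.End F V) * D.act fr.X = r * D.act fr.X)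
    (h2 : D.act fr.X * ((g⁻¹ : (Module.End F V)ˣ) : Module.End F V) = r * D.act fr.X)
    (h3 : ∀ v, D.act fr.X v = 0 → (g : Module.End F V) v - v ∈ LinearMap.range (D.act fr.X)) :
    ∃ c : F, r * D.act fr.X * D.act fr.P - D.act fr.Q * (r * D.act fr.X) = c • D.act fr.X := by
  have hS := hC.orth
  set N := D.act fr.X with hN
  set gm : Module.End F V := (g : Module.End F V) with hgm
  set gi : Module.End F V := ((g⁻¹ : (Module.End F V)ˣ) : Module.End F V) with hgi
  have hNN : N * N = 0 := hC.root_sq fr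
  have hker : ∀ v, N v = 0 → N (gi v) = 0 ∧ ∃ u, gi v = v + N u := fun v hv => by
    have h0 : N (gi v) = 0 := by
      rw [← Module.End.mul_apply, h2, Module.End.mul_apply, hv, map_zero]
    obtain ⟨u, hu⟩ := h3 _ h0
    rw [hgm, hgi, ← Module.End.mul_apply, Units.mul_inv, Module.End.one_apply, ← hgi] at hu
    exact ⟨h0, -u, by rw [map_neg, hu]; abel⟩
  have hsub : ∀ {A B : Module.End F V}, A * N = 0 → N * B = 0 →
      A * gm * B = A * B ∧ A * gi * B = A * B := fun {A B} hA hB => by
    refine ⟨LinearMap.ext fun v => ?_, LinearMap.ext fun v => ?_⟩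
    · obtain ⟨u, hu⟩ := h3 (B v) (LinearMap.congr_fun hB v)
      have := LinearMap.congr_fun hA u
      rw [Module.End.mul_apply, hu, LinearMap.zero_apply, map_sub, sub_eq_zero] at this
      exact this
    · obtain ⟨-, u, hu⟩ := hker (B v) (LinearMap.congr_fun hB v)
      have := LinearMap.congr_fun hA u
      rw [Module.End.mul_apply, LinearMap.zero_apply] at this
      rw [Module.End.mul_apply, Module.End.mul_apply, hu, map_add, this, add_zero,
        Module.End.mul_apply]
  -- maps from everything to the kernel to the range to zero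
  have hrad : ∀ fr' : Frame D.S, fr'.X = fr.X ∨ fr'.X = -fr.X → N * D.act fr'.Y = 0 ∧
      D.act fr'.Y * N = 0 ∧ ∀ v, N v = 0 → ∃ u, D.act fr'.Y v = N u := by
    intro fr' h
    have e1 := fr'.X_mul_Y hS
    have e2 := fr'.Y_mul_X hS
    have e3 := fr'.Y_factor hS
    rcases h with h | h <;> rw [h] at e1 e2 e3
    · refine ⟨by rw [hN, ← map_mul, e1, map_zero], by rw [hN, ← map_mul, e2, map_zero],
        fun v hv => ⟨D.act ((D.S fr'.n).smulRight fr'.f₂) v, ?_⟩⟩
      rw [e3, map_add, map_mul, map_mul, ← hN, LinearMap.add_apply, Module.End.mul_apply,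
        Module.End.mul_apply, hv, map_zero, add_zero]
    · rw [neg_mul, neg_eq_zero] at e1
      rw [mul_neg, neg_eq_zero] at e2
      refine ⟨by rw [hN, ← map_mul, e1, map_zero], by rw [hN, ← map_mul, e2, map_zero],
        fun v hv => ⟨-(D.act ((D.S fr'.n).smulRight fr'.f₂) v), ?_⟩⟩
      rw [e3, neg_mul, mul_neg, map_add, map_neg, map_neg, map_mul, map_mul, ← hN,
        LinearMap.add_apply, LinearMap.neg_apply, LinearMap.neg_apply, Module.End.mul_apply,
        Module.End.mul_apply, hv, map_zero, neg_zero, add_zero, map_neg]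
  obtain ⟨hY1, hY2, hY3⟩ := hrad fr (Or.inl rfl)
  obtain ⟨hB1, hB2, hB3⟩ := hrad (fr.swap hS) (Or.inr (fr.swap_X hS))
  set Ye := D.act fr.Y with hYe
  set B := D.act (fr.swap hS).Y with hB
  set A := gm * Ye * gi with hA
  have hA1 : N * A = 0 := by
    rw [hA, ← mul_assoc, ← mul_assoc, (hsub hNN hY1).1, hY1, zero_mul]
  have hA2 : A * N = 0 := by
    rw [hA, mul_assoc, mul_assoc, ← mul_assoc Ye, (hsub hY2 hNN).2, hY2, mul_zero]
  have hA3 : ∀ v, N v = 0 → ∃ u, A v = N u := fun v hv => by
    obtain ⟨u, hu⟩ := hY3 _ (hker v hv).1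
    obtain ⟨u', hu'⟩ := h3 (N u) (LinearMap.congr_fun hNN u)
    exact ⟨u + u', by rw [hA, Module.End.mul_apply, Module.End.mul_apply, hu, map_add, hu']; abel⟩
  have hAm : Mem M A := by
    obtain ⟨k', hk', hiso⟩ := fr.Y_iso hS
    obtain ⟨a, ha, hae⟩ := hC.right _ _ hk' hiso
    exact Mem.conj ⟨a, ha, by rw [hae, map_add, map_one]⟩ hg
  have hBm : Mem M B := by
    obtain ⟨k', hk', hiso⟩ := (fr.swap hS).Y_iso hS
    obtain ⟨a, ha, hae⟩ := hC.right _ _ hk' hiso
    exact ⟨a, ha, by rw [hae, map_add, map_one]⟩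
  -- triple products vanish
  have htriple : ∀ {X Y Z : Module.End F V}, X * N = 0 → (∀ v, N v = 0 → ∃ u, Y v = N u) →
      N * Z = 0 → X * Y * Z = 0 := fun {X Y Z} hX hY hZ => LinearMap.ext fun v => by
    obtain ⟨u, hu⟩ := hY (Z v) (LinearMap.congr_fun hZ v)
    rw [Module.End.mul_apply, Module.End.mul_apply, hu]
    exact LinearMap.congr_fun hX u
  set C := A * B - B * A with hCdef
  have hCm : Mem M C := by
    obtain ⟨a, ha, hae⟩ := hAm
    obtain ⟨b, hb, hbe⟩ := hBm
    refine ⟨a * b * (b * a)⁻¹, mul_mem (mul_mem ha hb) (inv_mem (mul_mem hb ha)), ?_⟩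
    rw [Units.val_mul, Units.mul_inv_eq_iff_eq_mul, Units.val_mul, Units.val_mul, hae, hbe]
    have c1 : C * A = 0 := by
      rw [hCdef, sub_mul, htriple hA2 hB3 hA1, htriple hB2 hA3 hA1, sub_zero]
    have c2 : C * B = 0 := by
      rw [hCdef, sub_mul, htriple hA2 hB3 hB1, htriple hB2 hA3 hB1, sub_zero]
    rw [show (1 + C) * ((1 + B) * (1 + A)) = 1 + B + A + B * A + C + C * B + C * A + C * B * A by
      noncomm_ring, c2, c1, zero_mul, hCdef]
    noncomm_ring
  obtain ⟨c, hc⟩ := hC.root_class fr hL hU (L := C) (fun v => by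
      obtain ⟨u, hu⟩ := hA3 (B v) (LinearMap.congr_fun hB1 v)
      obtain ⟨u', hu'⟩ := hB3 (A v) (LinearMap.congr_fun hA1 v)
      exact ⟨u - u', by rw [map_sub, ← hu, ← hu']; rfl⟩)
    (fun v hv => by
      obtain ⟨u, hu⟩ := hB3 v hv
      obtain ⟨u', hu'⟩ := hA3 v hv
      show A (B v) - B (A v) = 0
      rw [hu, hu', show A (N u) = (A * N) u from rfl, show B (N u') = (B * N) u' from rfl, hA2, hB2,
        LinearMap.zero_apply, LinearMap.zero_apply, sub_zero])
    hCm
  have hAB : A * B = (-D.S fr.n fr.n) • (r * N * D.act fr.P) := by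
    rw [hA, mul_assoc gm, mul_assoc gm, (hsub hY2 hB1).2, hYe, hB, ← map_mul, fr.Y_mul_swap hS,
      map_smul, mul_smul_comm, map_mul, ← mul_assoc, ← hN, h1]
  have hBA : B * A = (-D.S fr.n fr.n) • (D.act fr.Q * (r * N)) := by
    rw [hA, ← mul_assoc, ← mul_assoc, (hsub hB2 hY1).1, hYe, hB, ← map_mul, fr.swap_mul_Y hS,
      map_smul, smul_mul_assoc, map_mul, mul_assoc, ← hN, h2]
  refine ⟨(-D.S fr.n fr.n)⁻¹ * c, ?_⟩
  rw [mul_smul, ← hc, hCdef, hAB, hBA, ← smul_sub, inv_smul_smul₀ (neg_ne_zero.2 fr.nn)]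

omit [Finite F] [FiniteDimensional F W] [FiniteDimensional F V] in
/-- The root element is tame. -/
lemma Ctx.tame (hL : D.ScalarParams M) (hU : finrank F U = 2) : Tame M (D.act fr.X) := by
  have hS := hC.orth
  set N := D.act fr.X with hN
  refine ⟨fun L hr hk hm => hC.root_class fr hL hU (fun v => ?_) (fun v hv => hk hv) hm,
    fun g hg r h1 h2 h3 => ?_⟩
  · obtain ⟨u, hu⟩ := hr (LinearMap.mem_range_self L v)
    exact ⟨u, hu.symm⟩
  have hN' : D.act (fr.swap hS).X = -N := by rw [fr.swap_X hS, map_neg, hN]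
  obtain ⟨c, hc⟩ := hC.diag_half fr hL hU hg h1 h2 h3
  obtain ⟨c', hc'⟩ := hC.diag_half (fr.swap hS) hL hU hg (r := r)
    (by rw [hN', mul_neg, mul_neg, h1]) (by rw [hN', neg_mul, mul_neg, h2]) (fun v hv => by
      rw [hN', LinearMap.neg_apply, neg_eq_zero] at hv
      rw [hN', LinearMap.range_neg]
      exact h3 v hv)
  rw [hN', mul_neg, neg_mul, mul_neg, smul_neg, ← neg_sub', neg_inj] at hc'
  rw [← hN] at hc
  have hP : r * N * D.act fr.P + r * N * D.act (fr.swap hS).P = -(r * N) := by
    rw [mul_assoc, mul_assoc, ← mul_add, hN, ← map_mul, ← map_mul, ← map_add, fr.X_mul_P_add hS,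
      map_neg, mul_neg]
  have hQ : D.act fr.Q * (r * N) + D.act (fr.swap hS).Q * (r * N) = r * N :=
    LinearMap.ext fun v => by
      obtain ⟨u, hu⟩ := h3 (N v) (LinearMap.congr_fun (hC.root_sq fr) v)
      have hrv : (r * N) v = N (u + v) := by
        rw [← h1, Module.End.mul_apply, map_add, hu, sub_add_cancel]
      rw [LinearMap.add_apply, Module.End.mul_apply (D.act fr.Q),
        Module.End.mul_apply (D.act (fr.swap hS).Q), hrv, hN,
        ← Module.End.mul_apply, ← Module.End.mul_apply, ← map_mul, ← map_mul, ← LinearMap.add_apply,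
        ← map_add, fr.Q_add_mul_X hS]
  refine ⟨-(2 : F)⁻¹ * (c + c'), ?_⟩
  have hsum : -((2 : F) • (r * N)) = (c + c') • N := by
    rw [add_smul, ← hc, ← hc', two_smul]
    linear_combination (norm := abel) -hP + hQ
  rw [mul_smul, ← hsum, neg_smul, smul_neg, neg_neg, inv_smul_smul₀ hS.two]

/-- The pairing of the root element with a conjugate is scalar. -/
lemma Ctx.pairing (hL : D.ScalarParams M) (hU : finrank F U = 2) {g : (Module.End F V)ˣ}
    (hg : g ∈ M) (x y : U) : ∃ κ : F, fr.X * D.ent ((g : Module.End F V) * D.act fr.X *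
      ((g⁻¹ : (Module.End F V)ˣ) : Module.End F V)) x y * fr.X = (κ * D.om x y) • fr.X := by
  set n' := (g : Module.End F V) * D.act fr.X * ((g⁻¹ : (Module.End F V)ˣ) : Module.End F V)
  have hP : Pair M (D.act fr.X) n' := by
    refine ⟨hC.root_sq fr, ?_, ?_, fun t => hC.root_mem fr t, fun t => ?_⟩
    · simp only [n', mul_assoc, Units.inv_mul_cancel_left]
      rw [← mul_assoc (D.act fr.X), hC.root_sq fr, zero_mul, mul_zero]
    · have e : n' = (g : Module.End F V) ∘ₗ (D.act fr.X ∘ₗ
          ((g⁻¹ : (Module.End F V)ˣ) : Module.End F V)) := rfl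
      rw [e, LinearMap.range_comp]
      exact (Submodule.finrank_map_le _ _).trans
        (Submodule.finrank_mono (LinearMap.range_comp_le_range _ _))
    · have e : t • n' = (g : Module.End F V) * (t • D.act fr.X) *
          ((g⁻¹ : (Module.End F V)ˣ) : Module.End F V) := by
        simp only [n', mul_smul_comm, smul_mul_assoc]
      rw [e]
      exact (hC.root_mem fr t).conj hg
  obtain ⟨κ, hκ⟩ := pairing_scalar hC.orth.two hP (hC.tame fr hL hU)
  refine ⟨κ, ?_⟩
  have h := congrArg (fun m => D.ent m x y) hκ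
  simpa only [ent_mul_act, ent_act_mul, ent_smul, ent_act, smul_smul] using h

/-- With scalar parameters, a two-dimensional first factor and a second one of dimension at least
five, every element is a pure tensor. -/
theorem Ctx.pure_of_siegel (hL : D.ScalarParams M) (hU : finrank F U = 2) (hW : 5 ≤ finrank F W)
    {g : (Module.End F V)ˣ} (hg : g ∈ M) :
    ∃ (C : Module.End F U) (h : Module.End F W),
      ∀ x w, (g : Module.End F V) (D.p x w) = D.p (C x) (h w) := by
  classical
  have hS := hC.orth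
  obtain ⟨fr⟩ := exists_frame hS hW
  let conj : (Module.End F V)ˣ → U → U → Module.End F W := fun g x y =>
    D.ent ((g : Module.End F V) * D.act fr.X * ((g⁻¹ : (Module.End F V)ˣ) : Module.End F V)) x y
  have hadj : ∀ g ∈ M, ∀ x y w w', D.S w (conj g x y w') = D.S (conj g y x w) w' :=
    fun g hg x y => by
      have hm := (hC.root_mem fr 1).conj hg
      rw [one_smul] at hm
      refine hC.adj_of_mem hm ?_ x y
      simp only [mul_assoc, Units.inv_mul_cancel_left]
      rw [← mul_assoc (D.act fr.X), hC.root_sq fr, zero_mul, mul_zero]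
  have hrefl : ∀ g ∈ M, ∀ u, D.S u u ≠ 0 → ∃ h ∈ M, ∀ x y v w,
      D.S (refl D.S u v) (conj g x y (refl D.S u w)) = D.S v (conj h x y w) := by
    intro g hg u hu
    obtain ⟨R, hR, hRe, hRi⟩ := hC.right_refl hu
    refine ⟨R * g, mul_mem hR hg, fun x y v w => ?_⟩
    have hconj : conj (R * g) x y = refl D.S u * conj g x y * refl D.S u := by
      simp only [conj, mul_inv_rev, Units.val_mul, hRe, hRi]
      rw [← D.ent_act_mul, ← D.ent_mul_act]
      simp only [mul_assoc]
    rw [hconj, Module.End.mul_apply, Module.End.mul_apply]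
    conv_rhs => rw [← refl_iso hS hu, refl_refl hu]
  -- the diagonal vanishes on the isotropic vectors
  have hiso : ∀ a, D.S a a = 0 → ∀ g ∈ M, ∀ x y, D.S a (conj g x y a) = 0 := by
    intro a ha
    rcases eq_or_ne a 0 with rfl | ha0
    · intros; simp
    have he0 : fr.e ≠ 0 := fun h => by
      have := fr.ee₂
      rw [h, map_zero, LinearMap.zero_apply] at this
      exact zero_ne_one this
    refine isotropic_induction hS (P := fun a => ∀ g ∈ M, ∀ x y, D.S a (conj g x y a) = 0)
      (fun u v hu hv g hg x y => ?_) he0 fr.ee (fun g hg x y => ?_) ha0 ha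
    · obtain ⟨h, hh, hhe⟩ := hrefl g hg u hu
      rw [hhe]
      exact hv h hh x y
    · obtain ⟨κ, hκ⟩ := hC.pairing fr hL hU hg x y
      have h := congrArg (D.S fr.f₂) (LinearMap.congr_fun hκ fr.f₂)
      simpa [Module.End.mul_apply, Frame.X_apply, fr.ef₂, fr.ff₂, fr.f₂e hS, fr.f₂f hS,
        fr.fe hS] using h
  -- off the form also the skew part vanishes
  have hpair : ∀ a b, D.S a a = 0 → D.S b b = 0 → D.S a b = 0 → ∀ g ∈ M, ∀ x y,
      D.om x y = 0 → D.S a (conj g x y b) = 0 := by
    have he0 : fr.e ≠ 0 := fun h => by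
      have := fr.ee₂
      rw [h, map_zero, LinearMap.zero_apply] at this
      exact zero_ne_one this
    intro a b ha hb hab
    rcases eq_or_ne a 0 with rfl | ha0
    · intros; simp
    refine isotropic_induction hS (P := fun a => ∀ b, D.S b b = 0 → D.S a b = 0 → ∀ g ∈ M, ∀ x y,
      D.om x y = 0 → D.S a (conj g x y b) = 0)
      (fun u v hu hv b hb hvb g hg x y hxy => ?_) he0 fr.ee ?_ ha0 ha b hb hab
    · obtain ⟨h, hh, hhe⟩ := hrefl g hg u hu
      rw [← refl_refl hu b, hhe]
      refine hv _ (by rwa [refl_iso hS hu]) ?_ h hh x y hxy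
      rw [← refl_iso hS hu v, refl_refl hu]
      exact hvb
    intro b hb heb g hg x y hxy
    have hP := orth_perpPair hS hW fr.ee fr.ee₂ fr.e₂e₂
    set b₀ := b - D.S fr.e₂ b • fr.e with hb₀
    have hb₀P : b₀ ∈ perpPair D.S fr.e fr.e₂ := mem_perpPair.2
      ⟨by simp [hb₀, heb, fr.ee], by simp [hb₀, fr.e₂e hS]⟩
    have hb₀b : D.S b₀ b₀ = 0 := by simp [hb₀, hb, heb, fr.ee, hS.symm b fr.e]
    suffices D.S fr.e (conj g x y b₀) = 0 by
      have h := this
      rw [hb₀, map_sub, map_smul, map_sub, map_smul, hiso fr.e fr.ee g hg x y, smul_zero,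
        sub_zero] at h
      exact h
    rcases eq_or_ne b₀ 0 with h0 | h0
    · simp [h0]
    have hf : (⟨fr.f, mem_perpPair.2 ⟨fr.ef, fr.e₂f hS⟩⟩ : perpPair D.S fr.e fr.e₂) ≠ 0 :=
      fun h => by
        have hh : fr.f = 0 := congrArg Subtype.val h
        have := fr.ff₂
        rw [hh, map_zero, LinearMap.zero_apply] at this
        exact zero_ne_one this
    refine isotropic_induction hP
      (P := fun c => ∀ g ∈ M, ∀ x y, D.om x y = 0 → D.S fr.e (conj g x y (c : W)) = 0)
      (fun u v hu hv g hg x y hxy => ?_) hf fr.ff (fun g hg x y hxy => ?_)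
      (w := ⟨b₀, hb₀P⟩) (fun h => h0 (congrArg Subtype.val h)) hb₀b g hg x y hxy
    · have hu' : D.S (u : W) u ≠ 0 := hu
      have hfix : refl D.S (u : W) fr.e = fr.e :=
        refl_of_perp ((hS.symm _ _).trans (mem_perpPair.1 u.2).1)
      have hr : ((refl (D.S.restrict (perpPair D.S fr.e fr.e₂)) u v :
          perpPair D.S fr.e fr.e₂) : W) = refl D.S (u : W) v := by
        simp [refl_apply]
      obtain ⟨h, hh, hhe⟩ := hrefl g hg u hu'
      have := hhe x y fr.e (v : W)
      rw [hfix] at this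
      rw [hr, this]
      exact hv h hh x y hxy
    · obtain ⟨κ, hκ⟩ := hC.pairing fr hL hU hg x y
      rw [hxy, mul_zero, zero_smul] at hκ
      have h := congrArg (D.S fr.f₂) (LinearMap.congr_fun hκ fr.e₂)
      simpa [Module.End.mul_apply, Frame.X_apply, fr.ee₂, fr.fe₂, fr.f₂e hS, fr.f₂f hS,
        fr.ef] using h
  -- every conjugate of the root element acts on the second factor
  have hright : ∀ g ∈ M, ∃ S', (g : Module.End F V) * D.act fr.X *
      ((g⁻¹ : (Module.End F V)ˣ) : Module.End F V) = D.act S' := by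
    intro g hg
    set n' := (g : Module.End F V) * D.act fr.X * ((g⁻¹ : (Module.End F V)ˣ) : Module.End F V)
      with hn'
    have hsq : n' * n' = 0 := by
      simp only [hn', mul_assoc, Units.inv_mul_cancel_left]
      rw [← mul_assoc (D.act fr.X), hC.root_sq fr, zero_mul, mul_zero]
    have hsum : ∀ x y, ∃ c : F, D.ent n' x y + D.ent n' y x = c • 1 := fun x y =>
      scalar_of_pairs hS hW fun a b ha hb hab => by
        have h := hiso (a + b) (by simp [ha, hb, hab, hS.symm b a]) g hg x y
        simp only [conj, ← hn', map_add, LinearMap.add_apply] at h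
        have e1 := hiso a ha g hg x y
        have e2 := hiso b hb g hg x y
        simp only [conj, ← hn'] at e1 e2
        have e3 := hadj g hg x y b a
        simp only [conj, ← hn'] at e3
        rw [hS.symm (D.ent n' y x b)] at e3
        rw [LinearMap.add_apply, map_add]
        linear_combination h - e1 - e2 - e3
    have hzero : ∀ x y, D.om x y = 0 → D.ent n' x y - D.ent n' y x = 0 := fun x y hxy => by
      have hyx : D.om y x = 0 := by rw [D.om_skew, hxy, neg_zero]
      obtain ⟨c, hc⟩ := scalar_of_pairs hS hW (T := D.ent n' x y)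
        fun a b ha hb hab => hpair a b ha hb hab g hg x y hxy
      obtain ⟨c', hc'⟩ := scalar_of_pairs hS hW (T := D.ent n' y x)
        fun a b ha hb hab => hpair a b ha hb hab g hg y x hyx
      obtain ⟨u, hu⟩ := exists_aniso hS
      have h := hadj g hg x y u u
      simp only [conj, ← hn', hc, hc', LinearMap.smul_apply, Module.End.one_apply, map_smul,
        smul_eq_mul] at h
      rw [hc, hc', mul_right_cancel₀ hu h, sub_self]
    rcases hC.split hsq (fun x y => hadj g hg x y) hsum hzero with hl | ⟨S', -, hS'⟩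
    · exfalso
      have hne : n' ≠ 0 := fun h => by
        have h' := congrArg (fun m => ((g⁻¹ : (Module.End F V)ˣ) : Module.End F V) * m *
          (g : Module.End F V)) h
        simp only [hn', mul_assoc, Units.inv_mul_cancel_left, Units.inv_mul, mul_one, mul_zero,
          zero_mul] at h'
        have : Nontrivial U := Module.nontrivial_of_finrank_pos (R := F) (by omega)
        obtain ⟨e₀, he₀⟩ := exists_ne (0 : U)
        obtain ⟨f₀, hef⟩ := D.exists_pair he₀
        have h'' := congrArg (fun m => D.ent m e₀ f₀) h'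
        simp only [ent_act, hef, one_smul, ent_zero] at h''
        exact fr.X_ne_zero hS h''
      obtain ⟨z', hz', hle⟩ := D.exists_range_p_le hl hne
      have h1 := Submodule.finrank_mono hle
      rw [LinearMap.finrank_range_of_inj (D.p_injective hz')] at h1
      have h2 : finrank F (LinearMap.range n') ≤ 4 := by
        have e : n' = (g : Module.End F V) ∘ₗ (D.act fr.X ∘ₗ
            ((g⁻¹ : (Module.End F V)ˣ) : Module.End F V)) := rfl
        rw [e, LinearMap.range_comp]
        refine (Submodule.finrank_map_le _ _).trans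
          ((Submodule.finrank_mono (LinearMap.range_comp_le_range _ _)).trans ?_)
        rw [D.finrank_range_act, hU]
        suffices finrank F (LinearMap.range fr.X) ≤ 2 by omega
        refine (Submodule.finrank_mono
          (?_ : LinearMap.range fr.X ≤ Submodule.span F {fr.f, fr.e})).trans ?_
        · rintro _ ⟨w, rfl⟩
          rw [Frame.X_apply]
          exact Submodule.sub_mem _ (Submodule.smul_mem _ _ (Submodule.subset_span (by simp)))
            (Submodule.smul_mem _ _ (Submodule.subset_span (by simp)))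
        · have h5 := finrank_span_finset_le_card (R := F) ({fr.f, fr.e} : Finset W)
          rw [Finset.coe_pair, Set.finrank] at h5
          exact h5.trans Finset.card_le_two
      omega
    · exact ⟨S', hS'⟩
  -- conclusion
  refine hC.pure_of_left hg ?_
  have hu : D.S (fr.e + fr.e₂) (fr.e + fr.e₂) ≠ 0 := by
    simp [fr.ee, fr.ee₂, fr.e₂e hS, fr.e₂e₂, one_add_one_eq_two, hS.two]
  have hXu : fr.X (fr.e + fr.e₂) ≠ 0 := fun h => by
    have := congrArg (D.S fr.f₂) h
    simp [Frame.X_apply, fr.ee, fr.ee₂, fr.fe hS, fr.fe₂, fr.f₂f hS] at this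
  have h := hC.isLeft_of_orbit (g := g⁻¹) (fr.X_skew hS)
    (fun w => LinearMap.congr_fun (fr.X_sq hS) w) hu hXu fun k k' h1 h1' hk => by
      obtain ⟨R, hR, hRe⟩ := hC.right k k' h1 hk
      have hRi : ((R⁻¹ : (Module.End F V)ˣ) : Module.End F V) = D.act k' :=
        Units.inv_eq_of_mul_eq_one_right (by rw [hRe, ← map_mul, h1, map_one])
      obtain ⟨S', hS'⟩ := hright (g⁻¹ * R) (mul_mem (inv_mem hg) hR)
      refine ⟨S', ?_⟩
      rw [← hS', mul_inv_rev, Units.val_mul, Units.val_mul, hRe, hRi, map_mul, map_mul]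
      simp only [mul_assoc]
  rwa [inv_inv] at h

end TD

end Cfsg.Agent.GeoLow.TensorSO
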