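import Cfsg.Agent.GeoLow.TensorSO.Quad

/-!
Three elements, a plane tensor an orthogonal space of dimension four of minus type: the image of a
copy of the plane has its contractions in a plane.
-/

set_option autoImplicit false
set_option linter.style.haveILetI false

namespace Cfsg.Agent.GeoLow.TensorSO

open Module Polynomial Cfsg.Agent.RootSub.SL2Gen

variable {F U W V : Type*} [Field F] [AddCommGroup U] [Module F U] [AddCommGroup W] [Module F W]
  [AddCommGroup V] [Module F V]

/-- The hypotheses of this special case. -/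
structure TFT (D : TD F U W V) (M : Subgroup (Module.End F V)ˣ) : Prop where
  ctx : D.Ctx M
  scal : D.ScalarParams M
  dimU : finrank F U = 2
  three : (3 : F) = 0
  sq : ∀ x : F, x ≠ 0 → x * x = 1
  minus : ∀ W₀ : Submodule F W, finrank F W₀ = 2 → ∃ p ∈ W₀, ∃ q ∈ W₀, D.S p q ≠ 0

/-- An element of the polynomial group congruent to the identity at `0` and to its negative at
`κ`, in characteristic three. -/
lemma exists_poly {k : Type*} [Field k] (h3 : (3 : k) = 0) {κ : k}
    (hκ2 : κ * κ = 1) :
    ∃ h : Matrix.SpecialLinearGroup (Fin 2) k[X], h ∈ gam k (X : k[X]) ∧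
      (∃ q : k[X], h 0 0 = 1 + X * q ∧ q.eval κ = κ) ∧ (∃ q : k[X], h 0 1 = X * q ∧ q.eval κ = 0) ∧
      (∃ q : k[X], h 1 0 = X * (X * q) ∧ q.eval κ = 0) ∧ (∃ q : k[X], h 1 1 = 1 + X * q ∧ q.eval κ = κ) := by
  set w : Matrix.SpecialLinearGroup (Fin 2) k[X] := uu 1 * vv (C κ * X) with hw
  set G := w * w * uu 1 with hG
  have h1 : (uu 1 : Matrix.SpecialLinearGroup (Fin 2) k[X]) ∈ gam k (X : k[X]) := by
    simpa using uu_mem_gam k (X : k[X]) 1
  have hwm : w ∈ gam k (X : k[X]) := mul_mem h1 (vv_mem_gam k (X : k[X]) κ)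
  have h3' : (3 : k[X]) = 0 := by rw [← map_ofNat C, h3, map_zero]
  set N : Matrix (Fin 2) (Fin 2) k[X] := !![C κ * C κ * X, C κ + C κ * C κ * X;
    2 * C κ + C κ * C κ * X, C κ * C κ * X] with hN
  have hGm : (G : Matrix (Fin 2) (Fin 2) k[X]) = 1 + (X : k[X]) • N := by
    refine Matrix.ext fun i j => ?_
    fin_cases i <;> fin_cases j <;> simp [hG, hw, hN, mul_entry]
    · linear_combination (C κ * X) * h3'
    · linear_combination (1 + C κ * X) * h3'
    · ring
    · linear_combination (C κ * X) * h3'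
  have hG3 : ((G ^ 3 : Matrix.SpecialLinearGroup (Fin 2) k[X]) : Matrix (Fin 2) (Fin 2) k[X]) =
      1 + (X : k[X]) ^ 3 • N ^ 3 := by
    rw [Matrix.SpecialLinearGroup.coe_pow, hGm, ← _root_.smul_pow]
    generalize (X : k[X]) • N = Y
    calc (1 + Y) ^ 3 = 1 + Y ^ 3 + (3 : ℕ) • (Y + Y * Y) := by
          simp only [pow_succ, pow_zero, one_mul]; noncomm_ring
      _ = 1 + Y ^ 3 := by
          rw [← Nat.cast_smul_eq_nsmul k[X], show ((3 : ℕ) : k[X]) = 3 from rfl, h3', zero_smul,
            add_zero]
  have hNev : (N ^ 3).map (evalRingHom κ) = κ • (1 : Matrix (Fin 2) (Fin 2) k) := by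
    rw [← RingHom.mapMatrix_apply, map_pow, RingHom.mapMatrix_apply]
    have : N.map (evalRingHom κ) = κ • !![1, 2; 0, 1] := by
      refine Matrix.ext fun i j => ?_
      fin_cases i <;> fin_cases j <;> simp [hN]
      · linear_combination κ * hκ2
      · linear_combination κ * hκ2
      · linear_combination κ * hκ2 + κ * h3
      · linear_combination κ * hκ2
    rw [this, _root_.smul_pow,
      show κ ^ 3 = κ by linear_combination κ * hκ2]
    congr 1
    refine Matrix.ext fun i j => ?_
    fin_cases i <;> fin_cases j <;> simp [pow_succ, Matrix.mul_apply, Fin.sum_univ_two]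
    linear_combination (2 : k) * h3
  have hev : ∀ i j, ((N ^ 3) i j).eval κ = (κ • (1 : Matrix (Fin 2) (Fin 2) k)) i j := fun i j => by
    rw [← hNev]; rfl
  refine ⟨G ^ 3, pow_mem (mul_mem (mul_mem hwm hwm) h1) 3, ⟨X ^ 2 * (N ^ 3) 0 0, ?_, ?_⟩,
    ⟨X ^ 2 * (N ^ 3) 0 1, ?_, ?_⟩, ⟨X * (N ^ 3) 1 0, ?_, ?_⟩, ⟨X ^ 2 * (N ^ 3) 1 1, ?_, ?_⟩⟩
  all_goals first
    | (simp only [eval_mul, eval_pow, eval_X, hev]; simp; done)
    | (simp only [eval_mul, eval_pow, eval_X, hev]; simp; linear_combination κ * hκ2)
    | (rw [hG3]; simp; ring)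

namespace TFT

variable {D : TD F U W V} {M : Subgroup (Module.End F V)ˣ} (h : TFT D M)
include h

/-- The expansion in two vectors of the plane. -/
lemma expand {e f : U} (hef : D.om e f ≠ 0) (x : U) :
    D.om e f • x = D.om x f • e - D.om x e • f := by
  haveI : FiniteDimensional F U := Module.finite_of_finrank_pos (by rw [h.dimU]; norm_num)
  have hind : LinearIndependent F ![e, f] := by
    rw [LinearIndependent.pair_iff]
    intro s t hst
    have h1 := congrArg (D.om e) hst
    have h2 := congrArg (fun z => D.om z f) hst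
    simp [D.om_self, hef] at h1 h2
    exact ⟨h2, h1⟩
  have hs : x ∈ Submodule.span F (Set.range ![e, f]) := by
    rw [hind.span_eq_top_of_card_eq_finrank (by simp [h.dimU])]; exact Submodule.mem_top
  simp only [Matrix.range_cons, Matrix.range_empty, Set.union_empty, Set.union_singleton,
    Set.pair_comm f e] at hs
  obtain ⟨α, β, rfl⟩ := Submodule.mem_span_pair.1 hs
  simp [D.om_self, D.om_skew e f]
  module

/-- A vector from its contractions. -/
lemma decomp {e f : U} (hef : D.om e f = 1) (v : V) :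
    v = D.p f (D.i e v) - D.p e (D.i f v) := by
  refine sub_eq_zero.1 (D.ext_i _ fun x => ?_)
  have hx := h.expand (e := e) (f := f) (by rw [hef]; exact one_ne_zero) x
  rw [hef, one_smul] at hx
  rw [map_sub, map_sub, D.i_p, D.i_p, sub_eq_zero]
  conv_lhs => rw [hx]
  simp

lemma ker_i {x : U} (hx : x ≠ 0) {v : V} (hv : D.i x v = 0) : ∃ w, v = D.p x w := by
  obtain ⟨y, hy⟩ := D.exists_pair hx
  exact ⟨-(D.i y v), by rw [map_neg]; exact (h.decomp hy v).trans (by rw [hv, map_zero, zero_sub])⟩

/-- The involution of an image of a copy of the plane. -/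
lemma conj_refl {g : (Module.End F V)ˣ} (hg : g ∈ M) {u : W} (hu : D.S u u ≠ 0) {y₁ y₂ : U}
    (hy : D.om y₁ y₂ ≠ 0) (v : V) :
    (g : Module.End F V) (D.act (refl D.S u) (((g⁻¹ : (Module.End F V)ˣ) : Module.End F V) v)) =
      v - (2 / (D.S u u * D.om y₁ y₂)) •
        (D.Om v ((g : Module.End F V) (D.p y₂ u)) • (g : Module.End F V) (D.p y₁ u) -
          D.Om v ((g : Module.End F V) (D.p y₁ u)) • (g : Module.End F V) (D.p y₂ u)) := by
  have hC := h.ctx
  set v₀ := ((g⁻¹ : (Module.End F V)ˣ) : Module.End F V) v with hv₀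
  have hv : v = (g : Module.End F V) v₀ := (LinearMap.congr_fun (Units.mul_inv g) v).symm
  have key : D.act (refl D.S u) v₀ = v₀ - (2 / (D.S u u * D.om y₁ y₂)) •
      (D.Om v₀ (D.p y₂ u) • D.p y₁ u - D.Om v₀ (D.p y₁ u) • D.p y₂ u) := by
    refine sub_eq_zero.1 (D.ext_i _ fun x => ?_)
    have hx := congrArg (fun z => D.S u (D.i z v₀)) (h.expand hy x)
    simp only [map_smul, map_sub, LinearMap.smul_apply, LinearMap.sub_apply, smul_eq_mul] at hx
    rw [map_sub, D.i_act, refl_apply]
    simp only [map_sub, map_smul, D.i_p, D.Om_skew (D.p y₂ u), D.Om_skew (D.p y₁ u), D.Om_p]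
    match_scalars
    · ring
    · field_simp
      linear_combination -2 * hx
  rw [key, hv]
  simp only [map_sub, map_smul, hC.pres g hg]

set_option maxHeartbeats 1000000 in
/-- The image of a copy of the plane is pure or has its contractions in a plane. -/
theorem plane_cases [Finite F] [FiniteDimensional F W] {g : (Module.End F V)ˣ} (hg : g ∈ M) {u : W}
    (hu : D.S u u ≠ 0) :
    (∃ w, ∀ y, ∃ z, (g : Module.End F V) (D.p y u) = D.p z w) ∨
    ∃ a b, D.S a a ≠ 0 ∧ D.S b b ≠ 0 ∧ D.S a b = 0 ∧
      ∀ y x, ∃ α β : F, D.i x ((g : Module.End F V) (D.p y u)) = α • a + β • b := by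
  classical
  have hC := h.ctx
  have hS := hC.orth
  have h2 := hS.two
  haveI : FiniteDimensional F U := Module.finite_of_finrank_pos (by rw [h.dimU]; norm_num)
  obtain ⟨R, hR, hRe, hRi⟩ := hC.right_refl hu
  set su : (Module.End F V)ˣ := g * R * g⁻¹ with hsu
  have hsm : su ∈ M := mul_mem (mul_mem hg hR) (inv_mem hg)
  set s : Module.End F V := (su : Module.End F V) with hs
  have hsi : ((su⁻¹ : (Module.End F V)ˣ) : Module.End F V) = s := by
    rw [hs, hsu, mul_inv_rev, mul_inv_rev, inv_inv, Units.val_mul, Units.val_mul, Units.val_mul,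
      Units.val_mul, hRe, hRi, mul_assoc]
  have hss : s * s = 1 := by
    have := Units.mul_inv su
    rwa [hsi] at this
  have hsapp : ∀ v, s v = (g : Module.End F V)
      (D.act (refl D.S u) (((g⁻¹ : (Module.End F V)ˣ) : Module.End F V) v)) := fun v => by
    rw [hs, hsu, Units.val_mul, Units.val_mul, hRe]; rfl
  set Φ : U →ₗ[F] V := (g : Module.End F V) ∘ₗ D.p.flip u with hΦ
  have hΦapp : ∀ y, Φ y = (g : Module.End F V) (D.p y u) := fun y => rfl
  have hu0 : u ≠ 0 := fun h0 => hu (by rw [h0]; simp)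
  have hΦinj : ∀ y, Φ y = 0 → y = 0 := fun y hy => D.eq_zero_of_p
    ((LinearMap.GeneralLinearGroup.generalLinearEquiv F V g).map_eq_zero_iff.1 hy) hu0
  obtain ⟨e, he⟩ : ∃ e : U, e ≠ 0 := by
    haveI := Module.nontrivial_of_finrank_pos (R := F) (M := U) (by rw [h.dimU]; norm_num)
    exact exists_ne 0
  obtain ⟨f, hef⟩ := D.exists_pair he
  have hΦOm : D.Om (Φ e) (Φ f) = D.S u u := by
    rw [hΦapp, hΦapp, hC.pres g hg, D.Om_p, D.i_p, hef, one_smul]
  have hsub : ∀ v, ∃ y, s v - v = Φ y := fun v => by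
    rw [hsapp, h.conj_refl hg hu (y₁ := e) (y₂ := f) (by rw [hef]; exact one_ne_zero)]
    refine ⟨-((2 / (D.S u u * D.om e f)) • (D.Om v ((g : Module.End F V) (D.p f u)) • e -
      D.Om v ((g : Module.End F V) (D.p e u)) • f)), ?_⟩
    simp only [map_neg, map_smul, map_sub, hΦapp, LinearMap.neg_apply, LinearMap.smul_apply,
      LinearMap.sub_apply]
    module
  have hneg : ∀ y, s (Φ y) = -Φ y := fun y => by
    rw [hsapp, hΦapp, show ((g⁻¹ : (Module.End F V)ˣ) : Module.End F V)
      ((g : Module.End F V) (D.p y u)) = D.p y u from LinearMap.congr_fun (Units.inv_mul g) _,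
      D.act_p, refl_self hu, map_neg, map_neg]
  have hAdef : ∀ x w, D.ent s x x w = D.i x (s (D.p x w) - D.p x w) := fun x w => by
    rw [map_sub, D.i_p, D.om_self, zero_smul, sub_zero, TD.ent_apply]
  by_cases hall : ∀ x, D.ent s x x = 0
  · -- pure
    left
    have hline : ∀ x, x ≠ 0 → ∃ y, y ≠ 0 ∧ D.i x (Φ y) = 0 := by
      intro x hx
      by_contra hc
      push Not at hc
      have hfix : ∀ w, s (D.p x w) = D.p x w := fun w => by
        obtain ⟨y, hy⟩ := hsub (D.p x w)
        by_contra hne
        refine hc y (fun h0 => hne (sub_eq_zero.1 (by rw [hy, h0, map_zero]))) ?_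
        rw [← hy, ← hAdef, hall]; rfl
      have hperp : ∀ y, D.i x (Φ y) = 0 := fun y => hS.zero_of_perp fun w => by
        have h1 := hC.pres su hsm (D.p x w) (Φ y)
        rw [← hs, hfix, hneg, map_neg, D.Om_p] at h1
        exact mul_left_cancel₀ h2 (by linear_combination -h1)
      obtain ⟨w₁, hw₁⟩ := h.ker_i hx (hperp e)
      rw [hw₁, D.Om_p, hperp, map_zero] at hΦOm
      exact hu hΦOm.symm
    obtain ⟨ye, hye0, hye⟩ := hline e he
    have hf0 : f ≠ 0 := by rintro rfl; simp at hef
    obtain ⟨yf, hyf0, hyf⟩ := hline f hf0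
    obtain ⟨ae, hae⟩ := h.ker_i he hye
    obtain ⟨af, haf⟩ := h.ker_i hf0 hyf
    have hfe : D.om f e = -1 := by rw [D.om_skew, hef]
    have hind : LinearIndependent F ![ye, yf] := by
      rw [LinearIndependent.pair_iff]
      intro a b hab
      have h1 := congrArg (fun y => D.i e (Φ y)) hab
      have h3 := congrArg (fun y => D.i f (Φ y)) hab
      simp only [map_add, map_smul, hae, haf, D.i_p, D.om_self, hef, hfe, zero_smul, smul_zero,
        zero_add, add_zero, one_smul, map_zero, neg_smul, smul_neg, neg_eq_zero] at h1 h3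
      have hb : b = 0 := (smul_eq_zero.1 h1).resolve_right fun h0 =>
        hyf0 (hΦinj _ (by rw [haf, h0, map_zero]))
      have ha : a = 0 := (smul_eq_zero.1 h3).resolve_right fun h0 =>
        hye0 (hΦinj _ (by rw [hae, h0, map_zero]))
      exact ⟨ha, hb⟩
    have hspan : ∀ y, ∃ a b : F, y = a • ye + b • yf := fun y => by
      have hs' : y ∈ Submodule.span F (Set.range ![ye, yf]) := by
        rw [hind.span_eq_top_of_card_eq_finrank (by simp [h.dimU])]; exact Submodule.mem_top
      simp only [Matrix.range_cons, Matrix.range_empty, Set.union_empty, Set.union_singleton,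
        Set.pair_comm yf ye] at hs'
      obtain ⟨a, b, rfl⟩ := Submodule.mem_span_pair.1 hs'
      exact ⟨a, b, rfl⟩
    have hef0 : e + f ≠ 0 := fun h0 => by
      have := congrArg (D.om e) h0
      simp [D.om_self, hef] at this
    obtain ⟨y₃, hy₃0, hy₃⟩ := hline (e + f) hef0
    obtain ⟨a₃, ha₃⟩ := h.ker_i hef0 hy₃
    obtain ⟨α, β, rfl⟩ := hspan y₃
    rw [map_add, map_smul, map_smul, hae, haf] at ha₃
    have h1 := congrArg (D.i e) ha₃
    have h3 := congrArg (D.i f) ha₃
    simp only [map_add, map_smul, LinearMap.add_apply, D.i_p, D.om_self, hef, hfe, zero_smul,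
      smul_zero, zero_add, add_zero, one_smul, neg_smul, smul_neg, neg_inj] at h1 h3
    have ha30 : a₃ ≠ 0 := fun h0 => hy₃0 (hΦinj _ (by
      rw [map_add, map_smul, map_smul, hae, haf, ha₃, h0, map_zero]))
    have hα : α ≠ 0 := fun h0 => ha30 (by rw [← h3, h0, zero_smul])
    refine ⟨af, fun y => ?_⟩
    obtain ⟨a, b, rfl⟩ := hspan y
    refine ⟨(a * (α⁻¹ * β)) • e + b • f, ?_⟩
    have hae' : ae = (α⁻¹ * β) • af := by
      rw [mul_smul, h1, ← h3, inv_smul_smul₀ hα]
    rw [← hΦapp, map_add, map_smul, map_smul, hae, haf, hae']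
    simp only [map_add, map_smul, LinearMap.add_apply, LinearMap.smul_apply, smul_smul]
  push Not at hall
  obtain ⟨x, hAx⟩ := hall
  right
  have hx : x ≠ 0 := fun h0 => hAx (LinearMap.ext fun w => by simp [h0, TD.ent_apply])
  set A := D.ent s x x with hA
  have hAi : D.ent ((su⁻¹ : (Module.End F V)ˣ) : Module.End F V) x x = A := by rw [hsi]
  have hskew : ∀ w w', D.S w (A w') = -D.S (A w) w' := fun w w' => by
    have := hC.adj hsm x x w w'
    rwa [hAi, ← hs] at this
  have hAdiag : ∀ w, D.S w (A w) = 0 := fun w => by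
    have := hskew w w
    rw [hS.symm (A w)] at this
    exact mul_left_cancel₀ h2 (by linear_combination this)
  -- the range
  set L : U →ₗ[F] W := D.i x ∘ₗ Φ with hL
  have hAL : LinearMap.range A ≤ LinearMap.range L := by
    rintro _ ⟨w, rfl⟩
    obtain ⟨y, hy⟩ := hsub (D.p x w)
    exact ⟨y, by rw [hA, hAdef, hy]; rfl⟩
  have hL2 : finrank F (LinearMap.range L) ≤ 2 := (LinearMap.finrank_range_le L).trans h.dimU.le
  have hA2 : 2 ≤ finrank F (LinearMap.range A) := by
    by_contra hlt
    obtain ⟨⟨a, ha⟩, hgen⟩ := finrank_le_one_iff.1 (show finrank F (LinearMap.range A) ≤ 1 by omega)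
    obtain ⟨w₀, hw₀⟩ : ∃ w₀, A w₀ ≠ 0 := by
      by_contra hc; push Not at hc; exact hAx (LinearMap.ext hc)
    have hmul : ∀ w, ∃ φ : F, A w = φ • a := fun w => by
      obtain ⟨c, hc⟩ := hgen ⟨A w, w, rfl⟩
      exact ⟨c, (congrArg Subtype.val hc).symm⟩
    obtain ⟨φ₀, hφ₀⟩ := hmul w₀
    have hφ0 : φ₀ ≠ 0 := fun h0 => hw₀ (by rw [hφ₀, h0, zero_smul])
    have ha0 : ∀ w, A w ≠ 0 → D.S w a = 0 := fun w hw => by
      obtain ⟨φ, hφ⟩ := hmul w
      have := hAdiag w
      rw [hφ, map_smul, smul_eq_mul] at this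
      exact (mul_eq_zero.1 this).resolve_left fun h0 => hw (by rw [hφ, h0, zero_smul])
    have hperp : ∀ w, D.S w a = 0 := fun w => by
      by_cases hw : A w = 0
      · have h5 := ha0 (w + w₀) (by rwa [map_add, hw, zero_add])
        rw [map_add, LinearMap.add_apply, ha0 w₀ hw₀, add_zero] at h5
        exact h5
      · exact ha0 w hw
    exact hw₀ (by rw [hφ₀, hS.zero_of_perp hperp, smul_zero])
  have hrange : LinearMap.range A = LinearMap.range L :=
    Submodule.eq_of_le_of_finrank_le hAL (hL2.trans hA2)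
  have hπ : finrank F (LinearMap.range A) = 2 :=
    le_antisymm (by rw [hrange]; exact hL2) hA2
  have hLinj : ∀ y, L y = 0 → y = 0 := fun y hy => by
    have h1 := LinearMap.finrank_range_add_finrank_ker L
    rw [← hrange, hπ, h.dimU] at h1
    have h3 : LinearMap.ker L = ⊥ := Submodule.finrank_eq_zero.1 (by omega)
    exact LinearMap.ker_eq_bot'.1 h3 y hy
  -- an orthogonal pair in the range
  obtain ⟨a, ⟨w₀, hw₀⟩, haa⟩ : ∃ a ∈ LinearMap.range A, D.S a a ≠ 0 := by
    by_contra hc
    push Not at hc
    obtain ⟨p, hp, q, hq, hpq⟩ := h.minus _ hπ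
    have := hc (p + q) (Submodule.add_mem _ hp hq)
    simp only [map_add, LinearMap.add_apply, hc p hp, hc q hq, hS.symm q p] at this
    exact hpq (mul_left_cancel₀ h2 (by linear_combination this))
  set b := A a with hb
  have hab : D.S a b = 0 := hAdiag a
  have hba : D.S b a = 0 := by rw [hS.symm]; exact hab
  have hAb : b ≠ 0 := fun h0 => haa (by
    rw [show D.S a a = D.S a (A w₀) by rw [hw₀], hskew, ← hb, h0]; simp)
  have hpair : ∀ v ∈ LinearMap.range A, ∃ α β : F, v = α • a + β • b := by
    intro v hv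
    have hind : LinearIndependent F ![a, b] := by
      rw [LinearIndependent.pair_iff]
      intro α β hαβ
      have h1 := congrArg (D.S a) hαβ
      simp only [map_add, map_smul, smul_eq_mul, hab, mul_zero, add_zero, map_zero] at h1
      have hα : α = 0 := (mul_eq_zero.1 h1).resolve_right haa
      subst hα
      simp only [zero_smul, zero_add] at hαβ
      exact ⟨rfl, (smul_eq_zero.1 hαβ).resolve_right hAb⟩
    have h1 : Submodule.span F {a, b} = LinearMap.range A := by
      refine Submodule.eq_of_le_of_finrank_le (Submodule.span_le.2 ?_) ?_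
      · rintro _ (rfl | rfl)
        · exact ⟨w₀, hw₀⟩
        · exact LinearMap.mem_range_self A a
      · rw [hπ]
        have h5 := finrank_span_eq_card hind
        rw [show Set.range ![a, b] = {a, b} by simp [Matrix.range_cons, Set.pair_comm b a]] at h5
        rw [h5]; simp
    rw [← h1] at hv
    obtain ⟨α, β, hαβ⟩ := Submodule.mem_span_pair.1 hv
    exact ⟨α, β, hαβ.symm⟩
  set κ : F := -(D.S b b / D.S a a) with hκ
  have hAb2 : A b = κ • a := by
    obtain ⟨α, β, hαβ⟩ := hpair (A b) (LinearMap.mem_range_self A b)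
    have hα : α = κ := by
      have h1 := hskew a b
      rw [hαβ, ← hb] at h1
      simp only [map_add, map_smul, smul_eq_mul, hab, mul_zero, add_zero] at h1
      rw [hκ]; field_simp; linear_combination h1
    have hβ : β = 0 := by
      by_cases hbb : D.S b b = 0
      · have h1 := hskew w₀ b
        rw [hαβ, hw₀, hab, neg_zero, hα, hκ, hbb, zero_div, neg_zero, zero_smul, zero_add,
          map_smul, smul_eq_mul] at h1
        refine (mul_eq_zero.1 h1).resolve_right fun h0 => haa ?_
        rw [hb, hskew, hw₀, neg_eq_zero] at h0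
        exact h0
      · have h1 := hAdiag b
        rw [hαβ] at h1
        simp only [map_add, map_smul, smul_eq_mul, hba, mul_zero, zero_add] at h1
        exact (mul_eq_zero.1 h1).resolve_right hbb
    rw [hαβ, hα, hβ, zero_smul, add_zero]
  have hA3 : A * A * A = κ • A := LinearMap.ext fun w => by
    obtain ⟨α, β, hαβ⟩ := hpair (A w) (LinearMap.mem_range_self A w)
    simp only [Module.End.mul_apply, LinearMap.smul_apply, hαβ, map_add, map_smul, ← hb, hAb2]
    module
  -- nilpotent case
  by_cases hκ0 : κ = 0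
  · exfalso
    have hK2 : (A * A) * (A * A) = 0 := by
      rw [← mul_assoc, hA3, hκ0, zero_smul, zero_mul]
    haveI : Module.Finite F (AdjoinRoot (X * X ^ 2 : F[X])) :=
      (monic_X.mul (monic_X_pow 2)).finite_adjoinRoot
    haveI : Finite (AdjoinRoot (X * X ^ 2 : F[X])) := Module.finite_of_finite F
    have hnil : AdjoinRoot.root (X * X ^ 2 : F[X]) ^ 3 = 0 := by
      rw [← AdjoinRoot.mk_X, ← map_pow, AdjoinRoot.mk_eq_zero]
      exact ⟨1, by ring⟩
    obtain ⟨k, hk⟩ := h.scal x hx _ (TD.mem_of_upperSet hC hsm x x (m := X ^ 2) (r := X)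
      (by rw [map_pow, aeval_X, hAi, ← hs, ← hA, pow_two, hK2])
      (by rw [map_pow, aeval_X, hAi, ← hs, ← hA, pow_two, hK2])
      (by
        rw [AdjoinRoot.mk_X]
        refine self_mem_upperSet_of_nilpotent h2 hnil fun r => ?_
        obtain ⟨q, rfl⟩ := AdjoinRoot.mk_surjective r
        exact ⟨q, AdjoinRoot.aeval_eq q⟩))
    rw [aeval_X, hAi, ← hs, ← hA] at hk
    rw [hk, smul_mul_smul_comm, one_mul] at hK2
    have hk0 : k = 0 := mul_self_eq_zero.1 ((smul_eq_zero.1 hK2).resolve_right hC.one_ne_zero_W)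
    refine hAb ?_
    rw [hb, ← hw₀, ← Module.End.mul_apply, hk, hk0, zero_smul, LinearMap.zero_apply]
  -- the non-degenerate case
  have hbb : D.S b b ≠ 0 := fun h0 => hκ0 (by rw [hκ, h0, zero_div, neg_zero])
  refine ⟨a, b, haa, hbb, hab, fun y x' => hpair _ ?_⟩
  have h3 := h.three
  have hκ2 : κ * κ = 1 := h.sq κ hκ0
  obtain ⟨w, hw⟩ : ∃ w, D.i x' (Φ y) = A w := by
    obtain ⟨h', hh, hh00, hh01, hh10, hh11⟩ := exists_poly h3 hκ2
    obtain ⟨pa, pb, pc, pd, e00, e01, e10, e11, hmem⟩ := TD.exists_theta_mem hC hsm x x hh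
    obtain ⟨qa, hqa, hqa'⟩ := hh00
    obtain ⟨qb, hqb, hqb'⟩ := hh01
    obtain ⟨qc, hqc, hqc'⟩ := hh10
    obtain ⟨qd, hqd, hqd'⟩ := hh11
    have hpa : pa = qa := mul_left_cancel₀ X_ne_zero (by linear_combination hqa - e00)
    have hpb : pb = X * qb := e01.symm.trans hqb
    have hpc : pc = X * qc := mul_left_cancel₀ X_ne_zero (e10.symm.trans hqc)
    have hpd : pd = qd := mul_left_cancel₀ X_ne_zero (by linear_combination hqd - e11)
    have hKA : (A * A) * A = κ • A := hA3
    have hAK : A * (A * A) = κ • A := by rw [← mul_assoc]; exact hA3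
    have haev : ∀ q : F[X], aeval (A * A) q * A = q.eval κ • A := fun q => by
      induction q using Polynomial.induction_on' with
      | add r t hr ht => rw [map_add, add_mul, hr, ht, eval_add, add_smul]
      | monomial n c =>
        rw [aeval_monomial, eval_monomial, mul_assoc, ← Algebra.smul_def, mul_smul]
        congr 1
        induction n with
        | zero => simp
        | succ n ih => rw [pow_succ', mul_assoc, ih, mul_smul_comm, hKA, smul_smul, pow_succ]
    have hEa : aeval (A * A) pa * A = κ • A := by rw [haev, hpa, hqa']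
    have hEd : A * aeval (A * A) pd = κ • A := by rw [TD.aeval_swap, haev, hpd, hqd']
    have hEX : ∀ q : F[X], q.eval κ = 0 → aeval (A * A) (X * q) = 0 := fun q hq => by
      rw [mul_comm X q, map_mul, aeval_X, ← mul_assoc, haev, hq, zero_smul, zero_mul]
    set N := D.N x A with hN
    set E := N * s + s * N with hE
    obtain ⟨zu, hzu, hze⟩ : Mem M (κ • E) := by
      convert hmem using 1
      refine LinearMap.ext fun v => ?_
      simp only [TD.theta, hsi, hAi, ← hs, ← hA, hEa, hEd, hpb, hpc, hEX _ hqb', hEX _ hqc',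
        hE, hN, LinearMap.add_apply, LinearMap.comp_apply, LinearMap.smul_apply,
        Module.End.mul_apply, LinearMap.zero_apply, map_zero, map_smul, TD.N_apply, add_zero,
        smul_add]
    have hNsN : N * s * N = κ • N := LinearMap.ext fun v => by
      simp only [hN, Module.End.mul_apply, TD.N_apply, LinearMap.smul_apply]
      rw [← map_smul (D.p x), ← TD.ent_apply, ← hA]
      congr 1
      exact LinearMap.congr_fun hA3 (D.i x v)
    have hNN : N * N = 0 := D.N_mul_N x A A
    have hEE : E * E = κ • E := by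
      calc E * E = N * s * N * s + N * (s * s) * N + s * (N * N) * s + s * (N * s * N) := by
            rw [hE]; noncomm_ring
        _ = _ := by
            rw [hNsN, hss, mul_one, hNN, hE, mul_zero, zero_mul, add_zero, add_zero,
              smul_mul_assoc, mul_smul_comm, smul_add]
    have hz2 : (zu : Module.End F V) * zu = 1 := by
      rw [hze, mul_add, add_mul, add_mul, smul_mul_smul_comm, hEE, one_mul, one_mul, mul_one,
        smul_smul]
      calc (1 : Module.End F V) + κ • E + (κ • E + (κ * κ * κ) • E) =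
          1 + ((2 + κ * κ) * κ) • E := by module
        _ = 1 := by rw [hκ2, show (2 : F) + 1 = 3 by norm_num, h3, zero_mul, zero_smul, add_zero]
    have hzs : s * (zu : Module.End F V) = zu * s := by
      rw [hze, mul_add, add_mul, mul_one, one_mul, mul_smul_comm, smul_mul_assoc]
      congr 2
      rw [hE, mul_add, add_mul, ← mul_assoc s s, hss, one_mul, mul_assoc N s s, hss, mul_one,
        mul_assoc]
      abel
    -- the rotation
    set K := A * A with hKdef
    have hKK : K * K = κ • K := by rw [hKdef, ← mul_assoc, hA3, smul_mul_assoc]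
    set k : Module.End F W := 1 + κ • K with hk
    have hkk : k * k = 1 := by
      rw [hk, mul_add, add_mul, add_mul, smul_mul_smul_comm, hKK, one_mul, one_mul, mul_one,
        smul_smul]
      calc (1 : Module.End F W) + κ • K + (κ • K + (κ * κ * κ) • K) =
          1 + ((2 + κ * κ) * κ) • K := by module
        _ = 1 := by rw [hκ2, show (2 : F) + 1 = 3 by norm_num, h3, zero_mul, zero_smul, add_zero]
    have hKs : ∀ w w', D.S (K w) w' = D.S w (K w') := fun w w' => by
      rw [hKdef, Module.End.mul_apply, Module.End.mul_apply, hskew w, hskew (A w), neg_neg]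
    have hkiso : Iso D.S k := fun p q => by
      simp only [hk, LinearMap.add_apply, Module.End.one_apply, LinearMap.smul_apply, map_add,
        map_smul, smul_eq_mul, hKs p q]
      rw [show D.S (K p) (K q) = κ * D.S p (K q) by
        rw [hKs, ← Module.End.mul_apply, hKK, LinearMap.smul_apply, map_smul, smul_eq_mul]]
      linear_combination κ * D.S p (K q) * (hκ2 + h3)
    obtain ⟨ru, hru, hrue⟩ := hC.right k k hkk hkiso
    have hkK : k * A = A + κ • (κ • A) := by rw [hk, add_mul, one_mul, smul_mul_assoc, hKA]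
    -- `z` agrees with the rotation
    have hzp : ∀ w, (zu : Module.End F V) (D.p x w) = D.p x (k w) := fun w => by
      simp only [hze, hE, hN, hk, hKdef, LinearMap.add_apply, Module.End.one_apply,
        LinearMap.smul_apply, Module.End.mul_apply, TD.N_apply, D.i_p, D.om_self, zero_smul,
        map_zero, add_zero, map_add, map_smul, ← TD.ent_apply, ← hA]
    have hzi : ∀ v, D.i x ((zu : Module.End F V) v) = k (D.i x v) := fun v => by
      simp only [hze, hE, hN, hk, hKdef, LinearMap.add_apply, Module.End.one_apply,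
        LinearMap.smul_apply, Module.End.mul_apply, TD.N_apply, D.i_p, D.om_self, zero_smul,
        zero_add, map_add, map_smul, ← TD.ent_apply, ← hA]
    set n := (zu : Module.End F V) * D.act k - 1 with hn
    have hkk' : ∀ w, k (k w) = w := fun w => LinearMap.congr_fun hkk w
    obtain ⟨Y, hY⟩ := D.exists_eq_N hx (L := n) (by
        rintro _ ⟨v, rfl⟩
        obtain ⟨w, hw⟩ := h.ker_i hx (v := n v) (by
          rw [hn, LinearMap.sub_apply, map_sub, Module.End.mul_apply, Module.End.one_apply, hzi,
            D.i_act, hkk', sub_self])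
        obtain ⟨y', hy'⟩ := D.exists_pair hx
        refine ⟨D.p y' w, ?_⟩
        rw [hw, TD.N_apply, D.i_p, hy', one_smul, Module.End.one_apply])
      (fun v hv => by
        rw [LinearMap.mem_ker, TD.N_apply, Module.End.one_apply] at hv
        obtain ⟨w, rfl⟩ := h.ker_i hx (D.p_injective hx (hv.trans (map_zero _).symm))
        rw [LinearMap.mem_ker, hn, LinearMap.sub_apply, Module.End.mul_apply,
          Module.End.one_apply, D.act_p, hzp, hkk', sub_self])
    obtain ⟨c, rfl⟩ := h.scal x hx Y ⟨zu * ru, mul_mem hzu hru, by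
      rw [Units.val_mul, hrue, ← hY, hn]; abel⟩
    have hkk2 : D.act k * D.act k = 1 := by rw [← map_mul, hkk, map_one]
    have hzk : (zu : Module.End F V) = (1 + D.N x (c • 1)) * D.act k := by
      rw [← hY, hn, add_sub_cancel, mul_assoc, hkk2, mul_one]
    have hcomm : D.act k * D.N x (c • 1) = D.N x (c • 1) * D.act k := by
      rw [D.act_mul_N, D.N_mul_act, mul_smul_comm, smul_mul_assoc, one_mul, mul_one]
    have hz0 : D.N x (c • 1) = 0 := by
      have h1 : (2 : F) • D.N x (c • 1) = 0 := by
        have h5 := hz2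
        rw [hzk] at h5
        have h6 : (1 + D.N x (c • 1)) * D.act k * ((1 + D.N x (c • 1)) * D.act k) =
            (1 + D.N x (c • 1)) * (1 + D.N x (c • 1)) := by
          rw [mul_assoc, ← mul_assoc (D.act k), mul_add, mul_one, hcomm, add_mul (D.act k),
            mul_assoc, hkk2, mul_one]
        rw [h6, mul_add, add_mul, add_mul, D.N_mul_N, one_mul, one_mul, mul_one, add_zero,
          add_assoc] at h5
        rw [two_smul]
        exact add_left_cancel (h5.trans (add_zero 1).symm)
      exact (smul_eq_zero.1 h1).resolve_left h2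
    rw [hz0, add_zero, one_mul] at hzk
    have hsK : s * D.act K = D.act K * s := by
      have h1 : D.act K = κ • (D.act k - 1) := by
        rw [hk, map_add, map_one, map_smul, add_sub_cancel_left, smul_smul, hκ2, one_smul]
      rw [h1, mul_smul_comm, smul_mul_assoc, mul_sub, sub_mul, ← hzk, hzs, mul_one, one_mul]
    -- the plane is fixed
    set v := D.act K (Φ y) - κ • Φ y with hv
    have hsv : s v = -v := by
      rw [hv, map_sub, map_smul, hneg, ← Module.End.mul_apply, hsK, Module.End.mul_apply, hneg,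
        map_neg]
      module
    obtain ⟨y', hy'⟩ := hsub v
    have hv2 : -(2 : F) • v = Φ y' := by
      rw [← hy', hsv]; module
    have hv0 : D.i x v = 0 := by
      obtain ⟨w₁, hw₁⟩ := hrange.ge (LinearMap.mem_range_self L y)
      rw [hv, map_sub, map_smul, D.i_act, show D.i x (Φ y) = A w₁ from hw₁.symm, sub_eq_zero]
      exact LinearMap.congr_fun hA3 w₁
    have hy'0 : y' = 0 := hLinj y' (by
      rw [hL, LinearMap.comp_apply, ← hv2, map_smul, hv0, smul_zero])
    rw [hy'0, map_zero] at hv2
    have hv00 : v = 0 := (smul_eq_zero.1 hv2).resolve_left (neg_ne_zero.2 h2)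
    refine ⟨κ • A (D.i x' (Φ y)), ?_⟩
    have h5 := congrArg (D.i x') hv00
    rw [hv, map_sub, map_smul, D.i_act, map_zero, sub_eq_zero, hKdef, Module.End.mul_apply] at h5
    rw [map_smul, h5, smul_smul, hκ2, one_smul]
  rw [← hΦapp, hw]
  exact LinearMap.mem_range_self A w

end TFT

end Cfsg.Agent.GeoLow.TensorSO
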