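import Mathlib

/-!
A finite computation over three elements: from a plane spanned by `e ⊗ a + X e ⊗ b`, `f ⊗ a + X f ⊗ b`
one reaches by an element of each factor and the involution of the plane a plane with three independent
contractions.
-/

set_option autoImplicit false

namespace Cfsg.Agent.GeoLow.TensorSO.Witness

variable {R R' : Type*} [CommRing R] [CommRing R']

/-- The data: values of the form at `a`, `b`, `m` and the entries of `X`. -/
structure Par (R : Type*) where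
  qa : R
  qb : R
  qm : R
  x11 : R
  x12 : R
  x21 : R
  x22 : R

/-- Coordinates on `a`, `b`, `m` of a vector. -/
abbrev Tri (R : Type*) := R × R × R

/-- The pair of contractions with `e` and `f`. -/
abbrev Pt (R : Type*) := Tri R × Tri R

variable (c : Par R)

/-- The value of the form at `a + b + m`. -/
def qr : R := c.qa + c.qb + c.qm

/-- The pairing of the two spanning vectors. -/
def cc : R := c.qa + c.qb * (c.x11 * c.x22 - c.x12 * c.x21)

/-- The first spanning vector. -/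
def P1 : Pt R := ((0, c.x21, 0), (-1, -c.x11, 0))

/-- The second spanning vector. -/
def P2 : Pt R := ((1, c.x22, 0), (0, -c.x12, 0))

/-- An elation at `e`. -/
def el1 (s : R) (v : Pt R) : Pt R :=
  (v.1, (v.2.1 - s * v.1.1, v.2.2.1 - s * v.1.2.1, v.2.2.2 - s * v.1.2.2))

/-- An elation at `f`. -/
def el2 (t : R) (v : Pt R) : Pt R :=
  ((v.1.1 - t * v.2.1, v.1.2.1 - t * v.2.2.1, v.1.2.2 - t * v.2.2.2), v.2)

/-- The reflection in `a + b + m`, for three elements. -/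
def rt (w : Tri R) : Tri R :=
  let k := qr c * (c.qa * w.1 + c.qb * w.2.1 + c.qm * w.2.2)
  (w.1 + k, w.2.1 + k, w.2.2 + k)

/-- The involution of the plane, for three elements. -/
def sg (v : Pt R) : Pt R :=
  let α := cc c * (c.qa * v.1.1 + c.qb * (c.x11 * v.1.2.1 + c.x21 * v.2.2.1))
  let β := cc c * (c.qa * v.2.1 + c.qb * (c.x12 * v.1.2.1 + c.x22 * v.2.2.1))
  ((v.1.1 + (α * (P2 c).1.1 - β * (P1 c).1.1),
    v.1.2.1 + (α * (P2 c).1.2.1 - β * (P1 c).1.2.1), v.1.2.2),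
   (v.2.1 + (α * (P2 c).2.1 - β * (P1 c).2.1),
    v.2.2.1 + (α * (P2 c).2.2.1 - β * (P1 c).2.2.1), v.2.2.2))

/-- The new image of a vector. -/
def mv (s t u : R) (v : Pt R) : Pt R :=
  let w := el1 s (el2 t (el1 u v))
  sg c (rt c w.1, rt c w.2)

/-- A determinant. -/
def det3 (x y z : Tri R) : R :=
  x.1 * (y.2.1 * z.2.2 - y.2.2 * z.2.1) - x.2.1 * (y.1 * z.2.2 - y.2.2 * z.1) +
    x.2.2 * (y.1 * z.2.1 - y.2.1 * z.1)

/-- Three of the four contractions are independent. -/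
def Indep3 (s t u : R) : Prop :=
  det3 (mv c s t u (P1 c)).1 (mv c s t u (P1 c)).2 (mv c s t u (P2 c)).1 ≠ 0 ∨
    det3 (mv c s t u (P1 c)).1 (mv c s t u (P1 c)).2 (mv c s t u (P2 c)).2 ≠ 0 ∨
    det3 (mv c s t u (P1 c)).1 (mv c s t u (P2 c)).1 (mv c s t u (P2 c)).2 ≠ 0 ∨
    det3 (mv c s t u (P1 c)).2 (mv c s t u (P2 c)).1 (mv c s t u (P2 c)).2 ≠ 0

instance [DecidableEq R] (s t u : R) : Decidable (Indep3 c s t u) :=
  inferInstanceAs (Decidable (_ ∨ _ ∨ _ ∨ _))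

/-- The computation. -/
theorem check : ∀ qa qb x11 x12 x21 x22 : ZMod 3, qa ≠ 0 → qb ≠ 0 →
    qa + qb * (x11 * x22 - x12 * x21) ≠ 0 → (x12 ≠ 0 ∨ x21 ≠ 0 ∨ x11 ≠ x22) →
    qa + qb + (1 - qa * qb) ≠ 0 ∧
    (Indep3 ⟨qa, qb, 1 - qa * qb, x11, x12, x21, x22⟩ 1 (-1) 0 ∨
     Indep3 ⟨qa, qb, 1 - qa * qb, x11, x12, x21, x22⟩ 0 1 0 ∨
     Indep3 ⟨qa, qb, 1 - qa * qb, x11, x12, x21, x22⟩ 1 (-1) 1) := by
  decide +kernel

/-- Transport of the data. -/
def Par.map (φ : R →+* R') : Par R' :=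
  ⟨φ c.qa, φ c.qb, φ c.qm, φ c.x11, φ c.x12, φ c.x21, φ c.x22⟩

lemma Indep3.map {c : Par R} {s t u : R} (h : Indep3 c s t u) (φ : R →+* R')
    (hφ : Function.Injective φ) : Indep3 (c.map φ) (φ s) (φ t) (φ u) := by
  have hd : ∀ x y z : Tri R, det3 x y z ≠ 0 →
      det3 (φ x.1, φ x.2.1, φ x.2.2) (φ y.1, φ y.2.1, φ y.2.2) (φ z.1, φ z.2.1, φ z.2.2) ≠ 0 := by
    intro x y z h h'
    refine h (hφ ?_)
    rw [map_zero, ← h']
    simp [det3]
  unfold Indep3 at h ⊢
  rcases h with h | h | h | h <;> have h' := hd _ _ _ h <;>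
    simp only [mv, sg, rt, el1, el2, qr, cc, P1, P2, map_add, map_sub, map_mul, map_neg, map_zero,
      map_one, Par.map] at h' ⊢ <;> tauto

end Cfsg.Agent.GeoLow.TensorSO.Witness
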