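import Cfsg.Agent.GeoLow.TensorSO.Main

/-!
A symplectic plane tensor an orthogonal four-space of minus type inside `Sp₈(F)`.
-/

set_option autoImplicit false

namespace Cfsg.Agent.GeoLow.TensorSO

open Module Cfsg.Geo
open scoped MatrixGroups

/-- The decomposition `Sp₂ ⊗ O₄⁻` is maximal in `Sp₈` for fields with more than three elements. -/
theorem spGL_tensor_two_four_maximal {F : Type*} [Field F] [Fintype F] (hodd : Odd (Fintype.card F))
    (h3 : Fintype.card F ≠ 3) (e : (Fin 4 ⊕ Fin 4) ≃ Fin 2 × Fin 4) (P : GL (Fin 4 ⊕ Fin 4) F)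
    (f₁ : (Fin 2 → F) → (Fin 2 → F) → F) (f₂ : (Fin 4 → F) → (Fin 4 → F) → F)
    (hf₁ : IsSymplecticForm f₁) (hf₂ : IsSymmetricForm f₂)
    (hminus : ¬ IsPlusTypeOn (fun v : Fin 4 → F => f₂ v v) ⊤)
    (hT : IsTensorFormStructure id (Cfsg.sympForm 4 F) f₁ f₂ e P) :
    IsMaximalIn (Cfsg.spGL 4 F) (tensorProductSubgroup 2 4 e P ⊓ Cfsg.spGL 4 F) := by
  refine (setup_of hodd (by norm_num) hf₁ hf₂ hT).maximal_two_four (by norm_num) rfl h3
    fun W₀ hW₀ => ?_
  by_contra hc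
  push Not at hc
  refine hminus ⟨W₀, le_top, fun w hw => hc w hw w hw, ?_⟩
  rw [hW₀, finrank_top, finrank_fin_fun]

end Cfsg.Agent.GeoLow.TensorSO
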