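import Cfsg.Agent.GeoLow.TensorSO.TwoFour
import Cfsg.Agent.GeoLow.TensorSO.ThreePlane
import Cfsg.Agent.GeoLow.TensorSO.ThreeWitness

/-!
A symplectic plane tensor an orthogonal four-space of minus type over three elements.
-/

set_option autoImplicit false
set_option linter.style.haveILetI false

namespace Cfsg.Agent.GeoLow.TensorSO

open Module Cfsg.Geo
open scoped MatrixGroups

variable {F U W V : Type*} [Field F] [AddCommGroup U] [Module F U] [AddCommGroup W] [Module F W]
  [AddCommGroup V] [Module F V]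

namespace TFT

variable {D : TD F U W V} {M : Subgroup (Module.End F V)ˣ} (h : TFT D M)
include h

omit [AddCommGroup U] [Module F U] [AddCommGroup V] [Module F V] h in
/-- A vector is determined by coordinates. -/
private def emb (a b m : W) (t : Witness.Tri F) : W := t.1 • a + t.2.1 • b + t.2.2 • m

lemma neg_two : -(2 : F) = 1 := by linear_combination -h.three

lemma two_div (x : F) (hx : x ≠ 0) : 2 / x = -x := by
  field_simp
  linear_combination h.three + h.sq x hx

/-- The isotropic or anisotropic third vector. -/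
lemma exists_third [Finite F] [FiniteDimensional F W] (hW : finrank F W = 4) {a b : W}
    (ha : D.S a a ≠ 0) (hb : D.S b b ≠ 0) (hab : D.S a b = 0) :
    ∃ m, m ≠ 0 ∧ D.S a m = 0 ∧ D.S b m = 0 ∧ D.S m m = 1 - D.S a a * D.S b b := by
  have hS := h.ctx.orth
  have h2 := hS.two
  obtain ⟨n, han, hbn, hnn⟩ := exists_perp_pair hS ha hb hab
  obtain ⟨k, hak, hbk, hnk, hkk⟩ := exists_perp_triple hS hW.ge ha hb hnn hab han hbn
  rcases mul_self_eq_one_iff.1 (h.sq _ (mul_ne_zero ha hb)) with h1 | h1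
  · have hb' : D.S b b = D.S a a := by
      linear_combination D.S a a * h1 - D.S b b * h.sq _ ha
    rcases mul_self_eq_one_iff.1 (h.sq _ (mul_ne_zero hnn hkk)) with h1' | h1'
    · exfalso
      have hk' : D.S k k = D.S n n := by
        linear_combination D.S n n * h1' - D.S k k * h.sq _ hnn
      have e : ∀ x y, D.S x y = 0 → D.S y x = 0 := fun x y hxy => by rw [hS.symm]; exact hxy
      -- a totally singular plane
      obtain ⟨p, q, hpp, hqq, hpq, hind⟩ : ∃ p q : W, D.S p p = 0 ∧ D.S q q = 0 ∧ D.S p q = 0 ∧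
          ∀ s t : F, s • p + t • q = 0 → s = 0 ∧ t = 0 := by
        rcases mul_self_eq_one_iff.1 (h.sq _ (mul_ne_zero ha hnn)) with h5 | h5
        · have hn' : D.S n n = D.S a a := by
            linear_combination D.S a a * h5 - D.S n n * h.sq _ ha
          refine ⟨a + b + n, a - b + k, ?_, ?_, ?_, fun s t hst => ?_⟩
          · simp [hab, e _ _ hab, han, e _ _ han, hbn, e _ _ hbn, hb', hn']
            linear_combination D.S a a * h.three
          · simp [hab, e _ _ hab, hak, e _ _ hak, hbk, e _ _ hbk, hb', hk', hn']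
            linear_combination D.S a a * h.three
          · simp [hab, e _ _ hab, hak, e _ _ hak, hbk, e _ _ hbk, han, e _ _ han, hbn, e _ _ hbn,
              hnk, hb']
          · have e1 := congrArg (D.S n) hst
            have e2 := congrArg (D.S k) hst
            simp [e _ _ han, e _ _ hbn, hnk, e _ _ hnk, e _ _ hak, e _ _ hbk] at e1 e2
            exact ⟨e1.resolve_right hnn, e2.resolve_right hkk⟩
        · have hn' : D.S n n = -D.S a a := by
            linear_combination D.S a a * h5 - D.S n n * h.sq _ ha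
          refine ⟨a + n, b + k, ?_, ?_, ?_, fun s t hst => ?_⟩
          · simp [han, e _ _ han, hn']
          · simp [hbk, e _ _ hbk, hk', hn', hb']
          · simp [hab, hak, e _ _ hbn, hnk]
          · have e1 := congrArg (D.S n) hst
            have e2 := congrArg (D.S k) hst
            simp [e _ _ han, e _ _ hbn, hnk, e _ _ hnk, e _ _ hak, e _ _ hbk] at e1 e2
            exact ⟨e1.resolve_right hnn, e2.resolve_right hkk⟩
      have hl : LinearIndependent F ![p, q] := LinearIndependent.pair_iff.2 hind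
      obtain ⟨x, hx, y, hy, hxy⟩ := h.minus (Submodule.span F {p, q}) (by
        have h5 := finrank_span_eq_card hl
        rw [show Set.range ![p, q] = {p, q} by simp [Matrix.range_cons, Set.pair_comm q p]] at h5
        rw [h5]; simp)
      obtain ⟨x1, x2, rfl⟩ := Submodule.mem_span_pair.1 hx
      obtain ⟨y1, y2, rfl⟩ := Submodule.mem_span_pair.1 hy
      exact hxy (by simp [hpp, hqq, hpq, e _ _ hpq])
    · refine ⟨n + k, fun h0 => ?_, by simp [han, hak], by simp [hbn, hbk], ?_⟩
      · have := congrArg (D.S n) h0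
        simp [hnk, hnn] at this
      · have hk' : D.S k k = -D.S n n := by
          linear_combination D.S n n * h1' - D.S k k * h.sq _ hnn
        simp [hnk, hS.symm k n, hk', h1]
  · obtain ⟨α, β, hv⟩ := exists_value hS hnn hkk hnk (1 - D.S a a * D.S b b)
    refine ⟨α • n + β • k, fun h0 => ?_, by simp [han, hak], by simp [hbn, hbk], hv⟩
    rw [h0, map_zero, h1] at hv
    exact h2 (by linear_combination -hv)

/-- An element acting on the first factor by a product of three elations. -/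
lemma exists_el [Finite F] {e f : U} (hef : D.om e f = 1) (s t u : F) :
    ∃ d ∈ M, ∀ v, D.i e ((d : Module.End F V) v) =
        D.i e v - t • (D.i f v - u • D.i e v) ∧
      D.i f ((d : Module.End F V) v) =
        D.i f v - u • D.i e v - s • (D.i e v - t • (D.i f v - u • D.i e v)) := by
  obtain ⟨a, ha, hae⟩ := h.ctx.left e s
  obtain ⟨b, hb, hbe⟩ := h.ctx.left f (-t)
  obtain ⟨c, hc, hce⟩ := h.ctx.left e u
  have hfe : D.om f e = -1 := by rw [D.om_skew, hef]
  refine ⟨a * b * c, mul_mem (mul_mem ha hb) hc, fun v => ?_⟩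
  simp [Units.val_mul, hae, hbe, hce, TD.N_apply, D.i_p, D.om_self, hef, hfe, Module.End.mul_apply]
  constructor <;> module

/-- The three contractions of independent vectors contradict a plane. -/
lemma not_indep [Finite F] [FiniteDimensional F W] {a b m : W} (ha : D.S a a ≠ 0)
    (hb : D.S b b ≠ 0) (hm : m ≠ 0) (hab : D.S a b = 0) (ham : D.S a m = 0) (hbm : D.S b m = 0)
    {W₀ : Submodule F W} (h2 : finrank F W₀ ≤ 2) {t₁ t₂ t₃ : Witness.Tri F}
    (h1 : emb a b m t₁ ∈ W₀) (h2' : emb a b m t₂ ∈ W₀) (h3 : emb a b m t₃ ∈ W₀) :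
    Witness.det3 t₁ t₂ t₃ = 0 := by
  by_contra hd
  obtain ⟨x₁, x₂, x₃⟩ := t₁
  obtain ⟨y₁, y₂, y₃⟩ := t₂
  obtain ⟨z₁, z₂, z₃⟩ := t₃
  set δ := Witness.det3 (x₁, x₂, x₃) (y₁, y₂, y₃) (z₁, z₂, z₃) with hδ
  have key : ∀ v : W, δ • v ∈ W₀ → v ∈ W₀ := fun v hv => by
    have := W₀.smul_mem δ⁻¹ hv
    rwa [inv_smul_smul₀ hd] at this
  have hma : a ∈ W₀ := key a (by
    rw [show δ • a = (y₂ * z₃ - y₃ * z₂) • emb a b m (x₁, x₂, x₃) +
        (x₃ * z₂ - x₂ * z₃) • emb a b m (y₁, y₂, y₃) +
        (x₂ * y₃ - x₃ * y₂) • emb a b m (z₁, z₂, z₃) by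
      simp only [hδ, Witness.det3, emb]; module]
    exact W₀.add_mem (W₀.add_mem (W₀.smul_mem _ h1) (W₀.smul_mem _ h2')) (W₀.smul_mem _ h3))
  have hmb : b ∈ W₀ := key b (by
    rw [show δ • b = (y₃ * z₁ - y₁ * z₃) • emb a b m (x₁, x₂, x₃) +
        (x₁ * z₃ - x₃ * z₁) • emb a b m (y₁, y₂, y₃) +
        (x₃ * y₁ - x₁ * y₃) • emb a b m (z₁, z₂, z₃) by
      simp only [hδ, Witness.det3, emb]; module]
    exact W₀.add_mem (W₀.add_mem (W₀.smul_mem _ h1) (W₀.smul_mem _ h2')) (W₀.smul_mem _ h3))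
  have hmm : m ∈ W₀ := key m (by
    rw [show δ • m = (y₁ * z₂ - y₂ * z₁) • emb a b m (x₁, x₂, x₃) +
        (x₂ * z₁ - x₁ * z₂) • emb a b m (y₁, y₂, y₃) +
        (x₁ * y₂ - x₂ * y₁) • emb a b m (z₁, z₂, z₃) by
      simp only [hδ, Witness.det3, emb]; module]
    exact W₀.add_mem (W₀.add_mem (W₀.smul_mem _ h1) (W₀.smul_mem _ h2')) (W₀.smul_mem _ h3))
  have hba : D.S b a = 0 := by rw [h.ctx.orth.symm]; exact hab
  have hind : LinearIndependent F (![⟨a, hma⟩, ⟨b, hmb⟩, ⟨m, hmm⟩] : Fin 3 → W₀) := by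
    rw [Fintype.linearIndependent_iff]
    intro g hg
    have hg' := congrArg Subtype.val hg
    simp [Fin.sum_univ_three] at hg'
    have e1 := congrArg (D.S a) hg'
    have e2 := congrArg (D.S b) hg'
    simp [hab, ham, hba, hbm, ha, hb] at e1 e2
    rw [e1, e2] at hg'
    simp [hm] at hg'
    intro i; fin_cases i <;> assumption
  have := hind.fintype_card_le_finrank
  simp at this
  omega

set_option maxHeartbeats 1000000 in
/-- The image of a copy of the plane is a copy of the plane. -/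
theorem plane_pure [Finite F] [FiniteDimensional F W] (hW : finrank F W = 4)
    {g : (Module.End F V)ˣ} (hg : g ∈ M) {u : W} (hu : D.S u u ≠ 0) :
    ∃ w, ∀ y, ∃ z, (g : Module.End F V) (D.p y u) = D.p z w := by
  have hC := h.ctx
  have hS := hC.orth
  rcases h.plane_cases hg hu with hp | ⟨a, b, ha, hb, hab, hmem⟩
  · exact hp
  haveI : FiniteDimensional F U := Module.finite_of_finrank_pos (by rw [h.dimU]; norm_num)
  haveI : Nontrivial U := Module.nontrivial_of_finrank_pos (R := F) (by rw [h.dimU]; norm_num)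
  have hba : D.S b a = 0 := by rw [hS.symm]; exact hab
  have hu0 : u ≠ 0 := fun h0 => hu (by rw [h0]; simp)
  set Φ : U →ₗ[F] V := (g : Module.End F V) ∘ₗ D.p.flip u with hΦ
  have hΦapp : ∀ y, (g : Module.End F V) (D.p y u) = Φ y := fun y => rfl
  have hsplit : ∀ y, ∃ z z', Φ y = D.p z a + D.p z' b := by
    intro y
    obtain ⟨za, hza⟩ := D.exists_dual ((D.S a a)⁻¹ • (D.S a ∘ₗ D.i.flip (Φ y)))
    obtain ⟨zb, hzb⟩ := D.exists_dual ((D.S b b)⁻¹ • (D.S b ∘ₗ D.i.flip (Φ y)))
    refine ⟨za, zb, sub_eq_zero.1 (D.ext_i _ fun x => ?_)⟩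
    obtain ⟨α, β, hαβ⟩ := hmem y x
    rw [hΦapp] at hαβ
    rw [map_sub, map_add, D.i_p, D.i_p, hza, hzb, hαβ, sub_eq_zero]
    simp only [LinearMap.smul_apply, LinearMap.comp_apply, LinearMap.flip_apply, hαβ, map_add,
      map_smul, smul_eq_mul, hab, hba, mul_zero, add_zero, zero_add]
    congr 1 <;> congr 1 <;> field_simp
  obtain ⟨e₀, he₀⟩ := exists_ne (0 : U)
  obtain ⟨f₀, hef₀⟩ := D.exists_pair he₀
  obtain ⟨v₁, w₁, hv₁⟩ := hsplit e₀
  obtain ⟨v₂, w₂, hv₂⟩ := hsplit f₀
  have hOm : D.S u u = D.S a a * D.om v₁ v₂ + D.S b b * D.om w₁ w₂ := by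
    have h1 : D.Om (Φ e₀) (Φ f₀) = D.S u u := by
      rw [← hΦapp, ← hΦapp, hC.pres g hg, D.Om_p, D.i_p, hef₀, one_smul]
    rw [← h1, hv₁, hv₂]
    simp only [map_add, LinearMap.add_apply, D.Om_p, D.i_p, map_smul, smul_eq_mul, hab, hba]
    ring
  -- the first coordinate may be taken non-degenerate
  obtain ⟨a, b, ha, hb, hab, v₁, v₂, w₁, w₂, hv₁, hv₂, hv, hOm⟩ : ∃ a b, D.S a a ≠ 0 ∧
      D.S b b ≠ 0 ∧ D.S a b = 0 ∧ ∃ v₁ v₂ w₁ w₂, Φ e₀ = D.p v₁ a + D.p w₁ b ∧
      Φ f₀ = D.p v₂ a + D.p w₂ b ∧ D.om v₁ v₂ ≠ 0 ∧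
      D.S u u = D.S a a * D.om v₁ v₂ + D.S b b * D.om w₁ w₂ := by
    by_cases hv : D.om v₁ v₂ = 0
    · refine ⟨b, a, hb, ha, hba, w₁, w₂, v₁, v₂, by rw [hv₁, add_comm], by rw [hv₂, add_comm],
        fun hw => hu ?_, by rw [hOm]; ring⟩
      rw [hOm, hv, hw]; ring
    · exact ⟨a, b, ha, hb, hab, v₁, v₂, w₁, w₂, hv₁, hv₂, hv, hOm⟩
  clear hmem hsplit hba
  have hba : D.S b a = 0 := by rw [hS.symm]; exact hab
  -- a symplectic basis adapted to the first coordinate
  set δ := D.om v₁ v₂ with hδ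
  set e := v₁ with he
  set f := δ⁻¹ • v₂ with hf
  have hef : D.om e f = 1 := by rw [he, hf, map_smul, smul_eq_mul, inv_mul_cancel₀ hv]
  have hfe : D.om f e = -1 := by rw [D.om_skew, hef]
  obtain ⟨x11, x21, hw1⟩ : ∃ x y : F, w₁ = x • e + y • f :=
    ⟨D.om w₁ f, -D.om w₁ e, by
      have := h.expand (e := e) (f := f) (by rw [hef]; exact one_ne_zero) w₁
      rw [hef, one_smul] at this
      rw [neg_smul, ← sub_eq_add_neg]; exact this⟩
  obtain ⟨x12, x22, hw2⟩ : ∃ x y : F, δ⁻¹ • w₂ = x • e + y • f :=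
    ⟨D.om (δ⁻¹ • w₂) f, -D.om (δ⁻¹ • w₂) e, by
      have := h.expand (e := e) (f := f) (by rw [hef]; exact one_ne_zero) (δ⁻¹ • w₂)
      rw [hef, one_smul] at this
      rw [neg_smul, ← sub_eq_add_neg]; exact this⟩
  set y₂ := δ⁻¹ • f₀ with hy₂
  have hP1 : Φ e₀ = D.p e a + D.p (x11 • e + x21 • f) b := by rw [hv₁, hw1]
  have hP2 : Φ y₂ = D.p f a + D.p (x12 • e + x22 • f) b := by
    rw [hy₂, map_smul, hv₂, smul_add, ← hw2, hf]
    simp only [map_smul, LinearMap.smul_apply]
  have hC0 : D.S a a + D.S b b * (x11 * x22 - x12 * x21) = D.S u u * D.om e₀ y₂ := by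
    have h1 : D.om w₁ (δ⁻¹ • w₂) = x11 * x22 - x12 * x21 := by
      rw [hw1, hw2]; simp [D.om_self, hef, hfe]; ring
    rw [← h1, map_smul, hy₂, map_smul, hef₀, hOm, smul_eq_mul, smul_eq_mul]
    field_simp
  have hCne : D.S u u * D.om e₀ y₂ ≠ 0 := by
    rw [hy₂, map_smul, hef₀, smul_eq_mul, mul_one]
    exact mul_ne_zero hu (inv_ne_zero hv)
  clear_value e f y₂
  by_cases hscal : x12 = 0 ∧ x21 = 0 ∧ x11 = x22
  · -- pure
    obtain ⟨rfl, rfl, rfl⟩ := hscal
    refine ⟨a + x11 • b, fun y => ⟨D.om y f₀ • e + (-δ * D.om y e₀) • f, ?_⟩⟩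
    have hy := h.expand (e := e₀) (f := f₀) (by rw [hef₀]; exact one_ne_zero) y
    rw [hef₀, one_smul] at hy
    have hf0' : Φ f₀ = δ • Φ y₂ := by rw [hy₂, map_smul, smul_inv_smul₀ hv]
    rw [hΦapp, hy, map_sub, map_smul, map_smul, hf0', hP1, hP2]
    simp only [zero_smul, add_zero, zero_add, map_add, map_smul, LinearMap.add_apply,
      LinearMap.smul_apply]
    have : D.om (D.om y f₀ • e₀ - D.om y e₀ • f₀) e₀ = D.om y e₀ := by rw [← hy]
    rw [this, show D.om (D.om y f₀ • e₀ - D.om y e₀ • f₀) f₀ = D.om y f₀ by rw [← hy]]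
    module
  exfalso
  obtain ⟨m, hm, ham, hbm, hmm⟩ := h.exists_third hW ha hb hab
  -- transport to three elements
  haveI : Fact (Nat.Prime 3) := ⟨by norm_num⟩
  haveI : CharP F 3 := (CharP.charP_iff_prime_eq_zero (by norm_num)).2 (by exact_mod_cast h.three)
  set ι := ZMod.castHom (dvd_refl 3) F with hι
  have hιb : ∀ x : F, ∃ z : ZMod 3, ι z = x := by
    intro x
    rcases eq_or_ne x 0 with rfl | hx
    · exact ⟨0, map_zero _⟩
    rcases mul_self_eq_one_iff.1 (h.sq x hx) with rfl | rfl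
    · exact ⟨1, map_one _⟩
    · exact ⟨-1, by rw [map_neg, map_one]⟩
  have hιi : Function.Injective ι := ι.injective
  obtain ⟨qa, hqa⟩ := hιb (D.S a a)
  obtain ⟨qb, hqb⟩ := hιb (D.S b b)
  obtain ⟨z11, rfl⟩ := hιb x11
  obtain ⟨z12, rfl⟩ := hιb x12
  obtain ⟨z21, rfl⟩ := hιb x21
  obtain ⟨z22, rfl⟩ := hιb x22
  have hchk := Witness.check qa qb z11 z12 z21 z22 (fun h0 => ha (by rw [← hqa, h0, map_zero]))
    (fun h0 => hb (by rw [← hqb, h0, map_zero]))
    (fun h0 => hCne (by
      rw [← hC0, ← hqa, ← hqb, ← map_mul, ← map_mul, ← map_sub, ← map_mul, ← map_add, h0,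
        map_zero]))
    (by
      by_contra hc
      push Not at hc
      exact hscal ⟨by rw [hc.1, map_zero], by rw [hc.2.1, map_zero], by rw [hc.2.2]⟩)
  obtain ⟨hqr0, hchk⟩ := hchk
  set c := (⟨qa, qb, 1 - qa * qb, z11, z12, z21, z22⟩ : Witness.Par (ZMod 3)).map ι with hc
  set r := a + b + m with hr
  have hma : D.S m a = 0 := by rw [hS.symm]; exact ham
  have hmb : D.S m b = 0 := by rw [hS.symm]; exact hbm
  have hqm : c.qm = D.S m m := by
    simp [hc, Witness.Par.map, hmm, hqa, hqb]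
  have hrr : D.S r r = Witness.qr c := by
    simp [hr, hab, hba, ham, hbm, hma, hmb, Witness.qr, hqm]
    simp [hc, Witness.Par.map, hqa, hqb]
  have hrne : D.S r r ≠ 0 := by
    rw [hrr]
    intro h0
    refine hqr0 (hιi ?_)
    simpa [hc, Witness.qr, Witness.Par.map] using h0
  obtain ⟨R₀, hR₀, hR₀e, -⟩ := hC.right_refl hu
  obtain ⟨Rr, hRr, hRre, -⟩ := hC.right_refl hrne
  set su : (Module.End F V)ˣ := g * R₀ * g⁻¹ with hsu
  have hsu₀ : ∀ v, (su : Module.End F V) v = v + Witness.cc c •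
      (D.Om (Φ e₀) v • Φ y₂ - D.Om (Φ y₂) v • Φ e₀) := fun v => by
    rw [hsu, Units.val_mul, Units.val_mul, hR₀e, Module.End.mul_apply, Module.End.mul_apply,
      h.conj_refl hg hu (y₁ := e₀) (y₂ := y₂) (fun h0 => hCne (by rw [h0, mul_zero])) v,
      h.two_div _ hCne, ← hC0, hΦapp, hΦapp, D.Om_skew (Φ e₀) v, D.Om_skew (Φ y₂) v]
    rw [show Witness.cc c = D.S a a + D.S b b * (ι z11 * ι z22 - ι z12 * ι z21) by
      simp [hc, Witness.cc, Witness.Par.map, hqa, hqb]]
    module
  -- the contractions in coordinates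
  let co : V → Witness.Pt F → Prop := fun v t =>
    D.i e v = emb a b m t.1 ∧ D.i f v = emb a b m t.2
  have hco1 : co (Φ e₀) (Witness.P1 c) := by
    constructor <;> rw [hP1] <;>
      simp [emb, Witness.P1, hc, Witness.Par.map, D.i_p, D.om_self, hef, hfe]
  have hco2 : co (Φ y₂) (Witness.P2 c) := by
    constructor <;> rw [hP2] <;>
      simp [emb, Witness.P2, hc, Witness.Par.map, D.i_p, D.om_self, hef, hfe]
  have hSa : ∀ t, D.S a (emb a b m t) = D.S a a * t.1 := fun t => by simp [emb, hab, ham]; ring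
  have hSb : ∀ t, D.S b (emb a b m t) = D.S b b * t.2.1 := fun t => by simp [emb, hba, hbm]; ring
  have hstep : ∀ s t u v p, co v p →
      ∀ d ∈ M, (∀ v, D.i e ((d : Module.End F V) v) = D.i e v - t • (D.i f v - u • D.i e v) ∧
        D.i f ((d : Module.End F V) v) =
          D.i f v - u • D.i e v - s • (D.i e v - t • (D.i f v - u • D.i e v))) →
        co (((su * Rr * d : (Module.End F V)ˣ) : Module.End F V) v) (Witness.mv c s t u p) := by
    intro s t u v p hp d _ hd
    set q := Witness.el1 s (Witness.el2 t (Witness.el1 u p)) with hq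
    have hq1 : D.i e ((d : Module.End F V) v) = emb a b m q.1 := by
      rw [(hd v).1, hp.1, hp.2]
      simp only [hq, Witness.el1, Witness.el2, emb]; module
    have hq2 : D.i f ((d : Module.End F V) v) = emb a b m q.2 := by
      rw [(hd v).2, hp.1, hp.2]
      simp only [hq, Witness.el1, Witness.el2, emb]; module
    have hrefl : ∀ t : Witness.Tri F,
        refl D.S r (emb a b m t) = emb a b m (Witness.rt c t) := fun t => by
      rw [refl_apply, h.two_div _ hrne]
      simp [Witness.rt, emb, hr, ← hrr, hab, hba, ham, hbm, hma, hmb, hqm,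
        show c.qa = D.S a a by simp [hc, Witness.Par.map, hqa],
        show c.qb = D.S b b by simp [hc, Witness.Par.map, hqb]]
      match_scalars <;> ring
    set w := (Witness.rt c q.1, Witness.rt c q.2) with hw
    set v' := (Rr : Module.End F V) ((d : Module.End F V) v) with hv'
    have hw1 : D.i e v' = emb a b m w.1 := by rw [hv', hRre, D.i_act, hq1, hrefl]
    have hw2 : D.i f v' = emb a b m w.2 := by rw [hv', hRre, D.i_act, hq2, hrefl]
    have hOm1 : D.Om (Φ e₀) v' = D.S a a * w.1.1 + D.S b b * (ι z11 * w.1.2.1 + ι z21 * w.2.2.1) := by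
      rw [hP1]
      simp only [map_add, map_smul, LinearMap.add_apply, LinearMap.smul_apply, D.Om_p, hw1, hw2,
        hSa, hSb, smul_eq_mul]
      ring
    have hOm2 : D.Om (Φ y₂) v' = D.S a a * w.2.1 + D.S b b * (ι z12 * w.1.2.1 + ι z22 * w.2.2.1) := by
      rw [hP2]
      simp only [map_add, map_smul, LinearMap.add_apply, LinearMap.smul_apply, D.Om_p, hw1, hw2,
        hSa, hSb, smul_eq_mul]
      ring
    show co ((su : Module.End F V) v') (Witness.sg c w)
    rw [hsu₀]
    constructor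
    · rw [map_add, map_smul, map_sub, map_smul, map_smul, hw1, hco1.1, hco2.1, hOm1, hOm2]
      simp [Witness.sg, emb, hc, Witness.Par.map, hqa, hqb, Witness.P1, Witness.P2]
      module
    · rw [map_add, map_smul, map_sub, map_smul, map_smul, hw2, hco1.2, hco2.2, hOm1, hOm2]
      simp [Witness.sg, emb, hc, Witness.Par.map, hqa, hqb, Witness.P1, Witness.P2]
      module
  set u₀ := u with hu₀
  have final : ∀ s t w : F, Witness.Indep3 c s t w → False := by
    intro s t w₀ hind
    obtain ⟨d, hd, hde⟩ := h.exists_el hef s t w₀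
    have hA := hstep s t w₀ _ _ hco1 d hd hde
    have hB := hstep s t w₀ _ _ hco2 d hd hde
    set G := su * Rr * d * g with hG
    have hGm : G ∈ M :=
      mul_mem (mul_mem (mul_mem (mul_mem (mul_mem hg hR₀) (inv_mem hg)) hRr) hd) hg
    obtain ⟨W₀, hW₀, hin⟩ : ∃ W₀ : Submodule F W, finrank F W₀ ≤ 2 ∧
        ∀ y x, D.i x ((G : Module.End F V) (D.p y u₀)) ∈ W₀ := by
      rcases h.plane_cases hGm hu with ⟨w, hw⟩ | ⟨a', b', -, -, -, hab'⟩
      · refine ⟨Submodule.span F {w}, ?_, fun y x => ?_⟩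
        · exact (finrank_span_le_card {w}).trans (by simp)
        · obtain ⟨z, hz⟩ := hw y
          rw [hz, D.i_p]
          exact Submodule.smul_mem _ _ (Submodule.mem_span_singleton_self w)
      · refine ⟨Submodule.span F {a', b'}, ?_, fun y x => ?_⟩
        · classical
          refine (finrank_span_le_card {a', b'}).trans ?_
          simp only [Set.toFinset_insert, Set.toFinset_singleton]
          exact Finset.card_le_two
        · obtain ⟨α, β, hαβ⟩ := hab' y x
          rw [hαβ]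
          exact Submodule.mem_span_pair.2 ⟨α, β, rfl⟩
    have hGe : ∀ y, (G : Module.End F V) (D.p y u₀) =
        ((su * Rr * d : (Module.End F V)ˣ) : Module.End F V) (Φ y) := fun y => rfl
    have p1 := hin e₀ e
    have p2 := hin e₀ f
    have p3 := hin y₂ e
    have p4 := hin y₂ f
    rw [hGe] at p1 p2 p3 p4
    rw [hA.1] at p1
    rw [hA.2] at p2
    rw [hB.1] at p3
    rw [hB.2] at p4
    rcases hind with hd' | hd' | hd' | hd'
    · exact hd' (h.not_indep ha hb hm hab ham hbm hW₀ p1 p2 p3)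
    · exact hd' (h.not_indep ha hb hm hab ham hbm hW₀ p1 p2 p4)
    · exact hd' (h.not_indep ha hb hm hab ham hbm hW₀ p1 p3 p4)
    · exact hd' (h.not_indep ha hb hm hab ham hbm hW₀ p2 p3 p4)
  rcases hchk with hk | hk | hk
  · exact final _ _ _ (hk.map ι hιi)
  · exact final _ _ _ (hk.map ι hιi)
  · exact final _ _ _ (hk.map ι hιi)

/-- Images of all vectors with one common first-factor map. -/
theorem pure_of_planes [FiniteDimensional F W] (hW : finrank F W = 4) [Finite F]
    {g : (Module.End F V)ˣ} (hg : g ∈ M) :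
    ∃ (C : Module.End F U) (k : Module.End F W),
      ∀ x w, (g : Module.End F V) (D.p x w) = D.p (C x) (k w) := by
  classical
  have hC := h.ctx
  have hS := hC.orth
  haveI : Nontrivial U := Module.nontrivial_of_finrank_pos (R := F) (by rw [h.dimU]; norm_num)
  obtain ⟨e₀, he₀⟩ := exists_ne (0 : U)
  have hginj : ∀ v, (g : Module.End F V) v = 0 → v = 0 := fun v hv =>
    (LinearMap.GeneralLinearGroup.generalLinearEquiv F V g).map_eq_zero_iff.1 hv
  have hline : ∀ u, D.S u u ≠ 0 → ∃ (w : W) (C : Module.End F U), w ≠ 0 ∧ C e₀ ≠ 0 ∧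
      ∀ y, (g : Module.End F V) (D.p y u) = D.p (C y) w := by
    intro u hu
    have hu0 : u ≠ 0 := fun h0 => hu (by rw [h0]; simp)
    obtain ⟨w, hw⟩ := h.plane_pure hW hg hu
    choose C hC' using hw
    have hw0 : w ≠ 0 := fun h0 => he₀ (D.eq_zero_of_p (hginj _ (by rw [hC', h0, map_zero])) hu0)
    have huniq : ∀ p q : U, D.p p w = D.p q w → p = q := fun p q hpq => sub_eq_zero.1
      (D.eq_zero_of_p (by rw [map_sub, LinearMap.sub_apply, hpq, sub_self]) hw0)
    refine ⟨w, ⟨⟨C, fun p q => huniq _ _ ?_⟩, fun r p => huniq _ _ ?_⟩, hw0, fun h0 => ?_, hC'⟩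
    · simp only [map_add, LinearMap.add_apply, ← hC']
    · simp only [map_smul, LinearMap.smul_apply, ← hC', RingHom.id_apply]
    · refine he₀ (D.eq_zero_of_p (hginj _ ?_) hu0)
      rw [hC', show C e₀ = 0 from h0, map_zero, LinearMap.zero_apply]
  -- a vector of norm one
  obtain ⟨u₁, hu₁⟩ := exists_aniso hS
  obtain ⟨u₂, h12, hu₂⟩ := exists_perp hS hu₁
  obtain ⟨α, β, ha⟩ := exists_value hS hu₁ hu₂ h12 1
  set a := α • u₁ + β • u₂
  obtain ⟨wa, C, hwa, hCe, hgC⟩ := hline a (by rw [ha]; exact one_ne_zero)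
  let A : Submodule F W :=
    { carrier := {w | ∃ w', ∀ y, (g : Module.End F V) (D.p y w) = D.p (C y) w'}
      add_mem' := fun {p q} hp hq => by
        obtain ⟨p', hp⟩ := hp
        obtain ⟨q', hq⟩ := hq
        exact ⟨p' + q', fun y => by simp only [map_add, hp, hq]⟩
      zero_mem' := ⟨0, fun y => by simp⟩
      smul_mem' := fun r p hp => by
        obtain ⟨p', hp⟩ := hp
        exact ⟨r • p', fun y => by simp only [map_smul, hp]⟩ }
  have haA : a ∈ A := ⟨wa, hgC⟩
  have hone : ∀ v, D.S v v = 1 → v ∈ A := by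
    intro v hv
    obtain ⟨wv, Cv, hwv, hCv, hgv⟩ := hline v (by rw [hv]; exact one_ne_zero)
    obtain ⟨t, ht, hne⟩ : ∃ t : F, t ≠ 0 ∧ D.S (v + t • a) (v + t • a) ≠ 0 := by
      by_cases h0 : D.S (v + a) (v + a) = 0
      · refine ⟨-1, neg_ne_zero.2 one_ne_zero, fun h1 => ?_⟩
        simp [hv, ha, hS.symm v a] at h0 h1
        refine mul_ne_zero hS.two hS.two ?_
        linear_combination h0 + h1
      · exact ⟨1, one_ne_zero, by rwa [one_smul]⟩
    obtain ⟨w', C', -, -, hg'⟩ := hline _ hne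
    have heq : ∀ y, D.p (C' y) w' = D.p (Cv y) wv + t • D.p (C y) wa := fun y => by
      rw [← hg', ← hgv, ← hgC, map_add, map_smul, map_add, map_smul]
    haveI : FiniteDimensional F U := Module.finite_of_finrank_pos (by rw [h.dimU]; norm_num)
    by_cases hmul : wv ∈ Submodule.span F {wa}
    · -- the same line
      obtain ⟨r, hr⟩ := Submodule.mem_span_singleton.1 hmul
      have hCinj : Function.Injective C := by
        rw [← LinearMap.ker_eq_bot, LinearMap.ker_eq_bot']
        intro y hy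
        exact D.eq_zero_of_p (hginj _ (by rw [hgC, hy, map_zero, LinearMap.zero_apply]))
          (fun h0 => one_ne_zero (by rw [← ha, h0]; simp))
      obtain ⟨y', hy'⟩ := LinearMap.injective_iff_surjective.1 hCinj (r • Cv e₀)
      have h0 : D.p e₀ v = D.p y' a := sub_eq_zero.1 (hginj _ (by
        rw [map_sub, hgv, hgC, hy', ← hr, map_smul, map_smul, LinearMap.smul_apply, sub_self]))
      obtain ⟨z, hz⟩ := D.exists_pair he₀
      have h1 := congrArg (D.i (-z)) h0
      rw [D.i_p, D.i_p, map_neg, LinearMap.neg_apply, D.om_skew e₀ z, hz, neg_neg, one_smul] at h1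
      rw [h1]
      exact A.smul_mem _ haA
    · obtain ⟨φ, hφv, hφ⟩ := Submodule.exists_dual_map_eq_bot_of_notMem hmul inferInstance
      have hφa : φ wa = 0 := by
        rw [← Submodule.mem_bot F, ← hφ]
        exact Submodule.mem_map_of_mem (Submodule.mem_span_singleton_self wa)
      have hna : wa ∉ Submodule.span F {wv} := fun hm => by
        obtain ⟨r, hr⟩ := Submodule.mem_span_singleton.1 hm
        rcases eq_or_ne r 0 with rfl | hr0
        · exact hwa (by rw [← hr, zero_smul])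
        · exact hmul (Submodule.mem_span_singleton.2 ⟨r⁻¹, by rw [← hr, inv_smul_smul₀ hr0]⟩)
      obtain ⟨ψ, hψa, hψ⟩ := Submodule.exists_dual_map_eq_bot_of_notMem hna inferInstance
      have hψv : ψ wv = 0 := by
        rw [← Submodule.mem_bot F, ← hψ]
        exact Submodule.mem_map_of_mem (Submodule.mem_span_singleton_self wv)
      have hfun : ∀ (χ : W →ₗ[F] F) y, χ w' • C' y = χ wv • Cv y + (t * χ wa) • C y := fun χ y => by
        refine sub_eq_zero.1 (D.om_nd _ fun z => ?_)
        rw [D.om_skew z, neg_eq_zero]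
        have h1 := congrArg (fun q => χ (D.i z q)) (heq y)
        simp only [map_add, map_smul, D.i_p, smul_eq_mul] at h1
        simp only [map_sub, map_add, map_smul, smul_eq_mul]
        linear_combination h1
      have e1 := hfun φ
      have e2 := hfun ψ
      simp only [hφa, hψv, mul_zero, zero_smul, add_zero, zero_add] at e1 e2
      have hψw : ψ w' ≠ 0 := fun h0 => hCe (by
        have := e2 e₀
        rw [h0, zero_smul, eq_comm, smul_eq_zero] at this
        exact this.resolve_left (mul_ne_zero ht hψa))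
      refine ⟨((φ wv)⁻¹ * φ w' * (ψ w')⁻¹ * (t * ψ wa)) • wv, fun y => ?_⟩
      have hCy : Cv y = ((φ wv)⁻¹ * φ w' * (ψ w')⁻¹ * (t * ψ wa)) • C y := by
        rw [mul_smul, ← e2 y, smul_smul, inv_mul_cancel_right₀ hψw, mul_smul, e1 y,
          inv_smul_smul₀ hφv]
      rw [hgv, hCy, map_smul, map_smul, LinearMap.smul_apply]
  have hall : ∀ w, w ∈ A := by
    have hneg : ∀ v, D.S v v = -1 → v ∈ A := by
      intro v hv
      have hv0 : D.S v v ≠ 0 := by rw [hv]; exact neg_ne_zero.2 one_ne_zero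
      obtain ⟨n, hvn, hnn⟩ := exists_perp hS hv0
      obtain ⟨n', hvn', hnn', hn'⟩ := exists_perp_pair hS hv0 hnn hvn
      obtain ⟨α', β', hy⟩ := exists_value hS hnn hn' hnn' 2
      set y := α' • n + β' • n'
      have hvy : D.S v y = 0 := by simp [y, hvn, hvn']
      have hyv : D.S y v = 0 := by rw [hS.symm]; exact hvy
      have h1 : v + (v + y) ∈ A := hone _ (by
        simp [hvy, hyv, hv, hy]; linear_combination -h.three)
      have h2 : v + y ∈ A := hone _ (by simp [hvy, hyv, hv, hy]; norm_num)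
      simpa using A.sub_mem h1 h2
    have haniso : ∀ v, D.S v v ≠ 0 → v ∈ A := fun v hv => by
      rcases mul_self_eq_one_iff.1 (h.sq _ hv) with h1 | h1
      · exact hone v h1
      · exact hneg v h1
    intro w
    by_cases hw : D.S w w = 0
    · by_cases h1 : D.S (w + a) (w + a) = 0
      · have h2 : D.S (w - a) (w - a) ≠ 0 := fun h2 => by
          simp [hw, ha, hS.symm a w] at h1 h2
          exact hS.two (by linear_combination h1 + h2)
        simpa using A.add_mem (haniso _ h2) haA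
      · simpa using A.sub_mem (haniso _ h1) haA
    · exact haniso w hw
  choose k hk using hall
  have hkuniq : ∀ p q : W, D.p (C e₀) p = D.p (C e₀) q → p = q := fun p q hpq =>
    D.p_injective hCe hpq
  exact ⟨C, ⟨⟨k, fun p q => hkuniq _ _ (by simp only [map_add, ← hk])⟩,
    fun r p => hkuniq _ _ (by simp only [map_smul, ← hk, RingHom.id_apply])⟩,
    fun x w => hk w x⟩

end TFT

/-- The decomposition `Sp₂ ⊗ O₄⁻` is maximal in `Sp₈(3)`. -/
theorem spGL_tensor_two_four_maximal_three {F : Type*} [Field F] [Fintype F]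
    (h3 : Fintype.card F = 3) (e : (Fin 4 ⊕ Fin 4) ≃ Fin 2 × Fin 4) (P : GL (Fin 4 ⊕ Fin 4) F)
    (f₁ : (Fin 2 → F) → (Fin 2 → F) → F) (f₂ : (Fin 4 → F) → (Fin 4 → F) → F)
    (hf₁ : IsSymplecticForm f₁) (hf₂ : IsSymmetricForm f₂)
    (hminus : ¬ IsPlusTypeOn (fun v : Fin 4 → F => f₂ v v) ⊤)
    (hT : IsTensorFormStructure id (Cfsg.sympForm 4 F) f₁ f₂ e P) :
    IsMaximalIn (Cfsg.spGL 4 F) (tensorProductSubgroup 2 4 e P ⊓ Cfsg.spGL 4 F) := by
  have h := setup_of (by rw [h3]; decide) (by norm_num) hf₁ hf₂ hT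
  refine h.maximal_of_pure (by norm_num) (fun _ => le_rfl) fun M hC hL g hg => ?_
  have hthree : (3 : F) = 0 := by
    have := FiniteField.cast_card_eq_zero F
    rw [h3] at this
    exact_mod_cast this
  have hT' : TFT h.data M :=
    { ctx := hC
      scal := hL
      dimU := finrank_fin_fun F
      three := hthree
      sq := fun x hx => by
        have := FiniteField.pow_card_sub_one_eq_one x hx
        rwa [h3, show 3 - 1 = 2 from rfl, sq] at this
      minus := fun W₀ hW₀ => by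
        by_contra hc
        push Not at hc
        refine hminus ⟨W₀, le_top, fun w hw => hc w hw w hw, ?_⟩
        rw [hW₀, finrank_top, finrank_fin_fun] }
  exact hT'.pure_of_planes (finrank_fin_fun F) hg

/-- The decomposition `Sp₂ ⊗ O₄⁻` is maximal in `Sp₈(F)`. -/
theorem spGL_tensor_two_four_maximal_all {F : Type*} [Field F] [Fintype F]
    (hodd : Odd (Fintype.card F)) (e : (Fin 4 ⊕ Fin 4) ≃ Fin 2 × Fin 4) (P : GL (Fin 4 ⊕ Fin 4) F)
    (f₁ : (Fin 2 → F) → (Fin 2 → F) → F) (f₂ : (Fin 4 → F) → (Fin 4 → F) → F)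
    (hf₁ : IsSymplecticForm f₁) (hf₂ : IsSymmetricForm f₂)
    (hminus : ¬ IsPlusTypeOn (fun v : Fin 4 → F => f₂ v v) ⊤)
    (hT : IsTensorFormStructure id (Cfsg.sympForm 4 F) f₁ f₂ e P) :
    IsMaximalIn (Cfsg.spGL 4 F) (tensorProductSubgroup 2 4 e P ⊓ Cfsg.spGL 4 F) := by
  by_cases h3 : Fintype.card F = 3
  · exact spGL_tensor_two_four_maximal_three h3 e P f₁ f₂ hf₁ hf₂ hminus hT
  · exact spGL_tensor_two_four_maximal hodd h3 e P f₁ f₂ hf₁ hf₂ hminus hT

end Cfsg.Agent.GeoLow.TensorSO
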